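import Cfsg.Agent.Lib.SuzukiType.Space
import Cfsg.Agent.Lib.ExtraspecialLarge.Setting

/-!
An involution centraliser `2^(1+6) . Omega^-(6,2)`: coordinates on the extraspecial group and the
action of the centraliser on them.
-/

set_option autoImplicit false
set_option linter.unusedSectionVars false

namespace CfsgLib.SuzukiType

open CfsgLib.ExtraspecialLarge

variable {G : Type*} [Group G]

/-- Coordinates `θ` on `Qf z` modulo `⟨z⟩` and the image `J` of the centraliser of `z` acting on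
them through `ρ`. -/
structure Setting (z : G) (Qf : G → Subgroup G) (θ : G → V) (ρ : G → O) (J : Subgroup O) :
    Prop where
  core : CoreSetting Qf z
  θ_mul : ∀ x ∈ Qf z, ∀ y ∈ Qf z, θ (x * y) = θ x + θ y
  θ_surj : ∀ v, ∃ x ∈ Qf z, θ x = v
  θ_ker : ∀ x ∈ Qf z, θ x = 0 ↔ x = 1 ∨ x = z
  θ_sq : ∀ x ∈ Qf z, x * x = 1 ↔ q (θ x) = 0
  ρ_act : ∀ c, c * z = z * c → ∀ x ∈ Qf z, θ (c * x * c⁻¹) = ap (ρ c) (θ x)
  half : Half J
  ρ_mem : ∀ c, c * z = z * c → ρ c ∈ J
  ρ_surj : ∀ j ∈ J, ∃ c, c * z = z * c ∧ ρ c = j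
  ρ_ker : ∀ c, c * z = z * c → (ρ c = 1 ↔ c ∈ Qf z)

/-- The power of `a` with exponent in the field with two elements. -/
def zp (a : G) (t : ZMod 2) : G := if t = 0 then 1 else a

@[simp] theorem zp_zero (a : G) : zp a 0 = 1 := rfl
@[simp] theorem zp_one (a : G) : zp a 1 = a := rfl

theorem zp_add {a : G} (ha : a * a = 1) (s t : ZMod 2) : zp a (s + t) = zp a s * zp a t := by
  rcases z2_cases s with rfl | rfl <;> rcases z2_cases t with rfl | rfl
  · simp
  · simp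
  · simp
  · rw [show (1 : ZMod 2) + 1 = 0 from rfl, zp_zero, zp_one, ha]

theorem zp_mem {a : G} {H : Subgroup G} (ha : a ∈ H) (t : ZMod 2) : zp a t ∈ H := by
  rcases z2_cases t with rfl | rfl
  · exact H.one_mem
  · exact ha

theorem zp_comm {a x : G} (h : x * a = a * x) (t : ZMod 2) : x * zp a t = zp a t * x := by
  rcases z2_cases t with rfl | rfl
  · simp
  · simpa using h

theorem conj_fix_iff {a b : G} : a * b * a⁻¹ = b ↔ a * b = b * a := mul_inv_eq_iff_eq_mul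

theorem comm_inv {a b : G} (h : a * b = b * a) : a⁻¹ * b = b * a⁻¹ :=
  (Commute.inv_left (show Commute a b from h)).eq

theorem comm_mul {a b c : G} (h : a * c = c * a) (h' : b * c = c * b) :
    a * b * c = c * (a * b) :=
  (Commute.mul_left (show Commute a c from h) (show Commute b c from h')).eq

namespace Setting

variable [Finite G] {z : G} {Qf : G → Subgroup G} {θ : G → V} {ρ : G → O} {J : Subgroup O}
  (S : Setting z Qf θ ρ J)
include S

theorem good : Good (Qf z) z := S.core.good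

theorem z_mem : z ∈ Qf z := S.good.mem

theorem z_sq : z * z = 1 := S.good.sq_u

theorem z_ne : z ≠ 1 := S.good.ne_one

theorem comm_z {x : G} (hx : x ∈ Qf z) : x * z = z * x := S.good.comm x hx

theorem θ_one : θ 1 = 0 := (S.θ_ker 1 (one_mem _)).2 (Or.inl rfl)

theorem θ_z : θ z = 0 := (S.θ_ker z S.z_mem).2 (Or.inr rfl)

theorem θ_inv {x : G} (hx : x ∈ Qf z) : θ x⁻¹ = θ x := by
  have h := S.θ_mul x hx x⁻¹ ((Qf z).inv_mem hx)
  rw [mul_inv_cancel, S.θ_one] at h
  exact (vadd_eq_zero.1 h.symm).symm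

theorem eq_or_of_θ {x y : G} (hx : x ∈ Qf z) (hy : y ∈ Qf z) (h : θ x = θ y) :
    x = y ∨ x = z * y := by
  have h0 : θ (x * y⁻¹) = 0 := by
    rw [S.θ_mul x hx _ ((Qf z).inv_mem hy), S.θ_inv hy, h, vadd_self]
  rcases (S.θ_ker _ ((Qf z).mul_mem hx ((Qf z).inv_mem hy))).1 h0 with e | e
  · exact Or.inl (mul_inv_eq_one.1 e)
  · exact Or.inr (mul_inv_eq_iff_eq_mul.1 e)

theorem θ_z_mul {x : G} (hx : x ∈ Qf z) : θ (z * x) = θ x := by
  rw [S.θ_mul z S.z_mem x hx, S.θ_z, zero_add]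

theorem sq_eq {x : G} (hx : x ∈ Qf z) : x * x = zp z (q (θ x)) := by
  rcases z2_cases (q (θ x)) with h | h
  · rw [h, zp_zero]; exact (S.θ_sq x hx).2 h
  · rw [h, zp_one]
    refine (S.good.sq x hx).resolve_left fun e => ?_
    rw [(S.θ_sq x hx).1 e] at h
    exact zero_ne_one h

theorem conj_eq {x y : G} (hx : x ∈ Qf z) (hy : y ∈ Qf z) :
    x * y * x⁻¹ = zp z (bl (θ x) (θ y)) * y := by
  obtain ⟨t, ht⟩ : ∃ t : ZMod 2, x * y * x⁻¹ = zp z t * y := by
    rcases S.good.cases_conj x hx y hy with e | e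
    · exact ⟨0, by rw [zp_zero, one_mul]; exact e⟩
    · exact ⟨1, by rw [zp_one]; exact e⟩
  suffices t = bl (θ x) (θ y) by rw [← this]; exact ht
  have hxy := (Qf z).mul_mem hx hy
  have hyx : y * x = zp z t * (x * y) := by
    rw [mul_inv_eq_iff_eq_mul] at ht
    rw [ht, ← mul_assoc, ← mul_assoc, ← zp_add S.z_sq, CharTwo.add_self_eq_zero, zp_zero, one_mul]
  have h1 : x * y * (x * y) = zp z (t + (q (θ x) + q (θ y))) := by
    have hzx : x * zp z t = zp z t * x := zp_comm (S.comm_z hx) t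
    have hzqy : x * zp z (q (θ y)) = zp z (q (θ y)) * x := zp_comm (S.comm_z hx) _
    calc x * y * (x * y) = x * (y * x) * y := by group
      _ = x * zp z t * x * (y * y) := by rw [hyx]; group
      _ = zp z t * (x * x) * zp z (q (θ y)) := by rw [hzx, S.sq_eq hy]; group
      _ = zp z (t + (q (θ x) + q (θ y))) := by
        rw [S.sq_eq hx, zp_add S.z_sq, zp_add S.z_sq, mul_assoc]
  have h2 := S.sq_eq hxy
  rw [S.θ_mul x hx y hy, q_add, h1] at h2
  have h3 : t + (q (θ x) + q (θ y)) = q (θ x) + q (θ y) + bl (θ x) (θ y) := by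
    rcases z2_cases (t + (q (θ x) + q (θ y))) with a | a <;>
      rcases z2_cases (q (θ x) + q (θ y) + bl (θ x) (θ y)) with b | b <;> rw [a, b] at h2 ⊢
    · exact absurd h2.symm S.z_ne
    · exact absurd h2 S.z_ne
  linear_combination h3

theorem comm_of_bl {x y : G} (hx : x ∈ Qf z) (hy : y ∈ Qf z) (h : bl (θ x) (θ y) = 0) :
    x * y = y * x := by
  have := S.conj_eq hx hy
  rw [h, zp_zero, one_mul] at this
  exact conj_fix_iff.1 this

theorem bl_of_comm {x y : G} (hx : x ∈ Qf z) (hy : y ∈ Qf z) (h : x * y = y * x) :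
    bl (θ x) (θ y) = 0 := by
  have := S.conj_eq hx hy
  rw [conj_fix_iff.2 h] at this
  rcases z2_cases (bl (θ x) (θ y)) with e | e
  · exact e
  · rw [e, zp_one] at this
    exact absurd (right_eq_mul.1 this) S.z_ne

theorem conj_mem_Q {c x : G} (hc : c * z = z * c) (hx : x ∈ Qf z) : c * x * c⁻¹ ∈ Qf z :=
  S.good.norm c hc x hx

theorem ρ_mul {c d : G} (hc : c * z = z * c) (hd : d * z = z * d) : ρ (c * d) = ρ c * ρ d := by
  refine CfsgLib.ClassicalForms.orth_ext fun v => ?_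
  obtain ⟨x, hx, rfl⟩ := S.θ_surj v
  change ap (ρ (c * d)) (θ x) = ap (ρ c * ρ d) (θ x)
  rw [ap_mul, ← S.ρ_act _ (comm_mul hc hd) x hx, ← S.ρ_act d hd x hx,
    ← S.ρ_act c hc _ (S.conj_mem_Q hd hx)]
  congr 1
  group

theorem ρ_one : ρ 1 = 1 := (S.ρ_ker 1 (by simp)).2 (one_mem _)

theorem ρ_inv {c : G} (hc : c * z = z * c) : ρ c⁻¹ = (ρ c)⁻¹ := by
  refine eq_inv_of_mul_eq_one_left ?_
  rw [← S.ρ_mul (comm_inv hc) hc, inv_mul_cancel, S.ρ_one]

theorem ρ_of_mem {x : G} (hx : x ∈ Qf z) : ρ x = 1 := (S.ρ_ker x (S.comm_z hx)).2 hx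

theorem ρ_conj {c d : G} (hc : c * z = z * c) (hd : d * z = z * d) :
    ρ (c * d * c⁻¹) = ρ c * ρ d * (ρ c)⁻¹ := by
  rw [S.ρ_mul (comm_mul hc hd) (comm_inv hc), S.ρ_mul hc hd, S.ρ_inv hc]

end Setting

end CfsgLib.SuzukiType
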