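import Cfsg.Agent.Lib.SuzukiType.Space
import Mathlib.GroupTheory.Sylow

/-!
A Sylow 2-subgroup of the subgroup of index two, and its involutions: every involution is conjugate
to a Siegel transformation.
-/

set_option autoImplicit false
set_option maxRecDepth 100000
set_option synthInstance.maxSize 1000

namespace CfsgLib.SuzukiType

open CfsgLib.ClassicalForms

theorem planeVecs_spec : ∀ a ∈ planeVecs, bl e2V a = 0 ∧ sgf e2V a eV = eV ∧ sgf e2V a fV = fV ∧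
    ∀ b ∈ planeVecs, a + b ∈ planeVecs ∧ (sgf e2V a f2V = sgf e2V b f2V → a = b) := by
  decide +kernel

/-- The second Siegel transformation. -/
noncomputable def K (a : V) (ha : a ∈ planeVecs) : O := T e2V a q_e2V (planeVecs_spec a ha).1

theorem ap_K_eV {a : V} (ha : a ∈ planeVecs) : ap (K a ha) eV = eV :=
  (ap_T _ _ _ _ _).trans (planeVecs_spec a ha).2.1

theorem ap_K_fV {a : V} (ha : a ∈ planeVecs) : ap (K a ha) fV = fV :=
  (ap_T _ _ _ _ _).trans (planeVecs_spec a ha).2.2.1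

/-- The index set of the Sylow 2-subgroup. -/
abbrev PIdx : Type := {w : V // Mid w} × {a : V // a ∈ planeVecs}

/-- The elements of the Sylow 2-subgroup. -/
noncomputable def phi (p : PIdx) : O := Te p.1.1 p.1.2.bl_eV * K p.2.1 p.2.2

theorem phi_mul (p p' : PIdx) : ∃ p'' : PIdx, phi p * phi p' = phi p'' := by
  obtain ⟨⟨w, hw⟩, ⟨a, ha⟩⟩ := p
  obtain ⟨⟨w', hw'⟩, ⟨a', ha'⟩⟩ := p'
  have hm : Mid (md (ap (K a ha) w')) := mid_md (bl_eV_ap (ap_K_eV ha) hw'.bl_eV)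
  refine ⟨(⟨w + md (ap (K a ha) w'), hw.add hm⟩,
    ⟨a + a', ((planeVecs_spec a ha).2.2.2 a' ha').1⟩), ?_⟩
  have hc := conj_Te (ap_K_eV ha) hw'.bl_eV
  have hk : K a ha * K a' ha' = K (a + a') ((planeVecs_spec a ha).2.2.2 a' ha').1 := T_mul _ _ _
  calc phi (⟨w, hw⟩, ⟨a, ha⟩) * phi (⟨w', hw'⟩, ⟨a', ha'⟩)
      = Te w hw.bl_eV * (K a ha * Te w' hw'.bl_eV * (K a ha)⁻¹) * (K a ha * K a' ha') := by
        simp only [phi]; group
    _ = _ := by rw [hc, hk, Te_mul hw.bl_eV hm.bl_eV]; rfl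

theorem phi_one : phi (⟨0, mid_zero⟩, ⟨0, by simp [planeVecs]⟩) = 1 := by
  have h1 : Te 0 mid_zero.bl_eV = 1 := Te_zero
  have h2 : K 0 (by simp [planeVecs]) = 1 := T_zero q_e2V
  rw [phi, h1, h2, one_mul]

theorem phi_injective : Function.Injective phi := by
  rintro ⟨⟨w, hw⟩, ⟨a, ha⟩⟩ ⟨⟨w', hw'⟩, ⟨a', ha'⟩⟩ h
  have hf := congrArg (fun g => md (ap g fV + fV)) h
  simp only [phi, ap_mul, ap_K_fV, Te_param, md_of_mid hw, md_of_mid hw'] at hf
  subst hf
  have hk : K a ha = K a' ha' := mul_left_cancel h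
  have ha2 : a = a' := ((planeVecs_spec a ha).2.2.2 a' ha').2 (by
    have := congrArg (fun g => ap g f2V) hk
    simpa only [K, ap_T] using this)
  subst ha2
  rfl

theorem card_PIdx : Nat.card PIdx = 64 := by
  let e : ZMod 2 × ZMod 2 × ZMod 2 × ZMod 2 ≃ {w : V // Mid w} :=
    { toFun := fun x => ⟨vec 0 x.1 0 x.2.1 x.2.2.1 x.2.2.2, rfl, rfl⟩
      invFun := fun w => (w.1 (.inl (.inl 1)), w.1 (.inl (.inr 1)), w.1 (.inr 0), w.1 (.inr 1))
      left_inv := fun x => rfl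
      right_inv := fun w => Subtype.ext (by
        conv_rhs => rw [eq_vec w.1, w.2.1, w.2.2]) }
  have hnd : planeVecs.Nodup := by decide +kernel
  rw [Nat.card_prod, ← Nat.card_congr e, Nat.card_congr (List.Nodup.getEquiv planeVecs hnd).symm]
  simp [planeVecs]

/-- The Sylow 2-subgroup. -/
noncomputable def PSub : Subgroup O where
  carrier := Set.range phi
  mul_mem' := by
    rintro _ _ ⟨p, rfl⟩ ⟨p', rfl⟩
    obtain ⟨r, hr⟩ := phi_mul p p'
    exact ⟨r, hr.symm⟩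
  one_mem' := ⟨_, phi_one⟩
  inv_mem' := by
    rintro _ ⟨p, rfl⟩
    obtain ⟨⟨w, hw⟩, ⟨a, ha⟩⟩ := p
    obtain ⟨r, hr⟩ := phi_mul (⟨0, mid_zero⟩, ⟨a, ha⟩) (⟨w, hw⟩, ⟨0, by simp [planeVecs]⟩)
    refine ⟨r, ?_⟩
    rw [← hr]
    have h1 : Te 0 mid_zero.bl_eV = 1 := Te_zero
    have h2 : K 0 (by simp [planeVecs]) = 1 := T_zero q_e2V
    have h3 : (K a ha)⁻¹ = K a ha := inv_eq_of_mul_eq_one_right (T_mul_self _ _)
    have h4 : (Te w hw.bl_eV)⁻¹ = Te w hw.bl_eV := inv_eq_of_mul_eq_one_right (T_mul_self _ _)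
    simp only [phi, h1, h2, one_mul, mul_one, mul_inv_rev, h3, h4]

theorem card_PSub : Nat.card PSub = 64 := by
  rw [← card_PIdx]
  exact Nat.card_range_of_injective phi_injective

/-- Each involution of the Sylow subgroup is a Siegel transformation. -/
theorem exists_T_of_involution {p : PIdx} (hp : phi p * phi p = 1) :
    ∃ (v w : V) (hv : q v = 0) (hw : bl v w = 0), v ≠ 0 ∧ phi p = T v w hv hw := by
  obtain ⟨⟨w, hw⟩, ⟨a, ha⟩⟩ := p
  have hap : ∀ x, ap (phi (⟨w, hw⟩, ⟨a, ha⟩)) x = sgf eV w (sgf e2V a x) := fun x => by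
    simp only [phi, ap_mul, Te, K, ap_T]
  obtain ⟨r, -, h1, h2, h3, h4⟩ := involution_cand w hw a ha fun x _ => by
    rw [← hap x, ← hap, ← ap_mul, hp, ap_one]
  exact ⟨r.1, r.2, h1, h2, h3, O_ext_basis fun x hx => by rw [hap, h4 x hx, ap_T]⟩

theorem PSub_le {J : Subgroup O} (hJ : Half J) : PSub ≤ J := by
  rintro _ ⟨p, rfl⟩
  exact J.mul_mem (hJ.Te_mem _) (hJ.T_mem q_e2V (by decide) _)

/-- Every involution of a subgroup of index two is conjugate in it to a Siegel transformation at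
`eV`. -/
theorem Half.exists_conj_Te {J : Subgroup O} (hJ : Half J) {j : O} (hj : j ∈ J) (h2 : j * j = 1)
    (h1 : j ≠ 1) : ∃ g ∈ J, ∃ (w : V) (hw : Mid w), w ≠ 0 ∧ g * j * g⁻¹ = Te w hw.bl_eV := by
  haveI : Fact (Nat.Prime 2) := ⟨Nat.prime_two⟩
  haveI : Finite O := Nat.finite_of_card_ne_zero (by rw [card_O]; omega)
  have hcJ : Nat.card J = 25920 := by
    have h : 2 * Nat.card J = 51840 := hJ
    omega
  have hcP : Nat.card (PSub.subgroupOf J) = 2 ^ (Nat.card J).factorization 2 := by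
    rw [Nat.card_congr (Subgroup.subgroupOfEquivOfLe (PSub_le hJ)).toEquiv, card_PSub, hcJ]
    have h6 : (25920 : ℕ).factorization 2 = 6 := by
      rw [Nat.factorization_def _ Nat.prime_two,
        show (25920 : ℕ) = 2 ^ 6 * 405 by norm_num, padicValNat.mul (by norm_num) (by norm_num),
        padicValNat.prime_pow, padicValNat.eq_zero_of_not_dvd (by norm_num), add_zero]
    rw [h6]
    norm_num
  let P : Sylow 2 J := Sylow.ofCard _ hcP
  have hjp : IsPGroup 2 (Subgroup.zpowers (⟨j, hj⟩ : J)) := by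
    refine IsPGroup.of_card (n := 1) ?_
    rw [Nat.card_zpowers, pow_one, orderOf_eq_prime_iff]
    exact ⟨Subtype.ext (by simpa [pow_two] using h2), fun e => h1 (congrArg Subtype.val e)⟩
  obtain ⟨P', hP'⟩ := hjp.exists_le_sylow
  obtain ⟨g, hg⟩ := MulAction.exists_smul_eq J P P'
  have hmem : (⟨j, hj⟩ : J) ∈ (g • P : Sylow 2 J) := hg ▸ hP' (Subgroup.mem_zpowers _)
  rw [← SetLike.mem_coe, Sylow.coe_smul, Set.mem_smul_set_iff_inv_smul_mem] at hmem
  have hmem' : g⁻¹ * (⟨j, hj⟩ : J) * g ∈ PSub.subgroupOf J := by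
    have := hmem
    simp [P, MulAut.smul_def] at this
    exact this
  obtain ⟨p, hp⟩ : (g : O)⁻¹ * j * g ∈ PSub := hmem'
  have hsq : phi p * phi p = 1 := by
    rw [hp, show (g : O)⁻¹ * j * g * ((g : O)⁻¹ * j * g) = (g : O)⁻¹ * (j * j) * g by group, h2]
    group
  obtain ⟨v, w, hv, hw, hv0, hT⟩ := exists_T_of_involution hsq
  obtain ⟨k, hk, hkv⟩ := hJ.exists_transport hv hv0
  have hw' : bl eV (ap k⁻¹ w) = 0 := by rw [← bl_ap k, hkv, ap_ap_inv, hw]
  refine ⟨k⁻¹ * (g : O)⁻¹, J.mul_mem (J.inv_mem hk) (J.inv_mem g.2), md (ap k⁻¹ w),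
    mid_md hw', ?_, ?_⟩
  · intro h0
    apply h1
    have hTe : Te (ap k⁻¹ w) hw' = 1 := by
      rw [Te_md hw', Te_congr h0 _ (bl_zero_right eV), Te_zero]
    have hT1 : T v w hv hw = 1 := by
      have hc := congrArg (fun t => k * t * k⁻¹) hTe
      simp only [Te, conj_T, T_congr hkv (ap_ap_inv k w), mul_one, mul_inv_cancel] at hc
      exact hc
    rw [hT1] at hT
    rw [hT] at hp
    calc j = (g : O) * ((g : O)⁻¹ * j * g) * (g : O)⁻¹ := by group
      _ = 1 := by rw [← hp]; group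
  · rw [← Te_md hw', show k⁻¹ * (g : O)⁻¹ * j * (k⁻¹ * (g : O)⁻¹)⁻¹
        = k⁻¹ * ((g : O)⁻¹ * j * g) * k⁻¹⁻¹ by group, ← hp, hT, conj_T, Te]
    exact T_congr (by rw [← hkv, ap_inv_ap]) rfl _ _

end CfsgLib.SuzukiType
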