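import Cfsg.Agent.Lib.SuzukiType.Commutator
import Cfsg.Agent.Lib.SuzukiType.Involutions

/-!
The involutions of the centraliser of `z` up to conjugation, and the two classes of involutions.
-/

set_option autoImplicit false
set_option linter.unusedSectionVars false

namespace CfsgLib.SuzukiType

open CfsgLib.ExtraspecialLarge

variable {G : Type*} [Group G] [Finite G]
variable {z : G} {Qf : G → Subgroup G} {θ : G → V} {ρ : G → O} {J : Subgroup O} {y h : G}

theorem perp_pair : ∀ w : V, Mid w → q w = 0 → ∃ p ∈ [(z1V, z2V), (e2V, f2V), (z1V, z2V + e2V),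
    (z1V + e2V, z2V), (z1V + e2V, z2V + e2V), (z1V + f2V, z2V), (z1V, z2V + f2V),
    (z1V + f2V, z2V + f2V)],
    Mid p.1 ∧ Mid p.2 ∧ bl p.1 w = 0 ∧ bl p.2 w = 0 ∧ bl p.1 p.2 = 1 := by
  rw [forall_mid]; decide +kernel

theorem conj_inv_eq {c a b : G} (h : c * a * c⁻¹ = b) : c⁻¹ * b * c = a := by rw [← h]; group

namespace Setting

variable (S : Setting z Qf θ ρ J)
include S

theorem conj_involution {c i : G} (hi : i * i = 1) (hi1 : i ≠ 1) :
    c * i * c⁻¹ * (c * i * c⁻¹) = 1 ∧ c * i * c⁻¹ ≠ 1 := by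
  constructor
  · rw [show c * i * c⁻¹ * (c * i * c⁻¹) = c * (i * i) * c⁻¹ by group, hi]; group
  · simpa using hi1

end Setting

namespace PairSetting

variable (P : PairSetting z Qf θ ρ J y h)
include P

/-- An involution of `Qf z` is conjugate under the centraliser to `z` or `y`. -/
theorem Q_cases {i : G} (hi : i ∈ Qf z) (h2 : i * i = 1) (h1 : i ≠ 1) :
    ∃ c, c * z = z * c ∧ (c * i * c⁻¹ = z ∨ c * i * c⁻¹ = y) := by
  by_cases h0 : θ i = 0
  · refine ⟨1, by simp, Or.inl ?_⟩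
    rw [one_mul, inv_one, mul_one]
    exact ((P.θ_ker i hi).1 h0).resolve_left h1
  obtain ⟨g, hg, hge⟩ := P.half.exists_transport ((P.θ_sq i hi).1 h2) h0
  obtain ⟨c, hc, hρ⟩ := P.ρ_surj _ (J.inv_mem hg)
  have hi' := P.toSetting.conj_mem_Q hc hi
  have hθ : θ (c * i * c⁻¹) = θ y := by rw [P.ρ_act c hc i hi, hρ, P.θy, ← hge, ap_inv_ap]
  rcases P.toSetting.eq_or_of_θ hi' P.y_mem hθ with e | e
  · exact ⟨c, hc, Or.inr e⟩
  · obtain ⟨r, hr, hry⟩ := P.exists_flip_y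
    have hrz := P.toSetting.comm_z hr
    refine ⟨r * c, comm_mul hrz hc, Or.inr ?_⟩
    calc r * c * i * (r * c)⁻¹ = r * (c * i * c⁻¹) * r⁻¹ := by group
      _ = (r * z * r⁻¹) * (r * y * r⁻¹) := by rw [e]; group
      _ = y := by rw [conj_fix_iff.2 hrz, hry, ← mul_assoc, P.toSetting.z_sq, one_mul]

/-- An involution over a Siegel transformation at `eV`. -/
theorem decompose {i s : G} {w : V} (hw : Mid w) (hw0 : w ≠ 0) (hiz : i * z = z * i)
    (hi2 : i * i = 1) (hρ : ρ i = Te w hw.bl_eV) (hs : inWy z Qf y s) (hsw : wS ρ s = w) :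
    ∃ u, inW z Qf y u ∧ i = s * u ∧ bl (θ u) w = q w ∧ q (θ u) = q w := by
  obtain ⟨hws, es⟩ := P.wS_spec hs
  have hρs : ρ s = Te w hw.bl_eV := by rw [es]; exact Te_congr hsw _ _
  have huz : (s⁻¹ * i) * z = z * (s⁻¹ * i) := comm_mul (comm_inv hs.2) hiz
  have hTinv : (Te w hw.bl_eV)⁻¹ = Te w hw.bl_eV := inv_eq_of_mul_eq_one_right (T_mul_self _ _)
  have hu : s⁻¹ * i ∈ Qf z := by
    refine (P.ρ_ker _ huz).1 ?_
    rw [P.toSetting.ρ_mul (comm_inv hs.2) hiz, P.toSetting.ρ_inv hs.2, hρs, hρ, inv_mul_cancel]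
  set u := s⁻¹ * i with hu_def
  have hiu : i = s * u := by rw [hu_def]; group
  have hsq := P.sq_wS hs
  rw [hsw] at hsq
  have hin : (s⁻¹ * u * s) ∈ Qf z := by
    have := P.toSetting.conj_mem_Q (comm_inv hs.2) hu
    rwa [inv_inv] at this
  have hθ1 : θ (s⁻¹ * u * s) = sgf eV w (θ u) := by
    have := P.ρ_act s⁻¹ (comm_inv hs.2) u hu
    rw [inv_inv, P.toSetting.ρ_inv hs.2, hρs, hTinv, Te, ap_T] at this
    exact this
  have h0 : q w • eV + (sgf eV w (θ u) + θ u) = 0 := by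
    have e : s * s * (s⁻¹ * u * s * u) = 1 := by
      rw [← hi2, hiu]; group
    have := congrArg θ e
    have hssQ : s * s ∈ Qf z := by rw [hsq]; exact zp_mem P.y_mem _
    rw [P.θ_mul _ hssQ _ ((Qf z).mul_mem hin hu), P.θ_mul _ hin u hu, hθ1, hsq, P.toSetting.θ_one] at this
    rw [← this]
    congr 1
    rcases z2_cases (q w) with a | a <;> rw [a] <;> simp [P.toSetting.θ_one, P.θy]
  rw [sgf_eq] at h0
  have hbe : bl (θ u) eV = 0 := by
    refine (z2_cases _).resolve_right fun e => hw0 ?_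
    have h1 := congrArg md h0
    simp only [md_add, md_smul, md_eV, smul_zero, zero_add, add_zero, md_zero, e, one_smul,
      md_of_mid hw] at h1
    rw [add_comm (md (θ u)) w, add_assoc, vadd_self, add_zero] at h1
    exact h1
  have hbw : bl (θ u) w = q w := by
    rw [hbe, zero_smul, mul_zero, add_zero, add_zero,
      add_comm (θ u) (bl (θ u) w • eV), add_assoc (bl (θ u) w • eV), vadd_self, add_zero,
      ← add_smul] at h0
    have h1 := congrFun h0 (.inl (.inl 0))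
    simp only [Pi.smul_apply, smul_eq_mul, Pi.zero_apply] at h1
    rw [show eV (.inl (.inl 0)) = 1 from rfl, mul_one] at h1
    exact (CharTwo.add_eq_zero.1 h1).symm
  have huW : inW z Qf y u := (P.W_iff hu).2 (by rw [bl_comm]; exact hbe)
  refine ⟨u, huW, hiu, hbw, ?_⟩
  have hc := P.comm_eq hs huW
  rw [hsw, hbw] at hc
  have huy : u * zp y (q w) = zp y (q w) * u := zp_comm huW.2 _
  have key : zp z (q w + q (θ u)) = 1 := by
    calc zp z (q w + q (θ u))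
        = zp z (q w) * (zp y (q w) * zp y (q w)) * zp z (q (θ u)) := by
          rw [← zp_add P.y_sq, CharTwo.add_self_eq_zero, zp_zero, mul_one, zp_add P.toSetting.z_sq]
      _ = (s * u * s⁻¹ * u⁻¹) * (u * (s * s) * u) := by
          rw [hc, hsq, huy, mul_assoc (zp y (q w)) u u, P.toSetting.sq_eq hu]
          group
      _ = 1 := by rw [← hi2, hiu]; group
  rcases z2_cases (q w + q (θ u)) with a | a
  · exact (CharTwo.add_eq_zero.1 a).symm
  · rw [a, zp_one] at key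
    exact absurd key P.toSetting.z_ne

/-- Conjugating `s u` by an element of `Qf z`. -/
theorem conj_su {s u x : G} {w : V} (hw : Mid w) (hs : inWy z Qf y s) (hsw : wS ρ s = w)
    (hu : u ∈ Qf z) (hx : x ∈ Qf z) :
    ∃ u', u' ∈ Qf z ∧ x * (s * u) * x⁻¹ = s * u' ∧
      θ u' = sgf eV w (θ x) + θ x + θ u := by
  obtain ⟨hws, es⟩ := P.wS_spec hs
  have hρs : ρ s = Te w hw.bl_eV := by rw [es]; exact Te_congr hsw _ _
  have hTinv : (Te w hw.bl_eV)⁻¹ = Te w hw.bl_eV := inv_eq_of_mul_eq_one_right (T_mul_self _ _)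
  have h1 : s⁻¹ * x * s ∈ Qf z := by
    have := P.toSetting.conj_mem_Q (comm_inv hs.2) hx
    rwa [inv_inv] at this
  have hθ1 : θ (s⁻¹ * x * s) = sgf eV w (θ x) := by
    have := P.ρ_act s⁻¹ (comm_inv hs.2) x hx
    rw [inv_inv, P.toSetting.ρ_inv hs.2, hρs, hTinv, Te, ap_T] at this
    exact this
  refine ⟨s⁻¹ * x * s * u * x⁻¹, (Qf z).mul_mem ((Qf z).mul_mem h1 hu) ((Qf z).inv_mem hx),
    by group, ?_⟩
  rw [P.θ_mul _ ((Qf z).mul_mem h1 hu) _ ((Qf z).inv_mem hx), P.θ_mul _ h1 u hu, hθ1,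
    P.toSetting.θ_inv hx]
  abel

theorem inWy_of_θ {u : G} (hu : u ∈ Qf z) (h0 : md (θ u) = 0) : inWy z Qf y u ∧ wS ρ u = 0 := by
  refine ⟨⟨?_, P.toSetting.comm_z hu⟩, P.wS_of_mem hu⟩
  have hd := md_decomp (θ u)
  rw [h0, zero_add] at hd
  set c := θ u (.inl (.inl 0))
  have he : θ u = θ (zp z 0 * zp y c) := by rw [P.θ_zp_mul]; exact hd
  rcases P.toSetting.eq_or_of_θ hu
    ((Qf z).mul_mem (zp_mem P.toSetting.z_mem _) (zp_mem P.y_mem _)) he with e | e <;> rw [e]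
  · exact (Qf y).mul_mem (zp_mem P.z_memy _) (zp_mem P.goody.mem _)
  · exact (Qf y).mul_mem P.z_memy ((Qf y).mul_mem (zp_mem P.z_memy _) (zp_mem P.goody.mem _))

end PairSetting

/-- The representative of the second class. -/
structure IsT0 (z : G) (Qf : G → Subgroup G) (θ : G → V) (ρ : G → O) (y : G) (s u : G) : Prop where
  hs : inWy z Qf y s
  hsw : wS ρ s = z1V
  hu : u ∈ Qf z
  hθu : θ u = z2V

namespace PairSetting

variable (P : PairSetting z Qf θ ρ J y h) {s₀ u₀ : G} (T0 : IsT0 z Qf θ ρ y s₀ u₀)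
include P

theorem exists_T0 : ∃ s u, IsT0 z Qf θ ρ y s u := by
  obtain ⟨s, hs, hsw⟩ := P.exists_Wy mid_z1V
  obtain ⟨u, hu, hθu⟩ := P.θ_surj z2V
  exact ⟨s, u, hs, hsw, hu, hθu⟩

include T0

theorem t0_inW : inW z Qf y u₀ := (P.W_iff T0.hu).2 (by rw [T0.hθu]; exact mid_z2V.bl_eV)

theorem t0_comm : (s₀ * u₀) * z = z * (s₀ * u₀) ∧ (s₀ * u₀) * y = y * (s₀ * u₀) :=
  ⟨comm_mul T0.hs.2 (P.toSetting.comm_z T0.hu),
    comm_mul (P.inWy_comm T0.hs).2 (P.t0_inW T0).2⟩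

theorem ρ_t0 : ρ (s₀ * u₀) = Te z1V mid_z1V.bl_eV := by
  obtain ⟨hw, e⟩ := P.wS_spec T0.hs
  rw [P.toSetting.ρ_mul T0.hs.2 (P.toSetting.comm_z T0.hu), P.toSetting.ρ_of_mem T0.hu, mul_one, e]
  exact Te_congr T0.hsw _ _

theorem t0_involution : (s₀ * u₀) * (s₀ * u₀) = 1 ∧ s₀ * u₀ ≠ 1 := by
  constructor
  · have hW := P.t0_inW T0
    have hc := P.comm_eq T0.hs hW
    rw [T0.hsw, T0.hθu, bl_comm, bl_z1_z2, zp_one, zp_one] at hc
    have hsq := P.sq_wS T0.hs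
    rw [T0.hsw, q_z1V, zp_one] at hsq
    have hu2 := P.toSetting.sq_eq T0.hu
    rw [T0.hθu, q_z2V, zp_one] at hu2
    calc s₀ * u₀ * (s₀ * u₀) = (s₀ * u₀ * s₀⁻¹ * u₀⁻¹) * (u₀ * (s₀ * s₀) * u₀) := by group
      _ = z * y * (y * z) := by rw [hc, hsq, hW.2, mul_assoc y u₀ u₀, hu2]
      _ = 1 := by rw [mul_assoc z, ← mul_assoc y y, P.y_sq, one_mul, P.toSetting.z_sq]
  · intro e
    have := P.ρ_t0 T0
    rw [e, P.toSetting.ρ_one, ← Te_zero] at this
    exact absurd ((Te_eq_iff _ _).1 this) (by decide)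

/-- Involutions over `Te e2V` are conjugate into `Wy`; over `Te z1V` to the representative. -/
theorem over_cases {i : G} {w : V} (hw : Mid w) (hcase : w = e2V ∨ w = z1V) (hiz : i * z = z * i)
    (hi2 : i * i = 1) (hρ : ρ i = Te w hw.bl_eV) :
    ∃ c, c * z = z * c ∧ ((inWy z Qf y (c * i * c⁻¹) ∧ q (wS ρ (c * i * c⁻¹)) = 0 ∧
        wS ρ (c * i * c⁻¹) ≠ 0) ∨ c * i * c⁻¹ = s₀ * u₀) := by
  rcases hcase with rfl | rfl
  · obtain ⟨s, hs, hsw⟩ := P.exists_Wy hw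
    obtain ⟨u, hu, rfl, hbu, hqu⟩ := P.decompose hw (by decide) hiz hi2 hρ hs hsw
    rw [q_e2V] at hbu hqu
    have hb := (P.W_iff hu.1).1 hu
    have hfin : ∀ u', u' ∈ Qf z → md (θ u') = 0 → inWy z Qf y (s * u') ∧
        q (wS ρ (s * u')) = 0 ∧ wS ρ (s * u') ≠ 0 := by
      intro u' hu' h0
      obtain ⟨h1, h2⟩ := P.inWy_of_θ hu' h0
      rw [P.wS_mul hs h1, hsw, h2, add_zero]
      exact ⟨P.Wy_mul hs h1, q_e2V, by decide⟩
    rcases singular_perp _ (mid_md hb) (by rw [bl_md_left hw.bl_eV, hbu]) (by rw [q_md hb, hqu])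
      with e | e
    · exact ⟨1, by simp, Or.inl (by simpa using hfin u hu.1 e)⟩
    · obtain ⟨x, hx, hθx⟩ := P.θ_surj fV
      obtain ⟨u', hu', he, hθ⟩ := P.conj_su hw hs hsw hu.1 hx
      refine ⟨x, P.toSetting.comm_z hx, Or.inl ?_⟩
      rw [he]
      refine hfin u' hu' ?_
      rw [hθ, hθx, md_add, e, (sgf_eV_fix _ hw).2, vadd_self]
  · obtain ⟨u, hu, rfl, hbu, hqu⟩ := P.decompose hw (by decide) hiz hi2 hρ T0.hs T0.hsw
    rw [q_z1V] at hbu hqu
    have hb := (P.W_iff hu.1).1 hu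
    -- the final two adjustments inside `Qf z`
    have hlast : ∀ u', u' ∈ Qf z → θ u' = z2V →
        ∃ c, c * z = z * c ∧ c * (s₀ * u') * c⁻¹ = s₀ * u₀ := by
      intro u' hu' e
      rcases P.toSetting.eq_or_of_θ hu' T0.hu (e.trans T0.hθu.symm) with e1 | e1
      · exact ⟨1, by simp, by simp [e1]⟩
      · obtain ⟨x, hxW, hθx⟩ := P.exists_W z1V mid_z1V
        refine ⟨x, P.toSetting.comm_z hxW.1, ?_⟩
        have hc := P.comm_eq T0.hs hxW
        rw [T0.hsw, hθx, bl_self z1V, zp_zero, zp_zero, one_mul] at hc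
        have hxs : x * s₀ * x⁻¹ = s₀ := by
          have h' : s₀ * x * s₀⁻¹ = x := mul_inv_eq_one.1 hc
          exact conj_fix_iff.2 (mul_inv_eq_iff_eq_mul.1 h').symm
        have hxu : x * u₀ * x⁻¹ = z * u₀ := by
          rw [P.toSetting.conj_eq hxW.1 T0.hu, hθx, T0.hθu, bl_z1_z2, zp_one]
        calc x * (s₀ * u') * x⁻¹ = (x * s₀ * x⁻¹) * ((x * z * x⁻¹) * (x * u₀ * x⁻¹)) := by
              rw [e1]; group
          _ = s₀ * u₀ := by
            rw [hxs, conj_fix_iff.2 (P.toSetting.comm_z hxW.1), hxu, ← mul_assoc z z,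
              P.toSetting.z_sq, one_mul]
    have hfin : ∀ u', u' ∈ Qf z → md (θ u') = z2V →
        ∃ c, c * z = z * c ∧ c * (s₀ * u') * c⁻¹ = s₀ * u₀ := by
      intro u' hu' e
      have hd := md_decomp (θ u')
      rw [e] at hd
      rcases z2_cases (θ u' (.inl (.inl 0))) with a | a <;> rw [a] at hd
      · exact hlast u' hu' (by simpa using hd)
      · obtain ⟨x, hx, hθx⟩ := P.θ_surj z2V
        obtain ⟨u'', hu'', he, hθ⟩ := P.conj_su hw T0.hs T0.hsw hu' hx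
        obtain ⟨c, hc, hce⟩ := hlast u'' hu'' (by
          rw [hθ, hθx, hd, one_smul,
            show sgf eV z1V z2V = z2V + eV by decide +kernel]
          funext k
          simp only [Pi.add_apply]
          linear_combination CharTwo.add_self_eq_zero (z2V k) + CharTwo.add_self_eq_zero (eV k))
        refine ⟨c * x, comm_mul hc (P.toSetting.comm_z hx), ?_⟩
        rw [← hce, ← he]; group
    have hmid : ∀ u', u' ∈ Qf z → (md (θ u') = z2V ∨ md (θ u') = z2V + z1V) →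
        ∃ c, c * z = z * c ∧ c * (s₀ * u') * c⁻¹ = s₀ * u₀ := by
      intro u' hu' e
      rcases e with e | e
      · exact hfin u' hu' e
      · obtain ⟨x, hx, hθx⟩ := P.θ_surj fV
        obtain ⟨u'', hu'', he, hθ⟩ := P.conj_su hw T0.hs T0.hsw hu' hx
        obtain ⟨c, hc, hce⟩ := hfin u'' hu'' (by
          rw [hθ, hθx, md_add, e, (sgf_eV_fix _ hw).2, add_comm z2V, ← add_assoc, vadd_self,
            zero_add])
        refine ⟨c * x, comm_mul hc (P.toSetting.comm_z hx), ?_⟩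
        rw [← hce, ← he]; group
    obtain ⟨p, hp, h1, h2⟩ := plane_class _ (mid_md hb)
      (by rw [bl_md_left hw.bl_eV, hbu]) (by rw [q_md hb, hqu])
    obtain ⟨g, hg, hge, hgx⟩ := P.half.exists_stab hp
    obtain ⟨c, hcz, hcy, rfl⟩ := P.exists_lift hg hge
    obtain ⟨hs', hsw'⟩ := P.wS_conj hcz hcy T0.hs
    rw [T0.hsw, hgx, h1] at hsw'
    -- rewrite the conjugate over `s₀`
    have hd := P.Wy_mul (P.Wy_inv T0.hs) hs'
    have hd0 : wS ρ (s₀⁻¹ * (c * s₀ * c⁻¹)) = 0 := by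
      have e := P.wS_mul T0.hs hd
      rw [mul_inv_cancel_left, hsw', T0.hsw] at e
      exact left_eq_add.1 e
    have hdQ := P.mem_of_wS_zero hd hd0
    have hcu := P.toSetting.conj_mem_Q hcz hu.1
    have hmdd : md (θ (s₀⁻¹ * (c * s₀ * c⁻¹))) = 0 := by
      rcases P.θ_inter hdQ hd.1 with e | e <;> rw [e]
      · exact md_zero
      · exact md_eV
    obtain ⟨c', hc', he'⟩ := hmid (s₀⁻¹ * (c * s₀ * c⁻¹) * (c * u * c⁻¹))
      ((Qf z).mul_mem hdQ hcu) (by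
        rw [P.θ_mul _ hdQ _ hcu, md_add, hmdd, zero_add, P.ρ_act c hcz u hu.1, ← md_ap hge, hgx]
        rcases h2 with e | e
        · exact Or.inl e
        · right
          rw [e, show (fun i => z2V i + z1V i) = z2V + z1V from rfl, md_add,
            md_of_mid mid_z2V, md_of_mid mid_z1V])
    refine ⟨c' * c, comm_mul hc' hcz, Or.inr ?_⟩
    rw [← he']; group

/-- The involutions of the centraliser of `z`. -/
theorem involution_cases {i : G} (hiz : i * z = z * i) (hi2 : i * i = 1) (hi1 : i ≠ 1) :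
    ∃ c, c * z = z * c ∧ (c * i * c⁻¹ = z ∨ c * i * c⁻¹ = y ∨
      (inWy z Qf y (c * i * c⁻¹) ∧ q (wS ρ (c * i * c⁻¹)) = 0 ∧ wS ρ (c * i * c⁻¹) ≠ 0) ∨
      c * i * c⁻¹ = s₀ * u₀) := by
  by_cases hQ : i ∈ Qf z
  · obtain ⟨c, hc, e⟩ := P.Q_cases hQ hi2 hi1
    exact ⟨c, hc, e.elim Or.inl fun e => Or.inr (Or.inl e)⟩
  have h1 : ρ i ≠ 1 := fun e => hQ ((P.ρ_ker i hiz).1 e)
  have h2 : ρ i * ρ i = 1 := by rw [← P.toSetting.ρ_mul hiz hiz, hi2, P.toSetting.ρ_one]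
  obtain ⟨g, hg, w, hw, hw0, he⟩ := P.half.exists_conj_Te (P.ρ_mem i hiz) h2 h1
  obtain ⟨g', hg', hg'e, hcase⟩ := P.half.exists_orbit hw hw0
  obtain ⟨c, hc, hρ⟩ := P.ρ_surj _ (J.mul_mem hg' hg)
  have hw' : Mid (md (ap g' w)) := mid_md (bl_eV_ap hg'e hw.bl_eV)
  have hi' : c * i * c⁻¹ * z = z * (c * i * c⁻¹) := comm_mul (comm_mul hc hiz) (comm_inv hc)
  have hρ' : ρ (c * i * c⁻¹) = Te (md (ap g' w)) hw'.bl_eV := by
    rw [P.toSetting.ρ_conj hc hiz, hρ,
      show g' * g * ρ i * (g' * g)⁻¹ = g' * (g * ρ i * g⁻¹) * g'⁻¹ by group, he, conj_Te hg'e]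
  obtain ⟨c', hc', hres⟩ := P.over_cases T0 hw'
    (hcase.elim (fun e => Or.inr e.1) fun e => Or.inl e.1) hi'
    (P.toSetting.conj_involution hi2 hi1).1 hρ'
  refine ⟨c' * c, comm_mul hc' hc, ?_⟩
  rw [show c' * c * i * (c' * c)⁻¹ = c' * (c * i * c⁻¹) * c'⁻¹ by group]
  rcases hres with e | e
  · exact Or.inr (Or.inr (Or.inl e))
  · exact Or.inr (Or.inr (Or.inr e))

/-- Every involution centralising `z` is conjugate to `z` or to the representative. -/
theorem isConj_cases {i : G} (hiz : i * z = z * i) (hi2 : i * i = 1) (hi1 : i ≠ 1) :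
    IsConj i z ∨ IsConj i (s₀ * u₀) := by
  have hyz : IsConj y z := isConj_iff.2 ⟨h, P.hy⟩
  obtain ⟨c, -, hc⟩ := P.involution_cases T0 hiz hi2 hi1
  have hi : IsConj i (c * i * c⁻¹) := isConj_iff.2 ⟨c, rfl⟩
  rcases hc with e | e | ⟨e, -, -⟩ | e
  · exact Or.inl (by rwa [e] at hi)
  · rw [e] at hi
    exact Or.inl (hi.trans hyz)
  · obtain ⟨h2, h1⟩ := P.toSetting.conj_involution (c := c) hi2 hi1
    obtain ⟨h2', h1'⟩ := P.toSetting.conj_involution (c := h) h2 h1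
    obtain ⟨d, -, hd⟩ := P.Q_cases (P.Wy_to_W e).1 h2' h1'
    have hj : IsConj i (d * (h * (c * i * c⁻¹) * h⁻¹) * d⁻¹) :=
      (hi.trans (isConj_iff.2 ⟨h, rfl⟩)).trans (isConj_iff.2 ⟨d, rfl⟩)
    rcases hd with e' | e' <;> rw [e'] at hj
    · exact Or.inl hj
    · exact Or.inl (hj.trans hyz)
  · exact Or.inr (by rwa [e] at hi)

/-- The centraliser in `Qf z` of an involution of the centraliser is not abelian. -/
theorem exists_noncomm {i : G} (hiz : i * z = z * i) (hi2 : i * i = 1) (hi1 : i ≠ 1) :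
    ∃ a ∈ Qf z, ∃ b ∈ Qf z, a * i = i * a ∧ b * i = i * b ∧ a * b ≠ b * a := by
  obtain ⟨c, hc, hcase⟩ := P.involution_cases T0 hiz hi2 hi1
  have key : ∃ v₁ v₂ : V, Mid v₁ ∧ Mid v₂ ∧ bl v₁ v₂ = 1 ∧
      ∀ x, inW z Qf y x → θ x = v₁ ∨ θ x = v₂ → x * (c * i * c⁻¹) = c * i * c⁻¹ * x := by
    rcases hcase with e | e | ⟨e, eq, -⟩ | e
    · exact ⟨z1V, z2V, mid_z1V, mid_z2V, bl_z1_z2, fun x hx _ => by
        rw [e]; exact P.toSetting.comm_z hx.1⟩
    · exact ⟨z1V, z2V, mid_z1V, mid_z2V, bl_z1_z2, fun x hx _ => by rw [e]; exact hx.2⟩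
    · obtain ⟨p, -, h1, h2, h3, h4, h5⟩ := perp_pair _ (P.wS_spec e).1 eq
      refine ⟨p.1, p.2, h1, h2, h5, fun x hx hθ => ?_⟩
      have hb : bl (θ x) (wS ρ (c * i * c⁻¹)) = 0 := by
        rcases hθ with a | a <;> rw [a] <;> assumption
      have hcm := P.comm_eq e hx
      rw [hb, zp_zero, zp_zero, one_mul, mul_inv_eq_one] at hcm
      exact (mul_inv_eq_iff_eq_mul.1 hcm).symm
    · refine ⟨e2V, f2V, mid_e2V, mid_f2V, by decide, fun x hx hθ => ?_⟩
      have hb1 : bl (θ x) z1V = 0 := by rcases hθ with a | a <;> rw [a] <;> decide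
      have hb2 : bl (θ x) z2V = 0 := by rcases hθ with a | a <;> rw [a] <;> decide
      have hcm := P.comm_eq T0.hs hx
      rw [T0.hsw, hb1, zp_zero, zp_zero, one_mul, mul_inv_eq_one] at hcm
      have hxs : x * s₀ = s₀ * x := (mul_inv_eq_iff_eq_mul.1 hcm).symm
      have hxu : x * u₀ = u₀ * x := P.toSetting.comm_of_bl hx.1 T0.hu (by rw [T0.hθu]; exact hb2)
      rw [e, ← mul_assoc, hxs, mul_assoc, hxu, ← mul_assoc]
  obtain ⟨v₁, v₂, hv₁, hv₂, hb, hcomm⟩ := key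
  obtain ⟨a, ha, hθa⟩ := P.exists_W v₁ hv₁
  obtain ⟨b, hb', hθb⟩ := P.exists_W v₂ hv₂
  have hback : ∀ x, x ∈ Qf z → x * (c * i * c⁻¹) = c * i * c⁻¹ * x →
      c⁻¹ * x * c ∈ Qf z ∧ (c⁻¹ * x * c) * i = i * (c⁻¹ * x * c) := fun x hx e =>
    ⟨by simpa using P.toSetting.conj_mem_Q (comm_inv hc) hx,
      conj_comm (g := c⁻¹) (by rw [inv_inv]) (by group) e⟩
  obtain ⟨a1, a2⟩ := hback a ha.1 (hcomm a ha (Or.inl hθa))
  obtain ⟨b1, b2⟩ := hback b hb'.1 (hcomm b hb' (Or.inr hθb))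
  refine ⟨_, a1, _, b1, a2, b2, fun e => ?_⟩
  have := P.toSetting.bl_of_comm ha.1 hb'.1 (conj_comm (g := c) (by group) (by group) e)
  rw [hθa, hθb, hb] at this
  exact one_ne_zero this

/-- The representative is not conjugate to `z`. -/
theorem not_isConj : ¬ IsConj z (s₀ * u₀) := by
  intro hconj
  obtain ⟨g, hg⟩ := isConj_iff.1 hconj
  set t := s₀ * u₀ with ht
  obtain ⟨htz, hty⟩ := P.t0_comm T0
  have hρt := P.ρ_t0 T0
  have hT1 : Te z1V mid_z1V.bl_eV ≠ 1 := by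
    intro e
    rw [← Te_zero] at e
    exact absurd ((Te_eq_iff _ _).1 e) (by decide)
  have hgood : Good (Qf t) t := P.core.good_of_conj ⟨g, hg⟩
  have hQt : ∀ x ∈ Qf z, g * x * g⁻¹ ∈ Qf t := fun x hx => by
    have := P.core.conj_mem g z hx
    rwa [hg] at this
  have hzt : z ∉ Qf t := by
    intro hm
    have hi : g⁻¹ * z * g⁻¹⁻¹ ∈ Qf z := by
      have := P.core.conj_mem g⁻¹ t hm
      rwa [← hg, show g⁻¹ * (g * z * g⁻¹) * g⁻¹⁻¹ = z by group] at this
    have h1 := P.core.conj_mem g _ (P.core.symm hi)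
    rw [show g * (g⁻¹ * z * g⁻¹⁻¹) * g⁻¹ = z by group, hg] at h1
    exact hT1 (hρt ▸ P.toSetting.ρ_of_mem h1)
  set i := g⁻¹ * z * g with hi_def
  have hiz : i * z = z * i :=
    conj_comm (g := g⁻¹) (a := z) (b := t) (by rw [inv_inv]) (by rw [← hg]; group) htz.symm
  obtain ⟨hi2, hi1⟩ : i * i = 1 ∧ i ≠ 1 := by
    have := P.toSetting.conj_involution (c := g⁻¹) P.toSetting.z_sq P.toSetting.z_ne
    simpa [hi_def, mul_assoc] using this
  obtain ⟨a, ha, b, hb, hai, hbi, hab⟩ := P.exists_noncomm T0 hiz hi2 hi1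
  have hz_eq : g * i * g⁻¹ = z := by rw [hi_def]; group
  have key : ∀ r ∈ Qf t, r * z = z * r → ∃ (w : V) (hw : bl eV w = 0), ρ r = Te w hw := by
    intro r hr hrz
    have hrt : r * t = t * r := hgood.comm r hr
    have hcomm : ρ r * Te z1V mid_z1V.bl_eV = Te z1V mid_z1V.bl_eV * ρ r := by
      rw [← hρt, ← P.toSetting.ρ_mul hrz htz, hrt, P.toSetting.ρ_mul htz hrz]
    -- `eV` is the only singular vector moved to
    have hge : ap (ρ r) eV = eV := by
      have e1 : sgf eV z1V z2V + z2V = eV := by decide +kernel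
      have h1 : ap (ρ r) (sgf eV z1V z2V) = sgf eV z1V (ap (ρ r) z2V) := by
        have := congrArg (fun k => ap k z2V) hcomm
        simpa only [ap_mul, Te, ap_T] using this
      have h2 : ap (ρ r) eV = sgf eV z1V (ap (ρ r) z2V) + ap (ρ r) z2V := by
        conv_lhs => rw [← e1]
        rw [ap_add, h1]
      have h3 := q_ap (ρ r) eV
      rw [q_eV, h2] at h3
      rcases image_singular _ h3 with e | e
      · exfalso
        have e' : ap (ρ r) eV = ap (ρ r) 0 := by rw [h2, ap_zero]; exact e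
        exact absurd (ap_inj _ e') (by decide)
      · rw [h2]; exact e
    have hry : r * y = y * r := by
      have h1 : θ (r * y * r⁻¹) = θ y := by rw [P.ρ_act r hrz y P.y_mem, P.θy, hge]
      rcases P.toSetting.eq_or_of_θ (P.toSetting.conj_mem_Q hrz P.y_mem) P.y_mem h1 with e | e
      · exact conj_fix_iff.1 e
      · exfalso
        apply hzt
        have hm : r * y * r⁻¹ * y⁻¹ ∈ Qf t := by
          rw [show r * y * r⁻¹ * y⁻¹ = r * (y * r⁻¹ * y⁻¹) by group]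
          exact (Qf t).mul_mem hr (hgood.norm y hty.symm _ ((Qf t).inv_mem hr))
        rwa [e, mul_inv_cancel_right] at hm
    have hz1 : md (ap (ρ r) z1V) = z1V := by
      have := conj_Te hge mid_z1V.bl_eV
      rw [hcomm, mul_inv_cancel_right] at this
      have e := (Te_eq_iff _ _).1 this
      rwa [md_md, md_of_mid mid_z1V, eq_comm] at e
    obtain ⟨hs', hsw'⟩ := P.wS_conj hrz hry T0.hs
    rw [T0.hsw, hz1] at hsw'
    have hd := P.Wy_mul (P.Wy_inv hs') T0.hs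
    have hd0 : wS ρ ((r * s₀ * r⁻¹)⁻¹ * s₀) = 0 := by
      have e := P.wS_mul hs' hd
      rw [mul_inv_cancel_left, hsw', T0.hsw] at e
      exact left_eq_add.1 e
    have hdQ := P.mem_of_wS_zero hd hd0
    have hru : r * u₀ * r⁻¹ = (r * s₀ * r⁻¹)⁻¹ * s₀ * u₀ := by
      calc r * u₀ * r⁻¹ = (r * s₀ * r⁻¹)⁻¹ * (r * t * r⁻¹) := by rw [ht]; group
        _ = _ := by rw [conj_fix_iff.2 hrt, ht]; group
    have hz2 : md (ap (ρ r) z2V) = z2V := by
      have e := congrArg θ hru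
      rw [P.ρ_act r hrz u₀ T0.hu, P.θ_mul _ hdQ _ T0.hu, T0.hθu] at e
      rw [e, md_add, md_of_mid mid_z2V]
      rcases P.θ_inter hdQ hd.1 with a | a <;> rw [a]
      · rw [md_zero, zero_add]
      · rw [md_eV, zero_add]
    obtain ⟨w, hw, -, e⟩ := P.half.eq_Te_of_plane (P.ρ_mem r hrz) hge hz1 hz2
    exact ⟨w, hw, e⟩
  have hra : g * a * g⁻¹ * z = z * (g * a * g⁻¹) := conj_comm rfl hz_eq hai
  have hrb : g * b * g⁻¹ * z = z * (g * b * g⁻¹) := conj_comm rfl hz_eq hbi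
  obtain ⟨w, hw, ea⟩ := key _ (hQt a ha) hra
  obtain ⟨w', hw', eb⟩ := key _ (hQt b hb) hrb
  have hne : g * a * g⁻¹ * (g * b * g⁻¹) ≠ g * b * g⁻¹ * (g * a * g⁻¹) := fun e =>
    hab (conj_comm (g := g⁻¹) (by group) (by group) e)
  have hflip := hgood.flip_of_not_comm (hQt a ha) (hQt b hb) hne
  have := congrArg ρ (mul_inv_eq_iff_eq_mul.1 hflip)
  rw [P.toSetting.ρ_mul hra hrb, ht, P.toSetting.ρ_mul (comm_mul htz hrb) hra,
    P.toSetting.ρ_mul htz hrb, ea, eb, hρt, mul_assoc, Te_mul, Te_mul,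
    Te_congr (add_comm w w') _ (by rw [bl_add_right, hw, hw', add_zero])] at this
  exact hT1 (right_eq_mul.1 this)

end PairSetting

end CfsgLib.SuzukiType
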