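import Cfsg.Agent.Lib.SuzukiType.Classes

/-!
Coordinates on the product of the two halves at a pair `z`, `y`.
-/

set_option autoImplicit false
set_option linter.unusedSectionVars false

namespace CfsgLib.SuzukiType

variable {G : Type*} [Group G] [Finite G]
variable {z : G} {Qf : G → Subgroup G} {θ : G → V} {ρ : G → O} {J : Subgroup O} {y h : G}

/-- The element `z ^ a * y ^ b`. -/
def zy (z y : G) (a b : ZMod 2) : G := zp z a * zp y b

/-- The first squaring exponent. -/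
def E1 (v w : V) : ZMod 2 := q v + bl v w

/-- The second squaring exponent. -/
def E2 (v w : V) : ZMod 2 := q w + bl v w

/-- The first commutation exponent. -/
def C1 (v w v' w' : V) : ZMod 2 := bl v v' + bl v w' + bl w v'

/-- The second commutation exponent. -/
def C2 (v w v' w' : V) : ZMod 2 := bl w w' + bl v w' + bl w v'

/-- `a` is a product of the two halves with parameters `v`, `w`. -/
def Co (z : G) (Qf : G → Subgroup G) (θ : G → V) (ρ : G → O) (y a : G) (v w : V) : Prop :=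
  ∃ x s, inW z Qf y x ∧ inWy z Qf y s ∧ a = x * s ∧ md (θ x) = v ∧ wS ρ s = w

namespace PairSetting

variable (P : PairSetting z Qf θ ρ J y h)
include P

theorem z_W : inW z Qf y z := ⟨P.toSetting.z_mem, P.yz_comm.symm⟩

theorem y_W : inW z Qf y y := ⟨P.y_mem, rfl⟩

theorem z_Wy : inWy z Qf y z := ⟨P.z_memy, rfl⟩

theorem y_Wy : inWy z Qf y y := ⟨P.goody.mem, P.yz_comm⟩

theorem zy_W (a b : ZMod 2) : inW z Qf y (zy z y a b) := by
  refine P.W_mul ?_ ?_
  · rcases z2_cases a with rfl | rfl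
    · exact ⟨one_mem _, by simp⟩
    · exact P.z_W
  · rcases z2_cases b with rfl | rfl
    · exact ⟨one_mem _, by simp⟩
    · exact P.y_W

theorem md_θ_zy (a b : ZMod 2) : md (θ (zy z y a b)) = 0 := by
  rw [zy, P.θ_zp_mul, md_smul, md_eV, smul_zero]

theorem comm_zy {g : G} (hz : g * z = z * g) (hy : g * y = y * g) (a b : ZMod 2) :
    g * zy z y a b = zy z y a b * g :=
  P.D_comm rfl hz hy

theorem zy_mul (a b a' b' : ZMod 2) : zy z y a b * zy z y a' b' = zy z y (a + a') (b + b') := by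
  have hc : zp y b * zp z a' = zp z a' * zp y b := by
    refine zp_comm (a := z) ?_ a'
    exact P.toSetting.comm_z (zp_mem P.y_mem b)
  rw [zy, zy, zy, zp_add P.toSetting.z_sq, zp_add P.y_sq,
    show zp z a * zp y b * (zp z a' * zp y b') = zp z a * (zp y b * zp z a') * zp y b' by group, hc]
  group

theorem zy_inj {a b a' b' : ZMod 2} (e : zy z y a b = zy z y a' b') : a = a' ∧ b = b' := by
  have hb : b = b' := by
    have := congrArg θ e
    rw [zy, zy, P.θ_zp_mul, P.θ_zp_mul] at this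
    have h4 := congrFun this (.inl (.inl 0))
    simpa [eV, vec] using h4
  subst hb
  refine ⟨?_, rfl⟩
  have := mul_right_cancel e
  rcases z2_cases a with rfl | rfl <;> rcases z2_cases a' with rfl | rfl
  · rfl
  · exact absurd this.symm P.toSetting.z_ne
  · exact absurd this P.toSetting.z_ne
  · rfl

theorem zy_eq_one {a b : ZMod 2} (e : zy z y a b = 1) : a = 0 ∧ b = 0 :=
  P.zy_inj (e.trans (by simp [zy]))

theorem Co_mid {a : G} {v w : V} (ha : Co z Qf θ ρ y a v w) : Mid v ∧ Mid w := by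
  obtain ⟨x, s, hx, hs, -, rfl, rfl⟩ := ha
  exact ⟨mid_md ((P.W_iff hx.1).1 hx), (P.wS_spec hs).1⟩

theorem Co_comm {a : G} {v w : V} (ha : Co z Qf θ ρ y a v w) :
    a * z = z * a ∧ a * y = y * a := by
  obtain ⟨x, s, hx, hs, rfl, -, -⟩ := ha
  exact ⟨comm_mul (P.inW_comm hx).1 hs.2, comm_mul hx.2 (P.inWy_comm hs).2⟩

theorem Co_ρ {a : G} {v w : V} (ha : Co z Qf θ ρ y a v w) :
    ∀ hw : bl eV w = 0, ρ a = Te w hw := by
  obtain ⟨x, s, hx, hs, rfl, -, rfl⟩ := ha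
  intro hw
  obtain ⟨hw', e⟩ := P.wS_spec hs
  rw [P.toSetting.ρ_mul (P.inW_comm hx).1 hs.2, P.toSetting.ρ_of_mem hx.1, one_mul, e]

theorem Co_wS {a : G} {v w : V} (ha : Co z Qf θ ρ y a v w) : wS ρ a = w := by
  have hm := (P.Co_mid ha).2
  rw [wS, P.Co_ρ ha hm.bl_eV, Te_param, md_of_mid hm]

theorem Co_exists {v w : V} (hv : Mid v) (hw : Mid w) : ∃ a, Co z Qf θ ρ y a v w := by
  obtain ⟨x, hx, hθ⟩ := P.exists_W v hv
  obtain ⟨s, hs, hsw⟩ := P.exists_Wy hw
  exact ⟨x * s, x, s, hx, hs, rfl, by rw [hθ, md_of_mid hv], hsw⟩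

theorem Co_of_W {x : G} (hx : inW z Qf y x) : Co z Qf θ ρ y x (md (θ x)) 0 :=
  ⟨x, 1, hx, ⟨one_mem _, by simp⟩, (mul_one x).symm, rfl, by
    rw [P.wS_of_mem (one_mem _)]⟩

theorem Co_of_Wy {s : G} (hs : inWy z Qf y s) : Co z Qf θ ρ y s 0 (wS ρ s) :=
  ⟨1, s, ⟨one_mem _, by simp⟩, hs, (one_mul s).symm, by rw [P.toSetting.θ_one, md_zero], rfl⟩

theorem Co_zy (a b : ZMod 2) : Co z Qf θ ρ y (zy z y a b) 0 0 := by
  have := P.Co_of_W (P.zy_W a b)
  rwa [P.md_θ_zy] at this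

theorem Co_unique {a : G} {v w v' w' : V} (ha : Co z Qf θ ρ y a v w)
    (ha' : Co z Qf θ ρ y a v' w') : v = v' ∧ w = w' := by
  refine ⟨?_, by rw [← P.Co_wS ha, P.Co_wS ha']⟩
  obtain ⟨x, s, hx, hs, rfl, rfl, -⟩ := ha
  obtain ⟨x', s', hx', hs', e, rfl, -⟩ := ha'
  have hd : x'⁻¹ * x = s' * s⁻¹ := by
    rw [eq_mul_inv_iff_mul_eq, mul_assoc, e, inv_mul_cancel_left]
  have hm : x'⁻¹ * x ∈ Qf z := (Qf z).mul_mem ((Qf z).inv_mem hx'.1) hx.1
  have hmy : x'⁻¹ * x ∈ Qf y := hd ▸ (Qf y).mul_mem hs'.1 ((Qf y).inv_mem hs.1)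
  have hθ : md (θ (x'⁻¹ * x)) = 0 := by
    rcases P.θ_inter hm hmy with e | e <;> rw [e]
    · exact md_zero
    · exact md_eV
  rw [P.θ_mul _ ((Qf z).inv_mem hx'.1) x hx.1, P.toSetting.θ_inv hx'.1, md_add] at hθ
  exact (vadd_eq_zero.1 hθ).symm

theorem Co_mul {a a' : G} {v w v' w' : V} (ha : Co z Qf θ ρ y a v w)
    (ha' : Co z Qf θ ρ y a' v' w') : Co z Qf θ ρ y (a * a') (v + v') (w + w') := by
  obtain ⟨x, s, hx, hs, rfl, rfl, rfl⟩ := ha
  obtain ⟨x', s', hx', hs', rfl, rfl, rfl⟩ := ha'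
  set b := bl (θ x') (wS ρ s)
  have hc : s * x' = zy z y b b * x' * s := by
    have := P.comm_eq hs hx'
    rw [show s * x' = s * x' * s⁻¹ * x'⁻¹ * (x' * s) by group, this, zy]
    group
    rfl
  refine ⟨x * (zy z y b b * x'), s * s', P.W_mul hx (P.W_mul (P.zy_W b b) hx'),
    P.Wy_mul hs hs', ?_, ?_, P.wS_mul hs hs'⟩
  · calc x * s * (x' * s') = x * (s * x') * s' := by group
      _ = _ := by rw [hc]; group
  · rw [P.θ_mul x hx.1 _ (P.W_mul (P.zy_W b b) hx').1, P.θ_mul _ (P.zy_W b b).1 x' hx'.1, md_add,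
      md_add, P.md_θ_zy, zero_add]

theorem Co_zero {a : G} (ha : Co z Qf θ ρ y a 0 0) : ∃ i j : ZMod 2, a = zy z y i j := by
  obtain ⟨x, s, hx, hs, rfl, hv, hw⟩ := ha
  have h1 := P.mem_of_wS_zero hs hw
  exact P.D_cases ((Qf z).mul_mem hx.1 h1) ((Qf y).mul_mem (P.inWy_of_θ hx.1 hv).1.1 hs.1)

theorem Co_sq {a : G} {v w : V} (ha : Co z Qf θ ρ y a v w) :
    a * a = zy z y (E1 v w) (E2 v w) := by
  obtain ⟨x, s, hx, hs, rfl, rfl, rfl⟩ := ha
  obtain ⟨hw, -⟩ := P.wS_spec hs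
  have hv := (P.W_iff hx.1).1 hx
  have hc : s * x = zy z y (bl (θ x) (wS ρ s)) (bl (θ x) (wS ρ s)) * x * s := by
    have := P.comm_eq hs hx
    rw [show s * x = s * x * s⁻¹ * x⁻¹ * (x * s) by group, this, zy]
    group
  set b := bl (θ x) (wS ρ s) with hb
  have hxc : x * zy z y b b = zy z y b b * x :=
    P.comm_zy (P.inW_comm hx).1 hx.2 b b
  have hx2 : x * x = zy z y (q (θ x)) 0 := by rw [P.toSetting.sq_eq hx.1, zy, zp_zero, mul_one]
  have hs2 : s * s = zy z y 0 (q (wS ρ s)) := by rw [P.sq_wS hs, zy, zp_zero, one_mul]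
  calc x * s * (x * s) = x * (s * x) * s := by group
    _ = zy z y b b * (x * x) * (s * s) := by rw [hc, ← mul_assoc x, ← mul_assoc x, hxc]; group
    _ = zy z y (b + q (θ x) + 0) (b + 0 + q (wS ρ s)) := by rw [hx2, hs2, P.zy_mul, P.zy_mul]
    _ = _ := by
      rw [E1, E2, q_md hv, bl_md_left hw.bl_eV, ← hb]
      congr 1 <;> ring

theorem Co_inv {a : G} {v w : V} (ha : Co z Qf θ ρ y a v w) : Co z Qf θ ρ y a⁻¹ v w := by
  have h1 := P.Co_mul ha (P.Co_zy (E1 v w) (E2 v w))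
  rw [add_zero, add_zero] at h1
  have : a⁻¹ = a * zy z y (E1 v w) (E2 v w) := by
    refine inv_eq_of_mul_eq_one_right ?_
    rw [← mul_assoc, P.Co_sq ha, P.zy_mul, CharTwo.add_self_eq_zero, CharTwo.add_self_eq_zero]
    simp [zy]
  rwa [this]

theorem Co_conj {a a' : G} {v w v' w' : V} (ha : Co z Qf θ ρ y a v w)
    (ha' : Co z Qf θ ρ y a' v' w') :
    a * a' * a⁻¹ = zy z y (C1 v w v' w') (C2 v w v' w') * a' := by
  obtain ⟨i, j, hd⟩ : ∃ i j : ZMod 2, a * a' * a⁻¹ * a'⁻¹ = zy z y i j := by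
    refine P.Co_zero ?_
    have := P.Co_mul (P.Co_mul (P.Co_mul ha ha') (P.Co_inv ha)) (P.Co_inv ha')
    rwa [show v + v' + v + v' = (v + v') + (v + v') by abel,
      show w + w' + w + w' = (w + w') + (w + w') by abel, vadd_self, vadd_self] at this
  have hc : a * a' = zy z y i j * (a' * a) := by rw [← hd]; group
  have hA := P.Co_comm ha
  have ha2 := P.Co_comm ha'
  have hsq := P.Co_sq (P.Co_mul ha ha')
  have e : a * a' * (a * a') = zy z y i j * (a' * (a * a) * a') := by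
    conv_lhs => arg 1; rw [hc]
    group
  have hmid : a' * (a * a) * a' = (a * a) * (a' * a') := by
    rw [P.Co_sq ha, P.comm_zy ha2.1 ha2.2, mul_assoc]
  rw [e, hmid, P.Co_sq ha, P.Co_sq ha', P.zy_mul, P.zy_mul] at hsq
  obtain ⟨h1, h2⟩ := P.zy_inj hsq
  have hi : i = C1 v w v' w' := by
    simp only [E1, q_add, bl_add_left, bl_add_right] at h1
    rw [bl_comm v' w] at h1
    unfold C1
    linear_combination h1
  have hj : j = C2 v w v' w' := by
    simp only [E2, q_add, bl_add_left, bl_add_right] at h2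
    rw [bl_comm v' w] at h2
    unfold C2
    linear_combination h2
  rw [← hi, ← hj, ← hd]
  group

theorem Co_commute {a a' : G} {v w v' w' : V} (ha : Co z Qf θ ρ y a v w)
    (ha' : Co z Qf θ ρ y a' v' w') :
    a * a' = a' * a ↔ C1 v w v' w' = 0 ∧ C2 v w v' w' = 0 := by
  rw [← conj_fix_iff, P.Co_conj ha ha', mul_eq_right]
  exact ⟨P.zy_eq_one, fun ⟨e1, e2⟩ => by simp [zy, e1, e2]⟩

theorem Co_pow_four {a : G} {v w : V} (ha : Co z Qf θ ρ y a v w) : a ^ 4 = 1 := by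
  rw [show a ^ 4 = a * a * (a * a) by simp only [pow_succ, pow_zero, one_mul, mul_assoc],
    P.Co_sq ha, P.zy_mul, CharTwo.add_self_eq_zero, CharTwo.add_self_eq_zero]
  simp [zy]

/-- The elements centralising `z`, `y` and acting trivially between them. -/
theorem Co_of_trivial {a : G} (haz : a * z = z * a) (hay : a * y = y * a)
    (htr : ∀ u, Mid u → md (ap (ρ a) u) = u) : ∃ v w, Co z Qf θ ρ y a v w := by
  obtain ⟨w, hw, hwM, he, -⟩ := eq_Te (P.ρy haz hay) htr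
  obtain ⟨s, hs, hsw⟩ := P.exists_Wy hwM
  obtain ⟨hws, hes⟩ := P.wS_spec hs
  have hρ : ρ (a * s⁻¹) = 1 := by
    rw [P.toSetting.ρ_mul haz (comm_inv hs.2), P.toSetting.ρ_inv hs.2, he, hes, Te_congr hsw,
      mul_inv_cancel]
    exact hwM.bl_eV
  have hz' : a * s⁻¹ * z = z * (a * s⁻¹) := comm_mul haz (comm_inv hs.2)
  have hx : inW z Qf y (a * s⁻¹) :=
    ⟨(P.ρ_ker _ hz').1 hρ, comm_mul hay (comm_inv (P.inWy_comm hs).2)⟩
  exact ⟨_, w, a * s⁻¹, s, hx, hs, by group, rfl, hsw⟩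

/-- Conjugation by the centraliser of `z` and `y`. -/
theorem Co_conj_cent {c a : G} {v w : V} (hcz : c * z = z * c) (hcy : c * y = y * c)
    (ha : Co z Qf θ ρ y a v w) :
    Co z Qf θ ρ y (c * a * c⁻¹) (md (ap (ρ c) v)) (md (ap (ρ c) w)) := by
  obtain ⟨x, s, hx, hs, rfl, rfl, rfl⟩ := ha
  obtain ⟨hs', hw'⟩ := P.wS_conj hcz hcy hs
  refine ⟨c * x * c⁻¹, c * s * c⁻¹, ⟨P.toSetting.conj_mem_Q hcz hx.1,
    conj_comm rfl (conj_fix_iff.2 hcy) hx.2⟩, hs', by group, ?_, hw'⟩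
  rw [P.ρ_act c hcz x hx.1, md_ap (P.ρy hcz hcy)]

/-- Conjugation by a flip of `y`. -/
theorem Co_conj_flip {r a : G} {v w : V} (hr : r ∈ Qf z) (hθr : θ r = fV)
    (ha : Co z Qf θ ρ y a v w) : Co z Qf θ ρ y (r * a * r⁻¹) (v + w) w := by
  obtain ⟨x, s, hx, hs, rfl, rfl, rfl⟩ := ha
  obtain ⟨hw, he⟩ := P.wS_spec hs
  have hrz := P.toSetting.comm_z hr
  have hx' : inW z Qf y (r * x * r⁻¹) := by
    refine (P.W_iff (P.toSetting.conj_mem_Q hrz hx.1)).2 ?_
    rw [P.ρ_act r hrz x hx.1, P.toSetting.ρ_of_mem hr, ap_one]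
    exact (P.W_iff hx.1).1 hx
  set u := r * (s * r⁻¹ * s⁻¹) with hu
  have hu1 : s * r⁻¹ * s⁻¹ ∈ Qf z := P.toSetting.conj_mem_Q hs.2 ((Qf z).inv_mem hr)
  have huQ : u ∈ Qf z := (Qf z).mul_mem hr hu1
  have hθu : θ u = fV + ap (ρ s) fV := by
    rw [hu, P.θ_mul r hr _ hu1, P.ρ_act s hs.2 _ ((Qf z).inv_mem hr), P.toSetting.θ_inv hr, hθr]
  have huW : inW z Qf y u := by
    refine (P.W_iff huQ).2 ?_
    rw [hθu, bl_add_right]
    have h1 := bl_ap (ρ s) eV fV
    rw [P.ρy hs.2 (P.inWy_comm hs).2] at h1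
    rw [h1, bl_e_f]
    rfl
  refine ⟨r * x * r⁻¹ * u, s, P.W_mul hx' huW, hs, by rw [hu]; group, ?_, rfl⟩
  rw [P.θ_mul _ hx'.1 u huQ, md_add, P.ρ_act r hrz x hx.1, P.toSetting.ρ_of_mem hr, ap_one, hθu,
    add_comm fV]
  rfl

theorem isotropic_pair : ∀ u : V, Mid u → ∀ u' : V, Mid u' →
    q u = 0 → q u' = 0 → bl u u' = 0 → u ≠ 0 → u' ≠ 0 → u = u' := by
  rw [forall_mid]; intro b d g k; rw [forall_mid]; revert b d g k; decide +kernel

/-- A linear map moving every vector by a singular orthogonal one is the identity. -/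
theorem eta_zero {η : V → V} (hmid : ∀ v, Mid v → Mid (η v))
    (hadd : ∀ u v, Mid u → Mid v → η (u + v) = η u + η v)
    (hq : ∀ v, Mid v → q (η v) = 0) (hbl : ∀ v, Mid v → bl v (η v) = 0) :
    ∀ v, Mid v → η v = 0 := by
  intro a ha
  by_contra h0
  have horth : ∀ b, Mid b → bl (η a) (η b) = 0 := by
    intro b hb
    have := hq _ (ha.add hb)
    rw [hadd a b ha hb, q_add, hq a ha, hq b hb, zero_add, zero_add] at this
    exact this
  refine h0 (mid_nondeg _ (hmid a ha) fun b hb => ?_)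
  rw [bl_comm]
  by_cases hb0 : η b = 0
  · have h1 := hbl _ (ha.add hb)
    rw [hadd a b ha hb, hb0, add_zero, bl_add_left, hbl a ha, zero_add] at h1
    exact h1
  · rw [P.isotropic_pair _ (hmid a ha) _ (hmid b hb) (hq a ha) (hq b hb) (horth b hb) h0 hb0]
    exact hbl b hb

/-- Conjugation by a flip of `z`. -/
theorem Co_conj_flip' {r a : G} {v w : V} (hr : r ∈ Qf y) (hrz : r * z * r⁻¹ = y * z)
    (ha : Co z Qf θ ρ y a v w) : Co z Qf θ ρ y (r * a * r⁻¹) v (v + w) := by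
  classical
  have hry : r * y = y * r := P.goody.comm r hr
  have hryf : r * y * r⁻¹ = y := conj_fix_iff.2 hry
  have hW : ∀ x, inW z Qf y x → ∃ k, inWy z Qf y k ∧ r * x * r⁻¹ = k * x := by
    intro x hx
    have h1 : x * r⁻¹ * x⁻¹ ∈ Qf y := P.goody.norm x hx.2 _ ((Qf y).inv_mem hr)
    refine ⟨r * (x * r⁻¹ * x⁻¹), ⟨(Qf y).mul_mem hr h1, ?_⟩, by group⟩
    have h2 : r * x * r⁻¹ * (y * z) = y * z * (r * x * r⁻¹) := conj_comm rfl hrz (P.inW_comm hx).1
    have h3 : r * x * r⁻¹ * y = y * (r * x * r⁻¹) := conj_comm rfl hryf hx.2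
    have h4 : r * x * r⁻¹ * z = z * (r * x * r⁻¹) := by
      have h5 : z = y * (y * z) := by rw [← mul_assoc, P.y_sq, one_mul]
      rw [h5, ← mul_assoc, h3, mul_assoc y, h2, ← mul_assoc]
    rw [show r * (x * r⁻¹ * x⁻¹) = r * x * r⁻¹ * x⁻¹ by group]
    exact comm_mul h4 (comm_inv (P.inW_comm hx).1)
  have hCoW : ∀ x, inW z Qf y x → ∃ k, Co z Qf θ ρ y (r * x * r⁻¹) (md (θ x)) k := by
    intro x hx
    obtain ⟨k, hk, e⟩ := hW x hx
    have := P.Co_mul (P.Co_of_Wy hk) (P.Co_of_W hx)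
    rw [zero_add, ← e] at this
    exact ⟨_, this⟩
  choose L hL hLθ using P.exists_W
  let τ : V → V := fun u => if hu : Mid u then wS ρ (r * L u hu * r⁻¹) else 0
  have hτ : ∀ x, inW z Qf y x → Co z Qf θ ρ y (r * x * r⁻¹) (md (θ x)) (τ (md (θ x))) := by
    intro x hx
    have hu : Mid (md (θ x)) := mid_md ((P.W_iff hx.1).1 hx)
    obtain ⟨k, hk⟩ := hCoW x hx
    obtain ⟨k', hk'⟩ := hCoW _ (hL _ hu)
    rw [hLθ, md_md] at hk'
    have hd := P.W_mul hx (P.W_inv (hL _ hu))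
    have h0 : md (θ (x * (L _ hu)⁻¹)) = 0 := by
      rw [P.θ_mul x hx.1 _ ((Qf z).inv_mem (hL _ hu).1), P.toSetting.θ_inv (hL _ hu).1, hLθ,
        md_add, md_md, vadd_self]
    obtain ⟨i, j, hd'⟩ := P.Co_zero (a := x * (L _ hu)⁻¹) (by
      have := P.Co_of_W hd
      rwa [h0] at this)
    have hconj : r * (x * (L _ hu)⁻¹) * r⁻¹ = zy z y i (i + j) := by
      rw [hd', zy, zy, show r * (zp z i * zp y j) * r⁻¹ = (r * zp z i * r⁻¹) * (r * zp y j * r⁻¹) by group,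
        conj_fix_iff.2 (zp_comm hry j), zp_add P.y_sq, ← mul_assoc]
      congr 1
      rcases z2_cases i with rfl | rfl
      · simp
      · rw [zp_one, zp_one, hrz, P.yz_comm]
    have hfin := P.Co_mul (P.Co_zy i (i + j)) hk'
    rw [zero_add, zero_add, ← hconj,
      show r * (x * (L _ hu)⁻¹) * r⁻¹ * (r * L _ hu * r⁻¹) = r * x * r⁻¹ by group] at hfin
    simp only [τ, dif_pos hu]
    rw [P.Co_wS hk']
    exact hfin
  have hτmid : ∀ u, Mid u → Mid (τ u) := by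
    intro u hu
    have := (P.Co_mid (hτ _ (hL u hu))).2
    rwa [hLθ, md_of_mid hu] at this
  have hτadd : ∀ u u', Mid u → Mid u' → τ (u + u') = τ u + τ u' := by
    intro u u' hu hu'
    have h1 := hτ _ (P.W_mul (hL u hu) (hL u' hu'))
    have h2 := P.Co_mul (hτ _ (hL u hu)) (hτ _ (hL u' hu'))
    rw [show r * L u hu * r⁻¹ * (r * L u' hu' * r⁻¹) = r * (L u hu * L u' hu') * r⁻¹ by group] at h2
    have h3 := (P.Co_unique h1 h2).2
    simp only [P.θ_mul _ (hL u hu).1 _ (hL u' hu').1, hLθ, md_add, md_of_mid hu,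
      md_of_mid hu'] at h3
    exact h3
  have hpres : ∀ u, Mid u → bl u (τ u) = 0 ∧ q (τ u) = q u := by
    intro u hu
    have h1 := hτ _ (hL u hu)
    rw [hLθ, md_of_mid hu] at h1
    have h2 := P.Co_sq h1
    rw [show r * L u hu * r⁻¹ * (r * L u hu * r⁻¹) = r * (L u hu * L u hu) * r⁻¹ by group,
      P.toSetting.sq_eq (hL u hu).1, hLθ] at h2
    have h3 : r * zp z (q u) * r⁻¹ = zy z y (q u) (q u) := by
      rcases z2_cases (q u) with e | e <;> rw [e]
      · simp [zy]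
      · rw [zy, zp_one, zp_one, hrz, P.yz_comm]
    obtain ⟨e1, e2⟩ := P.zy_inj (h3.symm.trans h2)
    simp only [E1, E2] at e1 e2
    exact ⟨by linear_combination -e1, by linear_combination e1 - e2⟩
  have hid : ∀ u, Mid u → τ u + u = 0 := by
    refine P.eta_zero (η := fun u => τ u + u) (fun u hu => (hτmid u hu).add hu) ?_ ?_ ?_
    · intro u u' hu hu'
      rw [hτadd u u' hu hu']
      abel
    · intro u hu
      rw [q_add, (hpres u hu).2, bl_comm, (hpres u hu).1, add_zero, CharTwo.add_self_eq_zero]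
    · intro u hu
      rw [bl_add_right, (hpres u hu).1, bl_self, add_zero]
  obtain ⟨x, s, hx, hs, rfl, rfl, rfl⟩ := ha
  have hm : Mid (md (θ x)) := mid_md ((P.W_iff hx.1).1 hx)
  have h1 := hτ x hx
  rw [vadd_eq_zero.1 (hid _ hm)] at h1
  -- the second half is moved inside its cosets
  have hs' : Co z Qf θ ρ y (r * s * r⁻¹) 0 (wS ρ s) := by
    have hsQ : s⁻¹ ∈ Qf y := (Qf y).inv_mem hs.1
    rcases P.goody.cases_conj r hr s hs.1 with e | e
    · rw [e]; exact P.Co_of_Wy hs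
    · rw [e]
      have := P.Co_of_Wy (P.Wy_mul P.y_Wy hs)
      rwa [P.wS_mul P.y_Wy hs, P.wS_of_mem P.y_mem, zero_add] at this
  have := P.Co_mul h1 hs'
  rw [add_zero, show r * x * r⁻¹ * (r * s * r⁻¹) = r * (x * s) * r⁻¹ by group] at this
  exact this

end PairSetting

end CfsgLib.SuzukiType
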