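import Cfsg.Agent.Lib.SuzukiType.Build

/-!
An element of order five of the orthogonal group in dimension six, its centraliser in the
subgroup of index two, and an element acting on it as squaring; and the lifts to the centraliser
of `z`.
-/

set_option autoImplicit false
set_option linter.unusedSectionVars false
set_option maxRecDepth 100000
set_option synthInstance.maxSize 2000

namespace CfsgLib.SuzukiType

theorem five_q : q z1V = 1 ∧ q z2V = 1 ∧ q (z1V + e2V) = 1 ∧ q (e2V + f2V) = 1 ∧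
    q (f2V + z1V + z2V) = 1 ∧ q (eV + fV) = 1 := by decide

/-- The element of order five as a function. -/
def g5F (x : V) : V :=
  vec (x (.inl (.inl 0))) (x (.inl (.inl 1)) + x (.inl (.inr 1)) + x (.inr 1)) (x (.inl (.inr 0)))
    (x (.inl (.inl 1))) (x (.inr 1)) (x (.inl (.inl 1)) + x (.inr 0))

/-- The element acting on it as squaring, as a function. -/
def g4F (x : V) : V :=
  vec (x (.inl (.inr 0))) (x (.inl (.inl 1))) (x (.inl (.inl 0)))
    (x (.inl (.inl 1)) + x (.inl (.inr 1)) + x (.inr 0) + x (.inr 1)) (x (.inr 0) + x (.inr 1))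
    (x (.inl (.inl 1)) + x (.inr 1))

theorem g5F_rf : ∀ x ∈ basisList,
    rf z1V (rf z2V (rf (z1V + e2V) (rf (e2V + f2V) x))) = g5F x := by decide +kernel

theorem g4F_rf : ∀ x ∈ basisList,
    rf z2V (rf z1V (rf (f2V + z1V + z2V) (rf (eV + fV) x))) = g4F x := by decide +kernel

theorem g5F_linear (v : V) : g5F v = v (.inl (.inl 0)) • g5F eV + v (.inl (.inl 1)) • g5F e2V +
    v (.inl (.inr 0)) • g5F fV + v (.inl (.inr 1)) • g5F f2V + v (.inr 0) • g5F z1V +
      v (.inr 1) • g5F z2V := by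
  funext i
  rcases i with (i | i) | i <;> fin_cases i <;> simp [g5F, eV, e2V, fV, f2V, z1V, z2V, vec]

theorem g4F_linear (v : V) : g4F v = v (.inl (.inl 0)) • g4F eV + v (.inl (.inl 1)) • g4F e2V +
    v (.inl (.inr 0)) • g4F fV + v (.inl (.inr 1)) • g4F f2V + v (.inr 0) • g4F z1V +
      v (.inr 1) • g4F z2V := by
  funext i
  rcases i with (i | i) | i <;> fin_cases i <;> simp [g4F, eV, e2V, fV, f2V, z1V, z2V, vec]

/-- The element of order five. -/
noncomputable def g5 : O :=
  R z1V five_q.1 * R z2V five_q.2.1 * (R (z1V + e2V) five_q.2.2.1 * R (e2V + f2V) five_q.2.2.2.1)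

/-- An element acting on `g5` as squaring. -/
noncomputable def g4 : O :=
  R z2V five_q.2.1 * R z1V five_q.1 *
    (R (f2V + z1V + z2V) five_q.2.2.2.2.1 * R (eV + fV) five_q.2.2.2.2.2)

theorem ap_g5 (x : V) : ap g5 x = g5F x := by
  have h : ∀ b ∈ basisList, ap g5 b = g5F b := fun b hb => by
    rw [← g5F_rf b hb]; simp only [g5, ap_mul, ap_R]
  conv_lhs => rw [vec_decomp x]
  rw [g5F_linear x]
  simp only [ap_add, ap_smul, h eV (by simp [basisList]), h e2V (by simp [basisList]),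
    h fV (by simp [basisList]), h f2V (by simp [basisList]), h z1V (by simp [basisList]),
    h z2V (by simp [basisList])]

theorem ap_g4 (x : V) : ap g4 x = g4F x := by
  have h : ∀ b ∈ basisList, ap g4 b = g4F b := fun b hb => by
    rw [← g4F_rf b hb]; simp only [g4, ap_mul, ap_R]
  conv_lhs => rw [vec_decomp x]
  rw [g4F_linear x]
  simp only [ap_add, ap_smul, h eV (by simp [basisList]), h e2V (by simp [basisList]),
    h fV (by simp [basisList]), h f2V (by simp [basisList]), h z1V (by simp [basisList]),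
    h z2V (by simp [basisList])]

theorem g5F_basis : ∀ x ∈ basisList,
    g5F (g5F (g5F (g5F (g5F x)))) = x ∧ g4F (g5F x) = g5F (g5F (g4F x)) := by decide +kernel

theorem g5_moves : g5F e2V ≠ e2V ∧ g5F (g5F (g5F (g5F e2V))) = f2V ∧
    g5F e2V + e2V + f2V = z2V ∧ g5F (g5F (g5F e2V)) + e2V + f2V = z1V := by decide +kernel

theorem g5F_fixed : ∀ v : V, g5F v = v → v = 0 ∨ v = eV ∨ v = fV ∨ v = eV + fV := by
  rw [forall_vec]; decide +kernel

theorem g5F_orbit : ∀ v : V, Mid v → q v = 0 → v ≠ 0 → v = e2V ∨ v = g5F e2V ∨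
    v = g5F (g5F e2V) ∨ v = g5F (g5F (g5F e2V)) ∨ v = g5F (g5F (g5F (g5F e2V))) := by
  rw [forall_mid]; decide +kernel

theorem perp_ef : ∀ v : V, bl eV v = 0 → bl fV v = 0 → Mid v := by
  rw [forall_vec]; decide +kernel

theorem g5_pow_five : g5 ^ 5 = 1 := by
  refine O_ext_basis fun x hx => ?_
  simp only [pow_succ, pow_zero, one_mul, ap_mul, ap_g5, ap_one]
  exact (g5F_basis x hx).1

theorem g5_ne : g5 ≠ 1 := fun e => g5_moves.1 (by rw [← ap_g5, e, ap_one])

theorem g4_g5 : g4 * g5 * g4⁻¹ = g5 * g5 := by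
  rw [mul_inv_eq_iff_eq_mul]
  refine O_ext_basis fun x hx => ?_
  simp only [ap_mul, ap_g5, ap_g4]
  exact (g5F_basis x hx).2

namespace Half

variable {J : Subgroup O} (hJ : Half J)
include hJ

theorem g5_mem : g5 ∈ J := J.mul_mem (hJ.pair_mem _ _) (hJ.pair_mem _ _)

theorem g4_mem : g4 ∈ J := J.mul_mem (hJ.pair_mem _ _) (hJ.pair_mem _ _)

/-- The element of order five generates its centraliser in `J`. -/
theorem cent_g5 {c : O} (hc : c ∈ J) (hcomm : c * g5 = g5 * c) : ∃ j : ℕ, c = g5 ^ j := by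
  have hco : ∀ x, ap c (g5F x) = g5F (ap c x) := fun x => by
    rw [← ap_g5, ← ap_g5, ← ap_mul, ← ap_mul, hcomm]
  have hfix : ∀ v, g5F v = v → g5F (ap c v) = ap c v := fun v hv => by rw [← hco, hv]
  have hef : ∀ v, v = eV ∨ v = fV → ap c v = eV ∨ ap c v = fV := by
    intro v hv
    have hv' : g5F v = v ∧ q v = 0 ∧ v ≠ 0 := by
      rcases hv with rfl | rfl <;> decide +kernel
    rcases g5F_fixed _ (hfix v hv'.1) with e | e | e | e
    · exact absurd (ap_inj c (e.trans (ap_zero c).symm)) hv'.2.2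
    · exact Or.inl e
    · exact Or.inr e
    · have := q_ap c v
      rw [e, hv'.2.1, five_q.2.2.2.2.2] at this
      exact absurd this one_ne_zero
  have hswap : (ap c eV = eV ∧ ap c fV = fV) ∨ (ap c eV = fV ∧ ap c fV = eV) := by
    rcases hef eV (Or.inl rfl) with e | e <;> rcases hef fV (Or.inr rfl) with f | f
    · exact absurd (ap_inj c (e.trans f.symm)) (by decide)
    · exact Or.inl ⟨e, f⟩
    · exact Or.inr ⟨e, f⟩
    · exact absurd (ap_inj c (e.trans f.symm)) (by decide)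
  have hmid : Mid (ap c e2V) := by
    have h1 : bl (ap c eV) (ap c e2V) = 0 := by rw [bl_ap]; decide
    have h2 : bl (ap c fV) (ap c e2V) = 0 := by rw [bl_ap]; decide
    rcases hswap with ⟨e, f⟩ | ⟨e, f⟩ <;> rw [e] at h1 <;> rw [f] at h2
    · exact perp_ef _ h1 h2
    · exact perp_ef _ h2 h1
  have horb := g5F_orbit _ hmid (by rw [q_ap]; decide)
    (fun e => absurd (ap_inj c (e.trans (ap_zero c).symm)) (by decide))
  obtain ⟨j, hj⟩ : ∃ j : ℕ, ap c e2V = ap (g5 ^ j) e2V := by
    rcases horb with e | e | e | e | e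
    · exact ⟨0, by rw [e, pow_zero, ap_one]⟩
    · exact ⟨1, by rw [e, pow_one, ap_g5]⟩
    · exact ⟨2, by rw [e, pow_succ, pow_one, ap_mul, ap_g5, ap_g5]⟩
    · exact ⟨3, by rw [e, pow_succ, pow_succ, pow_one, ap_mul, ap_mul, ap_g5, ap_g5, ap_g5]⟩
    · exact ⟨4, by rw [e, pow_succ, pow_succ, pow_succ, pow_one, ap_mul, ap_mul, ap_mul,
        ap_g5, ap_g5, ap_g5, ap_g5]⟩
  refine ⟨j, ?_⟩
  set d := (g5 ^ j)⁻¹ * c with hd
  have hcd : c = g5 ^ j * d := by rw [hd]; group
  have hdJ : d ∈ J := J.mul_mem (J.inv_mem (J.pow_mem hJ.g5_mem j)) hc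
  have hdc : ∀ x, ap d (g5F x) = g5F (ap d x) := fun x => by
    rw [← ap_g5, ← ap_g5, ← ap_mul, ← ap_mul]
    congr 1
    rw [hd, mul_assoc, hcomm, ← mul_assoc, ← mul_assoc,
      ((Commute.pow_self g5 j).inv_left).eq]
  have hde2 : ap d e2V = e2V := by rw [hd, ap_mul, hj, ap_inv_ap]
  obtain ⟨-, m4, m2, m1⟩ := g5_moves
  have hdf2 : ap d f2V = f2V := by
    conv_lhs => rw [← m4]
    rw [hdc, hdc, hdc, hdc, hde2, m4]
  have hdz2 : ap d z2V = z2V := by
    conv_lhs => rw [← m2]
    rw [ap_add, ap_add, hdc, hde2, hdf2, m2]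
  have hdz1 : ap d z1V = z1V := by
    conv_lhs => rw [← m1]
    rw [ap_add, ap_add, hdc, hdc, hdc, hde2, hdf2, m1]
  have hgfix : ∀ v, g5F v = v → ap (g5 ^ j)⁻¹ v = v := fun v hv => by
    apply ap_inj (g5 ^ j)
    rw [ap_ap_inv]
    clear hj hd hcd hdc hdf2 hdz2 hdz1 hde2 hdJ
    induction j with
    | zero => rw [pow_zero, ap_one]
    | succ i ih => rw [pow_succ, ap_mul, ap_g5, hv, ← ih]
  have hdef : (ap d eV = eV ∧ ap d fV = fV) ∨ (ap d eV = fV ∧ ap d fV = eV) := by
    simp only [hd, ap_mul]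
    rcases hswap with ⟨e, f⟩ | ⟨e, f⟩ <;> rw [e, f, hgfix eV (by decide +kernel),
      hgfix fV (by decide +kernel)]
    · exact Or.inl ⟨rfl, rfl⟩
    · exact Or.inr ⟨rfl, rfl⟩
  rcases hdef with ⟨e, f⟩ | ⟨e, f⟩
  · have : d = 1 := by
      refine O_ext_basis fun x hx => ?_
      simp only [basisList, List.mem_cons, List.not_mem_nil, or_false] at hx
      rw [ap_one]
      rcases hx with rfl | rfl | rfl | rfl | rfl | rfl <;> assumption
    rw [hcd, this, mul_one]
  · exfalso
    refine hJ.R_not_mem five_q.2.2.2.2.2 ?_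
    have : d = R (eV + fV) five_q.2.2.2.2.2 := by
      refine O_ext_basis fun x hx => ?_
      simp only [basisList, List.mem_cons, List.not_mem_nil, or_false] at hx
      rw [ap_R]
      rcases hx with rfl | rfl | rfl | rfl | rfl | rfl
      · rw [e]; decide
      · rw [f]; decide
      · rw [hde2]; decide
      · rw [hdf2]; decide
      · rw [hdz1]; decide
      · rw [hdz2]; decide
    exact this ▸ hdJ

end Half

end CfsgLib.SuzukiType
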