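import Cfsg.Agent.Lib.SuzukiType.Second

/-!
Involutory isometries moving every vector by a singular one: the translations commuting with such
an isometry when it moves `eV`, and small counts of vectors.
-/

set_option autoImplicit false
set_option linter.unusedSectionVars false
set_option maxRecDepth 100000
set_option synthInstance.maxSize 2000

namespace CfsgLib.SuzukiType

/-- An involutory isometry moving every vector by a singular one. -/
structure Root (g : O) : Prop where
  sq : g * g = 1
  sing : ∀ v, q (ap g v + v) = 0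

namespace Root

variable {g : O} (R : Root g)
include R

theorem ap_ap (v : V) : ap g (ap g v) = v := by rw [← ap_mul, R.sq, ap_one]

theorem orth (u v : V) : bl (ap g u + u) (ap g v + v) = 0 := by
  have h := R.sing (u + v)
  rwa [ap_add, show ap g u + ap g v + (u + v) = (ap g u + u) + (ap g v + v) by abel, q_add, R.sing,
    R.sing, zero_add, zero_add] at h

theorem bl_move (u v : V) : bl u (ap g v + v) = bl (ap g u + u) v := by
  rw [bl_add_right, bl_add_left, ← bl_ap g u (ap g v), R.ap_ap]

theorem bl_self_move (v : V) : bl v (ap g v + v) = 0 := by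
  have h := R.sing v
  rw [q_add, q_ap, CharTwo.add_self_eq_zero, zero_add] at h
  rw [bl_add_right, bl_self, add_zero, bl_comm]
  exact h

theorem not_eV (hne : ap g eV ≠ eV) (v : V) : ap g v + v ≠ eV := fun e => by
  refine hne ?_
  rw [← e, ap_add, R.ap_ap, add_comm]

theorem md_ne (hne : ap g eV ≠ eV) : md (ap g eV + eV) ≠ 0 := fun h0 => by
  have hd := md_decomp (ap g eV + eV)
  rw [h0, zero_add] at hd
  rcases z2_cases ((ap g eV + eV) (.inl (.inl 0))) with e | e <;> rw [e] at hd
  · rw [zero_smul] at hd; exact hne (vadd_eq_zero.1 hd)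
  · rw [one_smul] at hd; exact R.not_eV hne eV hd

theorem exists_moved (hne : ap g eV ≠ eV) : ∃ v, bl eV (ap g v + v) = 1 := by
  have hp : bl eV (ap g eV + eV) = 0 := R.bl_self_move eV
  by_contra hall
  push Not at hall
  refine R.md_ne hne (mid_nondeg _ (mid_md hp) fun v hv => ?_)
  rw [bl_md_left hv.bl_eV, ← R.bl_move]
  exact (z2_cases _).resolve_right (hall v)

end Root

/-- The parameter of a translation commuting with such an isometry. -/
theorem Root.translation {g : O} (R : Root g) (hne : ap g eV ≠ eV)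
    (hiso : ∀ u : V, Mid u → ∀ u' : V, Mid u' →
      q u = 0 → q u' = 0 → bl u u' = 0 → u ≠ 0 → u' ≠ 0 → u = u')
    {w : V} (hw : Mid w) (hc : g * Te w hw.bl_eV = Te w hw.bl_eV * g) :
    w = 0 ∨ w = md (ap g eV + eV) := by
  obtain ⟨v, hv⟩ := R.exists_moved hne
  have hp : bl eV (ap g eV + eV) = 0 := R.bl_self_move eV
  set p' := ap g v + v with hp'
  have himg : ap (Te w hw.bl_eV) p' + p' =
      ap g (ap (Te w hw.bl_eV) v + v) + (ap (Te w hw.bl_eV) v + v) := by
    have h1 : ap (Te w hw.bl_eV) (ap g v) = ap g (ap (Te w hw.bl_eV) v) := by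
      rw [← ap_mul, ← ap_mul, hc]
    rw [hp', ap_add, h1, ap_add]
    abel
  set r := ap (Te w hw.bl_eV) p' + p' with hr
  have hsgf : r = w + (bl p' w + q w) • eV := by
    rw [hr, Te, ap_T, sgf_eq, bl_comm p' eV, hv, one_smul, mul_one,
      show p' + w + (bl p' w + q w) • eV + p' = (p' + p') + (w + (bl p' w + q w) • eV) by abel,
      vadd_self, zero_add]
  have hre : bl eV r = 0 := by
    rw [hsgf, bl_add_right, hw.bl_eV, bl_smul_right, bl_self, mul_zero, add_zero]
  have hmd : md r = w := by
    rw [hsgf, md_add, md_smul, md_eV, smul_zero, add_zero, md_of_mid hw]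
  by_cases h0 : w = 0
  · exact Or.inl h0
  refine Or.inr ?_
  rw [← hmd]
  refine hiso _ (mid_md hre) _ (mid_md hp) ?_ ?_ ?_ (by rw [hmd]; exact h0) (R.md_ne hne)
  · rw [q_md hre, himg]; exact R.sing _
  · rw [q_md hp]; exact R.sing _
  · rw [bl_md_md hre hp, himg]; exact R.orth _ _

theorem perp_half_list : ∀ s : V, Mid s → q s = 0 → s ≠ 0 →
    (List.filter (fun v => decide (bl v s = 0)) [0, e2V, f2V, e2V + f2V]).length ≤ 2 := by
  rw [forall_mid]; decide +kernel

theorem card_sing : (Finset.univ.filter (fun v : V => q v = 0 ∧ v ≠ 0)).card = 27 := by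
  decide +kernel

theorem perp_list : ∀ v : V, Mid v → Perp v → v ∈ [0, e2V, f2V, e2V + f2V] := by
  rw [forall_mid]; decide +kernel

theorem card_mid_sing :
    (Finset.univ.filter (fun v : V => (v (.inl (.inl 0)) = 0 ∧ v (.inl (.inr 0)) = 0) ∧ q v = 0 ∧
      v ≠ 0)).card = 5 := by
  decide +kernel

/-- Vectors fixed by the common stabiliser that commute with a given one moving `eV`. -/
def thetaOne (s : V) : Finset V :=
  Finset.univ.filter (fun u : V => bl eV u = 0 ∧ Perp (md u) ∧ bl u s = 0)

theorem card_thetaOne {s : V} (hs : bl eV s = 1) : (thetaOne s).card ≤ 4 := by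
  classical
  refine le_trans (Finset.card_le_card_of_injOn (t := ([0, e2V, f2V, e2V + f2V] : List V).toFinset) md
    (fun u hu => ?_) fun u hu u' hu' e => ?_) (le_trans (List.toFinset_card_le _) (by simp))
  · obtain ⟨h1, h2, -⟩ := (Finset.mem_filter.1 hu).2
    exact List.mem_toFinset.2 (perp_list _ (mid_md h1) h2)
  · obtain ⟨-, -, h3⟩ := (Finset.mem_filter.1 hu).2
    obtain ⟨-, -, h3'⟩ := (Finset.mem_filter.1 hu').2
    rw [md_decomp u, bl_add_left, bl_smul_left, hs, mul_one] at h3
    rw [md_decomp u', bl_add_left, bl_smul_left, hs, mul_one] at h3'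
    rw [md_decomp u, md_decomp u', e,
      show u (.inl (.inl 0)) = u' (.inl (.inl 0)) by
        rw [e] at h3
        linear_combination h3 - h3']

/-- Vectors fixed by the common stabiliser and by the given isometry. -/
def thetaTwo (g : O) : Finset V :=
  Finset.univ.filter (fun u : V => bl eV u = 0 ∧ Perp (md u) ∧ ∀ v, bl u (ap g v + v) = 0)

theorem card_thetaTwo {g : O} (R : Root g) (hne : ap g eV ≠ eV) : (thetaTwo g).card ≤ 2 := by
  classical
  obtain ⟨v, hv⟩ := R.exists_moved hne
  have hp : bl eV (ap g eV + eV) = 0 := R.bl_self_move eV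
  set s := md (ap g eV + eV) with hs
  have hlist := perp_half_list s (mid_md hp) (by rw [hs, q_md hp]; exact R.sing _) (R.md_ne hne)
  refine le_trans (Finset.card_le_card_of_injOn
    (t := (List.filter (fun v => decide (bl v s = 0)) ([0, e2V, f2V, e2V + f2V] : List V)).toFinset) md
    (fun u hu => ?_) fun u hu u' hu' e => ?_) (le_trans (List.toFinset_card_le _) hlist)
  · obtain ⟨h1, h2, h3⟩ := (Finset.mem_filter.1 hu).2
    refine List.mem_toFinset.2 (List.mem_filter.2 ⟨perp_list _ (mid_md h1) h2, ?_⟩)
    rw [decide_eq_true_eq, hs, bl_md_md h1 hp]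
    exact h3 eV
  · have h3 := (Finset.mem_filter.1 hu).2.2.2 v
    have h3' := (Finset.mem_filter.1 hu').2.2.2 v
    rw [md_decomp u, bl_add_left, bl_smul_left, hv, mul_one] at h3
    rw [md_decomp u', bl_add_left, bl_smul_left, hv, mul_one] at h3'
    rw [md_decomp u, md_decomp u', e,
      show u (.inl (.inl 0)) = u' (.inl (.inl 0)) by
        rw [e] at h3
        linear_combination h3 - h3']

end CfsgLib.SuzukiType
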