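import Cfsg.Agent.Lib.SuzukiType.Data

/-!
Two commuting conjugates `z`, `y` of the central involution with `y` in the extraspecial group of `z`,
interchanged by an element `h`: the common elements, and the map from the centraliser of `y` in one
extraspecial group to the Siegel transformations at `θ y`.
-/

set_option autoImplicit false
set_option linter.unusedSectionVars false

namespace CfsgLib.SuzukiType

open CfsgLib.ExtraspecialLarge

variable {G : Type*} [Group G] [Finite G]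

/-- The pair `z`, `y` with an element `h` interchanging them. -/
structure PairSetting (z : G) (Qf : G → Subgroup G) (θ : G → V) (ρ : G → O) (J : Subgroup O)
    (y h : G) : Prop extends Setting z Qf θ ρ J where
  y_mem : y ∈ Qf z
  θy : θ y = eV
  hz : h * z * h⁻¹ = y
  hy : h * y * h⁻¹ = z

variable {z : G} {Qf : G → Subgroup G} {θ : G → V} {ρ : G → O} {J : Subgroup O} {y h : G}

/-- The centraliser of `y` in the group of `z`. -/
def inW (z : G) (Qf : G → Subgroup G) (y x : G) : Prop := x ∈ Qf z ∧ x * y = y * x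

/-- The centraliser of `z` in the group of `y`. -/
def inWy (z : G) (Qf : G → Subgroup G) (y s : G) : Prop := s ∈ Qf y ∧ s * z = z * s

namespace PairSetting

variable (P : PairSetting z Qf θ ρ J y h)
include P

theorem goody : Good (Qf y) y := P.core.good_of_conj ⟨h, P.hz⟩

theorem hz' : h⁻¹ * y * h = z := by rw [← P.hz]; group

theorem hy' : h⁻¹ * z * h = y := by rw [← P.hy]; group

theorem yz_comm : y * z = z * y := P.toSetting.comm_z P.y_mem

theorem y_sq : y * y = 1 := P.goody.sq_u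

theorem conj_Qz {x : G} (hx : x ∈ Qf z) : h * x * h⁻¹ ∈ Qf y := by
  have := P.core.conj_mem h z hx
  rwa [P.hz] at this

theorem conj_Qy {x : G} (hx : x ∈ Qf y) : h * x * h⁻¹ ∈ Qf z := by
  have := P.core.conj_mem h y hx
  rwa [P.hy] at this

theorem conj_Qz' {x : G} (hx : x ∈ Qf z) : h⁻¹ * x * h ∈ Qf y := by
  have := P.core.conj_mem h⁻¹ z hx
  rwa [inv_inv, P.hy'] at this

theorem conj_Qy' {x : G} (hx : x ∈ Qf y) : h⁻¹ * x * h ∈ Qf z := by
  have := P.core.conj_mem h⁻¹ y hx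
  rwa [inv_inv, P.hz'] at this

omit [Finite G] P in
theorem conj_comm {g a b a' b' : G} (ha : g * a * g⁻¹ = a') (hb : g * b * g⁻¹ = b')
    (hab : a * b = b * a) : a' * b' = b' * a' := by
  rw [← ha, ← hb]
  calc g * a * g⁻¹ * (g * b * g⁻¹) = g * (a * b) * g⁻¹ := by group
    _ = g * (b * a) * g⁻¹ := by rw [hab]
    _ = _ := by group

theorem W_to_Wy {x : G} (hx : inW z Qf y x) : inWy z Qf y (h * x * h⁻¹) :=
  ⟨P.conj_Qz hx.1, conj_comm rfl P.hy hx.2⟩

theorem Wy_to_W {s : G} (hs : inWy z Qf y s) : inW z Qf y (h * s * h⁻¹) :=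
  ⟨P.conj_Qy hs.1, conj_comm rfl P.hz hs.2⟩

theorem Wy_to_W' {s : G} (hs : inWy z Qf y s) : inW z Qf y (h⁻¹ * s * h) := by
  refine ⟨P.conj_Qy' hs.1, ?_⟩
  have := conj_comm (g := h⁻¹) (a' := h⁻¹ * s * h) (by rw [inv_inv]) (by rw [inv_inv, P.hy']) hs.2
  exact this

theorem W_iff {x : G} (hx : x ∈ Qf z) : inW z Qf y x ↔ bl eV (θ x) = 0 := by
  rw [← P.θy, bl_comm]
  exact ⟨fun hw => P.toSetting.bl_of_comm hx P.y_mem hw.2,
    fun hb => ⟨hx, P.toSetting.comm_of_bl hx P.y_mem hb⟩⟩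

theorem z_memy : z ∈ Qf y := by
  have := P.core.symm (g := h) (by rw [P.hz]; exact P.y_mem)
  rwa [P.hz] at this

theorem ρy {c : G} (hc : c * z = z * c) (hcy : c * y = y * c) : ap (ρ c) eV = eV := by
  rw [← P.θy, ← P.ρ_act c hc y P.y_mem, conj_fix_iff.2 hcy]

theorem exists_flip_y : ∃ r ∈ Qf z, r * y * r⁻¹ = z * y := by
  obtain ⟨r, hr, hθr⟩ := P.θ_surj fV
  refine ⟨r, hr, ?_⟩
  rw [P.toSetting.conj_eq hr P.y_mem, hθr, P.θy, bl_comm, bl_e_f, zp_one]

/-- Elements of `J` fixing `eV` are induced by elements fixing `z` and `y`. -/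
theorem exists_lift {g : O} (hg : g ∈ J) (hge : ap g eV = eV) :
    ∃ c, c * z = z * c ∧ c * y = y * c ∧ ρ c = g := by
  obtain ⟨c, hc, rfl⟩ := P.ρ_surj g hg
  have h1 : θ (c * y * c⁻¹) = θ y := by rw [P.ρ_act c hc y P.y_mem, P.θy, hge]
  rcases P.toSetting.eq_or_of_θ (P.toSetting.conj_mem_Q hc P.y_mem) P.y_mem h1 with e | e
  · exact ⟨c, hc, conj_fix_iff.1 e, rfl⟩
  · obtain ⟨r, hr, hry⟩ := P.exists_flip_y
    have hrz := P.toSetting.comm_z hr
    refine ⟨r * c, comm_mul hrz hc, conj_fix_iff.1 ?_, ?_⟩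
    · calc r * c * y * (r * c)⁻¹ = r * (c * y * c⁻¹) * r⁻¹ := by group
        _ = (r * z * r⁻¹) * (r * y * r⁻¹) := by rw [e]; group
        _ = y := by rw [conj_fix_iff.2 hrz, hry, ← mul_assoc, P.toSetting.z_sq, one_mul]
    · rw [P.toSetting.ρ_mul hrz hc, P.toSetting.ρ_of_mem hr, one_mul]

/-- The common elements of the two groups have coordinates in `⟨eV⟩`. -/
theorem θ_inter {x : G} (hx : x ∈ Qf z) (hxy : x ∈ Qf y) : θ x = 0 ∨ θ x = eV := by
  have hxW : inW z Qf y x := ⟨hx, P.goody.comm x hxy⟩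
  have hb := (P.W_iff hx).1 hxW
  have hq : q (θ x) = 0 := by
    rcases z2_cases (q (θ x)) with e | e
    · exact e
    · exfalso
      have h1 := P.toSetting.sq_eq hx
      rw [e, zp_one] at h1
      rcases P.goody.sq x hxy with h2 | h2
      · exact P.toSetting.z_ne (h1.symm.trans h2)
      · have h3 : θ y = 0 := by rw [← h2, h1, P.toSetting.θ_z]
        rw [P.θy] at h3
        exact absurd h3 (by decide)
  by_contra hne
  push Not at hne
  have hM : Mid (md (θ x)) := mid_md hb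
  have hm0 : md (θ x) ≠ 0 := by
    intro e
    have hd := md_decomp (θ x)
    rw [e, zero_add] at hd
    rcases z2_cases (θ x (.inl (.inl 0))) with a | a <;> rw [a] at hd
    · exact hne.1 (by simpa using hd)
    · exact hne.2 (by simpa using hd)
  obtain ⟨p, hp, hbl⟩ := singular_moved _ hM hm0 (by rw [q_md hb, hq])
  obtain ⟨g, hg, hge, hgx⟩ := P.half.exists_stab hp
  obtain ⟨c, hcz, hcy, rfl⟩ := P.exists_lift hg hge
  have hx' : c * x * c⁻¹ ∈ Qf z := P.toSetting.conj_mem_Q hcz hx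
  have hxy' : c * x * c⁻¹ ∈ Qf y := P.goody.norm c hcy x hxy
  have hcomm : x * (c * x * c⁻¹) = c * x * c⁻¹ * x := by
    rcases P.goody.cases_conj x hxy _ hxy' with e | e
    · exact conj_fix_iff.1 e
    · exfalso
      have h2 := P.toSetting.conj_eq hx hx'
      rw [e] at h2
      have h3 : θ y = θ (zp z (bl (θ x) (θ (c * x * c⁻¹)))) := by
        rw [← mul_right_cancel h2]
      rcases z2_cases (bl (θ x) (θ (c * x * c⁻¹))) with a | a <;> rw [a, P.θy] at h3
      · rw [zp_zero, P.toSetting.θ_one] at h3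
        exact absurd h3 (by decide)
      · rw [zp_one, P.toSetting.θ_z] at h3
        exact absurd h3 (by decide)
  have h0 := P.toSetting.bl_of_comm hx hx' hcomm
  rw [P.ρ_act c hcz x hx] at h0
  have hb' := bl_eV_ap hge hb
  rw [← hgx] at hbl
  rw [← bl_md_md hb hb', ← md_ap hge] at h0
  have h4 : bl (md (θ x)) (ap (ρ c) (md (θ x))) = bl (md (θ x)) (md (ap (ρ c) (md (θ x)))) := by
    rw [bl_comm _ (md (ap _ _)), bl_md_left hM.bl_eV, bl_comm]
  rw [h4, h0] at hbl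
  exact zero_ne_one hbl

/-- The Siegel parameter of an element of `Qf y` centralising `z`. -/
theorem exists_param {s : G} (hs : inWy z Qf y s) :
    ∃ (w : V) (hw : Mid w), ρ s = Te w hw.bl_eV := by
  have hsy : s * y = y * s := P.goody.comm s hs.1
  have hge : ap (ρ s) eV = eV := P.ρy hs.2 hsy
  obtain ⟨w, hw, hwM, he, -⟩ := eq_Te hge fun v hv => by
    obtain ⟨x, hx, rfl⟩ := P.θ_surj v
    have hxW : inW z Qf y x := (P.W_iff hx).2 hv.bl_eV
    have hd1 : s * x * s⁻¹ * x⁻¹ ∈ Qf z :=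
      (Qf z).mul_mem (P.toSetting.conj_mem_Q hs.2 hx) ((Qf z).inv_mem hx)
    have hd2 : s * x * s⁻¹ * x⁻¹ ∈ Qf y := by
      rw [show s * x * s⁻¹ * x⁻¹ = s * (x * s⁻¹ * x⁻¹) by group]
      exact (Qf y).mul_mem hs.1 (P.goody.norm x hxW.2 _ ((Qf y).inv_mem hs.1))
    have h1 : θ (s * x * s⁻¹) = θ (s * x * s⁻¹ * x⁻¹) + θ x := by
      rw [← P.θ_mul _ hd1 x hx]; congr 1; group
    rw [P.ρ_act s hs.2 x hx] at h1
    rw [h1, md_add, md_of_mid hv]
    rcases P.θ_inter hd1 hd2 with e | e <;> rw [e]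
    · rw [md_zero, zero_add]
    · rw [md_eV, zero_add]
  exact ⟨w, hwM, he⟩

end PairSetting

/-- The Siegel parameter of `ρ s`. -/
noncomputable def wS (ρ : G → O) (s : G) : V := md (ap (ρ s) fV + fV)

namespace PairSetting

variable (P : PairSetting z Qf θ ρ J y h)
include P

theorem wS_eq {s : G} {w : V} (hw : bl eV w = 0) (he : ρ s = Te w hw) : wS ρ s = md w := by
  rw [wS, he, Te_param hw]

theorem wS_spec {s : G} (hs : inWy z Qf y s) :
    ∃ hw : Mid (wS ρ s), ρ s = Te (wS ρ s) hw.bl_eV := by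
  obtain ⟨w, hw, he⟩ := P.exists_param hs
  have e : wS ρ s = w := by rw [P.wS_eq _ he, md_of_mid hw]
  exact ⟨e.symm ▸ hw, by rw [he]; exact Te_congr e.symm _ _⟩

theorem Wy_mul {s t : G} (hs : inWy z Qf y s) (ht : inWy z Qf y t) : inWy z Qf y (s * t) :=
  ⟨(Qf y).mul_mem hs.1 ht.1, comm_mul hs.2 ht.2⟩

theorem Wy_inv {s : G} (hs : inWy z Qf y s) : inWy z Qf y s⁻¹ :=
  ⟨(Qf y).inv_mem hs.1, comm_inv hs.2⟩

theorem wS_mul {s t : G} (hs : inWy z Qf y s) (ht : inWy z Qf y t) :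
    wS ρ (s * t) = wS ρ s + wS ρ t := by
  obtain ⟨hws, es⟩ := P.wS_spec hs
  obtain ⟨hwt, et⟩ := P.wS_spec ht
  rw [P.wS_eq (w := wS ρ s + wS ρ t) (hws.add hwt).bl_eV, md_of_mid (hws.add hwt)]
  rw [P.toSetting.ρ_mul hs.2 ht.2, es, et, Te_mul]

theorem wS_of_mem {s : G} (hs : s ∈ Qf z) : wS ρ s = 0 := by
  rw [wS, P.toSetting.ρ_of_mem hs, ap_one, vadd_self, md_zero]

theorem mem_of_wS_zero {s : G} (hs : inWy z Qf y s) (h0 : wS ρ s = 0) : s ∈ Qf z := by
  obtain ⟨hw, e⟩ := P.wS_spec hs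
  refine (P.ρ_ker s hs.2).1 ?_
  rw [e, Te_congr h0 _ (bl_zero_right eV), Te_zero]

theorem wS_conj {c s : G} (hcz : c * z = z * c) (hcy : c * y = y * c) (hs : inWy z Qf y s) :
    inWy z Qf y (c * s * c⁻¹) ∧ wS ρ (c * s * c⁻¹) = md (ap (ρ c) (wS ρ s)) := by
  refine ⟨⟨P.goody.norm c hcy s hs.1, conj_comm rfl (conj_fix_iff.2 hcz) hs.2⟩, ?_⟩
  obtain ⟨hw, e⟩ := P.wS_spec hs
  have hge := P.ρy hcz hcy
  rw [P.wS_eq (w := md (ap (ρ c) (wS ρ s))) (by rw [bl_md]; exact bl_eV_ap hge hw.bl_eV), md_md]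
  rw [P.toSetting.ρ_conj hcz hs.2, e, conj_Te hge]

end PairSetting

end CfsgLib.SuzukiType
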