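import Cfsg.Agent.Lib.SuzukiType.Coords

/-!
The centraliser in `C(z)` of an involution of the second class commuting with the pair.
-/

set_option autoImplicit false
set_option linter.unusedSectionVars false
set_option maxRecDepth 100000
set_option synthInstance.maxSize 2000
set_option maxHeartbeats 1000000

namespace CfsgLib.SuzukiType

variable {G : Type*} [Group G] [Finite G]
variable {z : G} {Qf : G → Subgroup G} {θ : G → V} {ρ : G → O} {J : Subgroup O} {y h : G}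

/-- The rotation of the anisotropic plane. -/
def rotF (v : V) : V := md (pf (z1V, z2V) v)

/-- The outer map of the plane and its complement. -/
def sigF (v : V) : V := md (pf (z1V, e2V + f2V) v)

/-- Orthogonal to the anisotropic plane. -/
def Perp (v : V) : Prop := bl v z1V = 0 ∧ bl v z2V = 0

instance : DecidablePred Perp := fun v => by unfold Perp; infer_instance

theorem rot_vals : pf (z1V, z2V) eV = eV ∧ rotF z2V = z1V + z2V ∧ rotF z1V = z2V ∧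
    rotF (z1V + z2V) = z1V := by decide +kernel

theorem sig_vals : pf (z1V, e2V + f2V) eV = eV ∧ sigF (z2V + z1V) = z2V ∧ sigF z1V = z1V := by
  decide +kernel

theorem plane_split : ∀ v : V, Mid v → ∀ w : V, Mid w → C1 v w z2V z1V = 0 → C2 v w z2V z1V = 0 →
    (Perp v ∧ Perp w) ∨ (Perp (v + z2V) ∧ Perp (w + z1V)) ∨
    (Perp (v + (z1V + z2V)) ∧ Perp (w + z2V)) ∨
    (Perp (v + (z2V + (z1V + z2V))) ∧ Perp (w + (z1V + z2V))) := by
  rw [forall_mid]; intro b d g k; rw [forall_mid]; revert b d g k; decide +kernel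

theorem inv_coords : ∀ v : V, Mid v → ∀ w : V, Mid w → Perp v → Perp w →
    E1 v w = 0 → E2 v w = 0 →
    (v = 0 ∧ q w = 0) ∨ (w = 0 ∧ q v = 0) ∨ (v = w ∧ q v = 0) := by
  rw [forall_mid]; intro b d g k; rw [forall_mid]; revert b d g k; decide +kernel

theorem z_coords : ∀ v : V, Mid v → ∀ w : V, Mid w → C1 v w z2V z1V = 0 → C2 v w z2V z1V = 0 →
    E1 v w = 0 → E2 v w = 0 → q w = 0 → Perp v ∧ Perp w := by
  rw [forall_mid]; intro b d g k; rw [forall_mid]; revert b d g k; decide +kernel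

theorem fix_coords : ∀ v : V, Mid v → ∀ w : V, Mid w → Perp v → Perp w →
    E1 v w = 0 → E2 v w = 0 → sigF (v + w) = v → sigF w = w → v = 0 ∧ w = 0 := by
  rw [forall_mid]; intro b d g k; rw [forall_mid]; revert b d g k; decide +kernel

theorem image_phi : ∀ v : V, Mid v → ∀ w : V, Mid w → C1 v w z2V z1V = 0 → C2 v w z2V z1V = 0 →
    sigF (v + w) = v → sigF w = w → ∃ b d g k b' d' g' k' : ZMod 2,
      C1 (vec 0 b 0 d g k) (vec 0 b' 0 d' g' k') z2V z1V = 0 ∧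
      C2 (vec 0 b 0 d g k) (vec 0 b' 0 d' g' k') z2V z1V = 0 ∧
      vec 0 b 0 d g k + sigF (vec 0 b 0 d g k + vec 0 b' 0 d' g' k') = v ∧
      vec 0 b' 0 d' g' k' + sigF (vec 0 b' 0 d' g' k') = w := by
  rw [forall_mid]; intro b d g k; rw [forall_mid]; revert b d g k; decide +kernel

theorem adjust_one : ∀ i j : ZMod 2, ∃ g k : ZMod 2,
    C1 (vec 0 0 0 0 g k) 0 z2V z1V = i ∧ C2 (vec 0 0 0 0 g k) 0 z2V z1V = j := by
  decide +kernel

theorem adjust_rot : ∀ i j : ZMod 2, ∃ g k g' k' : ZMod 2,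
    C1 (vec 0 0 0 0 g k) (vec 0 0 0 0 g' k') (z1V + z2V) z2V = i ∧
    C2 (vec 0 0 0 0 g k) (vec 0 0 0 0 g' k') (z1V + z2V) z2V = j := by
  decide +kernel

theorem rot_cube : ∀ v : V, Mid v → rotF (rotF (rotF v)) = v := by
  rw [forall_mid]; decide +kernel

theorem rot_mid : ∀ v : V, Mid v → Mid (rotF v) := by
  rw [forall_mid]; decide +kernel

theorem u_comm_all : ∀ v : V, Mid v → ∀ w : V, Mid w → C1 v w (z1V + z2V) z2V = 0 →
    C2 v w (z1V + z2V) z2V = 0 → C1 v w z1V (z1V + z2V) = 0 ∧ C2 v w z1V (z1V + z2V) = 0 := by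
  rw [forall_mid]; intro b d g k; rw [forall_mid]; revert b d g k; decide +kernel

theorem perp_comm : ∀ v : V, Mid v → ∀ w : V, Mid w → Perp v → Perp w →
    C1 v w z2V z1V = 0 ∧ C2 v w z2V z1V = 0 ∧
    C1 v w (z1V + z2V) z2V = 0 ∧ C2 v w (z1V + z2V) z2V = 0 := by
  rw [forall_mid]; intro b d g k; rw [forall_mid]; revert b d g k; decide +kernel

theorem sgf_image_sing : ∀ w : V, Mid w → q w = 0 → ∀ v : V, q (sgf eV w v + v) = 0 := by
  rw [forall_mid]; intro b d g k hq; rw [forall_vec]; revert b d g k; decide +kernel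

theorem sgf_fV : ∀ w : V, Mid w → q (sgf eV w fV + fV) = q w := by
  rw [forall_mid]; decide +kernel

theorem Perp.add {u v : V} (hu : Perp u) (hv : Perp v) : Perp (u + v) :=
  ⟨by rw [bl_add_left, hu.1, hv.1, add_zero], by rw [bl_add_left, hu.2, hv.2, add_zero]⟩

theorem perp_zero : Perp (0 : V) := ⟨bl_zero_left _, bl_zero_left _⟩

namespace PairSetting

variable (P : PairSetting z Qf θ ρ J y h)
include P

theorem Co_coset {a a' : G} {v w : V} (ha : Co z Qf θ ρ y a v w)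
    (ha' : Co z Qf θ ρ y a' v w) : ∃ i j : ZMod 2, a' = zy z y i j * a := by
  have := P.Co_mul ha' (P.Co_inv ha)
  rw [vadd_self, vadd_self] at this
  obtain ⟨i, j, e⟩ := P.Co_zero this
  exact ⟨i, j, by rw [← e, inv_mul_cancel_right]⟩

theorem exists_cent_lift {p : V × V} (h1 : q p.1 = 1) (h2 : q p.2 = 1) (h3 : pf p eV = eV) :
    ∃ c, c * z = z * c ∧ c * y = y * c ∧ ∀ v, md (ap (ρ c) v) = md (pf p v) := by
  obtain ⟨g, hg, hgx⟩ := P.half.exists_pair h1 h2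
  obtain ⟨c, hc, hcy, rfl⟩ := P.exists_lift hg (by rw [hgx, h3])
  exact ⟨c, hc, hcy, fun v => by rw [hgx]⟩

theorem isConj_of_Qz {i : G} (hi : i ∈ Qf z) (h2 : i * i = 1) (h1 : i ≠ 1) : IsConj z i := by
  obtain ⟨c, -, e | e⟩ := P.Q_cases hi h2 h1
  · exact (isConj_iff.2 ⟨c, e⟩).symm
  · exact (isConj_iff.2 ⟨h, P.hz⟩).trans (isConj_iff.2 ⟨c, e⟩).symm

theorem isConj_of_Wy {i : G} (hi : inWy z Qf y i) (h2 : i * i = 1) (h1 : i ≠ 1) : IsConj z i := by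
  obtain ⟨h2', h1'⟩ := P.toSetting.conj_involution (c := h) h2 h1
  exact (P.isConj_of_Qz (P.Wy_to_W hi).1 h2' h1').trans (isConj_iff.2 ⟨h, rfl⟩).symm

/-- The criterion: a conjugate of `z` moves every vector by a singular one. -/
theorem sing_of_conj {i : G} (hiz : i * z = z * i) (hi2 : i * i = 1) (hc : IsConj z i) (v : V) :
    q (ap (ρ i) v + v) = 0 := by
  have hi1 : i ≠ 1 := fun e => P.toSetting.z_ne (isConj_one_left.1 (e ▸ hc))
  obtain ⟨s₀, u₀, T0⟩ := P.exists_T0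
  obtain ⟨c, hcz, hcase⟩ := P.involution_cases T0 hiz hi2 hi1
  have key : ∀ u, q (ap (ρ (c * i * c⁻¹)) u + u) = 0 := by
    intro u
    have hQ : c * i * c⁻¹ ∈ Qf z → q (ap (ρ (c * i * c⁻¹)) u + u) = 0 := fun hm => by
      rw [P.toSetting.ρ_of_mem hm, ap_one, vadd_self, q_zero]
    rcases hcase with e | e | ⟨e, eq, -⟩ | e
    · exact hQ (e ▸ P.toSetting.z_mem)
    · exact hQ (e ▸ P.y_mem)
    · obtain ⟨hw, he⟩ := P.wS_spec e
      rw [he, Te, ap_T]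
      exact sgf_image_sing _ hw eq u
    · exfalso
      refine P.not_isConj T0 (hc.trans ?_)
      exact isConj_iff.2 ⟨c, e⟩
  have e := key (ap (ρ c) v)
  rw [P.toSetting.ρ_conj hcz hiz, ap_mul, ap_mul, ap_inv_ap, ← ap_add, q_ap] at e
  exact e

theorem q_w_of_conj {i : G} {v w : V} (hi : Co z Qf θ ρ y i v w) (hi2 : i * i = 1)
    (hc : IsConj z i) : q w = 0 := by
  have hw := (P.Co_mid hi).2
  have e := P.sing_of_conj (P.Co_comm hi).1 hi2 hc fV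
  rwa [P.Co_ρ hi hw.bl_eV, Te, ap_T, sgf_fV _ hw] at e

/-- The subgroup of elements with parameters orthogonal to the plane. -/
def SS : Subgroup G where
  carrier := {a | ∃ v w, Co z Qf θ ρ y a v w ∧ Perp v ∧ Perp w}
  mul_mem' := by
    rintro a b ⟨v, w, ha, hv, hw⟩ ⟨v', w', hb, hv', hw'⟩
    exact ⟨_, _, P.Co_mul ha hb, hv.add hv', hw.add hw'⟩
  one_mem' := ⟨0, 0, by simpa [zy] using P.Co_zy 0 0, perp_zero, perp_zero⟩
  inv_mem' := by
    rintro a ⟨v, w, ha, hv, hw⟩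
    exact ⟨_, _, P.Co_inv ha, hv, hw⟩

theorem SS_conj_z {a : G} (ha : a ∈ P.SS) (h2 : a * a = 1) (h1 : a ≠ 1) : IsConj z a := by
  obtain ⟨v, w, hco, hv, hw⟩ := ha
  have hm := P.Co_mid hco
  have he := P.zy_eq_one ((P.Co_sq hco).symm.trans h2)
  have hW : ∀ (b : G) (v : V), Co z Qf θ ρ y b v 0 → b ∈ Qf z := by
    rintro b v ⟨x, s, hx, hs, rfl, -, hs0⟩
    exact (Qf z).mul_mem hx.1 (P.mem_of_wS_zero hs hs0)
  rcases inv_coords v hm.1 w hm.2 hv hw he.1 he.2 with ⟨rfl, -⟩ | ⟨rfl, -⟩ | ⟨rfl, -⟩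
  · obtain ⟨x, s, hx, hs, rfl, hx0, -⟩ := hco
    exact P.isConj_of_Wy (P.Wy_mul (P.inWy_of_θ hx.1 hx0).1 hs) h2 h1
  · exact P.isConj_of_Qz (hW a v hco) h2 h1
  · obtain ⟨r, hr, hry⟩ := P.exists_flip_y
    have hp : h * r * h⁻¹ ∈ Qf y := P.conj_Qz hr
    have hpz : h * r * h⁻¹ * z * (h * r * h⁻¹)⁻¹ = y * z := by
      calc h * r * h⁻¹ * z * (h * r * h⁻¹)⁻¹ = h * r * (h⁻¹ * z * h) * r⁻¹ * h⁻¹ := by group
        _ = h * (r * y * r⁻¹) * h⁻¹ := by rw [P.hy']; group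
        _ = (h * z * h⁻¹) * (h * y * h⁻¹) := by rw [hry]; group
        _ = y * z := by rw [P.hz, P.hy]
    have hc := P.Co_conj_flip' hp hpz hco
    rw [vadd_self] at hc
    obtain ⟨h2', h1'⟩ := P.toSetting.conj_involution (c := h * r * h⁻¹) h2 h1
    exact (P.isConj_of_Qz (hW _ _ hc) h2' h1').trans
      (isConj_iff.2 ⟨h * r * h⁻¹, rfl⟩).symm

end PairSetting

/-- The data at an involution `t` of the second class: `u` completes the four-group, `k` permutes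
it, `n` permutes `z`, `y` and `z y`, and `x` is an outer involution. -/
structure Second (z : G) (Qf : G → Subgroup G) (θ : G → V) (ρ : G → O) (J : Subgroup O)
    (y h t u k n x : G) : Prop extends PairSetting z Qf θ ρ J y h where
  t_co : Co z Qf θ ρ y t z2V z1V
  u_co : Co z Qf θ ρ y u (z1V + z2V) z2V
  kz : k * z = z * k
  ky : k * y = y * k
  kt : k * t * k⁻¹ = u
  ku : k * u * k⁻¹ = t * u
  nz : n * z * n⁻¹ = y
  ny : n * y * n⁻¹ = z * y
  nt : n * t = t * n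
  nu : n * u = u * n
  nσ : ∀ a v w, Co z Qf θ ρ y a v w → Co z Qf θ ρ y (n * a * n⁻¹) (rotF w) (rotF (v + w))
  xz : x * z = z * x
  xt : x * t = t * x
  xy : x * y * x⁻¹ = z * y
  xx : x * x = 1
  xσ : ∀ a v w, Co z Qf θ ρ y a v w → Co z Qf θ ρ y (x * a * x⁻¹) (sigF (v + w)) (sigF w)
  xρ : md (ap (ρ x) z2V) = sigF z2V

theorem PairSetting.exists_second (P : PairSetting z Qf θ ρ J y h) :
    ∃ t u k n x, Second z Qf θ ρ J y h t u k n x := by
  obtain ⟨c, hcz, hcy, hcρ⟩ := P.exists_cent_lift (p := (z1V, z2V)) q_z1V q_z2V rot_vals.1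
  have hstep : ∀ a v w, Co z Qf θ ρ y a v w →
      Co z Qf θ ρ y (c * a * c⁻¹) (rotF v) (rotF w) := by
    intro a v w hco
    have := P.Co_conj_cent hcz hcy hco
    rwa [hcρ, hcρ] at this
  have hradd : ∀ v w, rotF (v + w) = rotF v + rotF w := fun v w => by
    rw [rotF, rotF, rotF, ← hcρ, ap_add, md_add, hcρ, hcρ]
  -- the element permuting `z`, `y` and `z * y`
  obtain ⟨r, hr, hθr⟩ := P.θ_surj fV
  have hrz := P.toSetting.comm_z hr
  have hry : r * y * r⁻¹ = z * y := by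
    rw [P.toSetting.conj_eq hr P.y_mem, hθr, P.θy, bl_comm, bl_e_f, zp_one]
  obtain ⟨p, hp, hpz⟩ : ∃ p ∈ Qf y, p * z * p⁻¹ = y * z := by
    refine ⟨h * r * h⁻¹, P.conj_Qz hr, ?_⟩
    calc h * r * h⁻¹ * z * (h * r * h⁻¹)⁻¹ = h * r * (h⁻¹ * z * h) * r⁻¹ * h⁻¹ := by group
      _ = h * (r * y * r⁻¹) * h⁻¹ := by rw [P.hy']; group
      _ = (h * z * h⁻¹) * (h * y * h⁻¹) := by rw [hry]; group
      _ = y * z := by rw [P.hz, P.hy]
  have hpy := P.goody.comm p hp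
  set n := c * (r * p) with hn
  have hnz : n * z * n⁻¹ = y := by
    calc n * z * n⁻¹ = c * (r * (p * z * p⁻¹) * r⁻¹) * c⁻¹ := by rw [hn]; group
      _ = c * ((r * y * r⁻¹) * (r * z * r⁻¹)) * c⁻¹ := by rw [hpz]; group
      _ = y := by
        rw [hry, conj_fix_iff.2 hrz, mul_assoc z, P.yz_comm, ← mul_assoc z z, P.toSetting.z_sq, one_mul]
        exact conj_fix_iff.2 hcy
  have hny : n * y * n⁻¹ = z * y := by
    calc n * y * n⁻¹ = c * (r * (p * y * p⁻¹) * r⁻¹) * c⁻¹ := by rw [hn]; group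
      _ = (c * z * c⁻¹) * (c * y * c⁻¹) := by rw [conj_fix_iff.2 hpy, hry]; group
      _ = z * y := by rw [conj_fix_iff.2 hcz, conj_fix_iff.2 hcy]
  have hnσ : ∀ a v w, Co z Qf θ ρ y a v w →
      Co z Qf θ ρ y (n * a * n⁻¹) (rotF w) (rotF (v + w)) := by
    intro a v w hco
    have := hstep _ _ _ (P.Co_conj_flip hr hθr (P.Co_conj_flip' hp hpz hco))
    rwa [show v + (v + w) = w by rw [← add_assoc, vadd_self, zero_add],
      show c * (r * (p * a * p⁻¹) * r⁻¹) * c⁻¹ = n * a * n⁻¹ by rw [hn]; group] at this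
  have hnD : ∀ i j, n * zy z y i j * n⁻¹ = zy z y j (i + j) := by
    intro i j
    rcases z2_cases i with rfl | rfl <;> rcases z2_cases j with rfl | rfl
    · simp [zy]
    · simpa [zy] using hny
    · simpa [zy] using hnz
    · calc n * zy z y 1 1 * n⁻¹ = (n * z * n⁻¹) * (n * y * n⁻¹) := by simp only [zy, zp_one]; group
        _ = zy z y 1 (1 + 1) := by
          rw [hnz, hny, ← mul_assoc, P.yz_comm, mul_assoc, P.y_sq]
          simp [zy, show (1 : ZMod 2) + 1 = 0 from rfl]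
  have fixed : ∀ a v w, Co z Qf θ ρ y a v w → rotF w = v → rotF (v + w) = w →
      ∃ e, Co z Qf θ ρ y e v w ∧ n * e = e * n := by
    intro a v w hco e1 e2
    have hc := hnσ a v w hco
    rw [e1, e2] at hc
    obtain ⟨i, j, e⟩ := P.Co_coset hco hc
    refine ⟨zy z y j (i + j) * a, ?_, conj_fix_iff.1 ?_⟩
    · have := P.Co_mul (P.Co_zy j (i + j)) hco
      rwa [zero_add, zero_add] at this
    · calc n * (zy z y j (i + j) * a) * n⁻¹ = (n * zy z y j (i + j) * n⁻¹) * (n * a * n⁻¹) := by group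
        _ = zy z y (i + j + i) (j + (i + j) + j) * a := by rw [hnD, e, ← mul_assoc, P.zy_mul]
        _ = zy z y j (i + j) * a := by
          congr 2
          · linear_combination CharTwo.add_self_eq_zero i
          · linear_combination CharTwo.add_self_eq_zero j
  obtain ⟨t₀, ht₀⟩ := P.Co_exists mid_z2V mid_z1V
  obtain ⟨u₀, hu₀⟩ := P.Co_exists (mid_z1V.add mid_z2V) mid_z2V
  obtain ⟨t, ht, hnt⟩ := fixed _ _ _ ht₀ rot_vals.2.2.1 (by decide +kernel)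
  obtain ⟨u, hu, hnu⟩ := fixed _ _ _ hu₀ rot_vals.2.1 (by decide +kernel)
  -- the rotation of the four-group
  have hct := hstep _ _ _ ht
  rw [rot_vals.2.1, rot_vals.2.2.1] at hct
  obtain ⟨i₀, j₀, e₀⟩ := P.Co_coset hu hct
  obtain ⟨g₁, g₂, g₃, g₄, a1, a2⟩ := adjust_rot i₀ j₀
  obtain ⟨a₀, ha₀⟩ :=
    P.Co_exists (v := vec 0 0 0 0 g₁ g₂) (w := vec 0 0 0 0 g₃ g₄) ⟨rfl, rfl⟩ ⟨rfl, rfl⟩
  have hA₀ := P.Co_comm ha₀
  have hzy2 : ∀ (p p' : ZMod 2) (g : G), zy z y p p' * (zy z y p p' * g) = g := by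
    intro p p' g
    rw [← mul_assoc, P.zy_mul, CharTwo.add_self_eq_zero, CharTwo.add_self_eq_zero]
    simp [zy]
  set k := a₀ * c with hk
  have hkz : k * z = z * k := comm_mul hA₀.1 hcz
  have hky : k * y = y * k := comm_mul hA₀.2 hcy
  have hkD : ∀ i j, k * zy z y i j * k⁻¹ = zy z y i j := fun i j =>
    conj_fix_iff.2 (P.comm_zy hkz hky i j)
  have hkt : k * t * k⁻¹ = u := by
    rw [hk, show a₀ * c * t * (a₀ * c)⁻¹ = a₀ * (c * t * c⁻¹) * a₀⁻¹ by group, e₀,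
      show a₀ * (zy z y i₀ j₀ * u) * a₀⁻¹ = (a₀ * zy z y i₀ j₀ * a₀⁻¹) * (a₀ * u * a₀⁻¹) by group,
      conj_fix_iff.2 (P.comm_zy hA₀.1 hA₀.2 _ _), P.Co_conj ha₀ hu, a1, a2, hzy2]
  have hk1 : ∀ a v w, Co z Qf θ ρ y a v w → Co z Qf θ ρ y (k * a * k⁻¹) (rotF v) (rotF w) := by
    intro a v w hco
    have h1 := hstep a v w hco
    rw [hk, show a₀ * c * a * (a₀ * c)⁻¹ = a₀ * (c * a * c⁻¹) * a₀⁻¹ by group, P.Co_conj ha₀ h1]
    have h6 := P.Co_mul (P.Co_zy (C1 (vec 0 0 0 0 g₁ g₂) (vec 0 0 0 0 g₃ g₄) (rotF v) (rotF w))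
      (C2 (vec 0 0 0 0 g₁ g₂) (vec 0 0 0 0 g₃ g₄) (rotF v) (rotF w))) h1
    rwa [zero_add, zero_add] at h6
  -- the conjugate of `k` by `n` differs from it by an element of the product of the halves
  set k' := n * k * n⁻¹ with hk'
  have hnD' : ∀ i j, ∃ i' j', n⁻¹ * zy z y i j * n = zy z y i' j' := fun i j => by
    refine ⟨i + j, i, ?_⟩
    have := hnD (i + j) i
    rw [show i + j + i = j by linear_combination CharTwo.add_self_eq_zero i] at this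
    rw [← this]; group
  have hk'D : ∀ i j, k' * zy z y i j * k'⁻¹ = zy z y i j := by
    intro i j
    obtain ⟨i', j', e⟩ := hnD' i j
    rw [hk', show n * k * n⁻¹ * zy z y i j * (n * k * n⁻¹)⁻¹
      = n * (k * (n⁻¹ * zy z y i j * n) * k⁻¹) * n⁻¹ by group, e, hkD, ← e]
    group
  have hk'1 : ∀ a v w, Co z Qf θ ρ y a v w →
      Co z Qf θ ρ y (k' * a * k'⁻¹) (rotF v) (rotF w) := by
    intro a v w hco
    obtain ⟨hv, hw⟩ := P.Co_mid hco
    have hv' : Mid (rotF (rotF w) + rotF (rotF v)) := (rot_mid _ (rot_mid _ hw)).add (rot_mid _ (rot_mid _ hv))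
    obtain ⟨b, hb⟩ := P.Co_exists hv' (rot_mid _ (rot_mid _ hv))
    have h1 := hnσ b _ _ hb
    have e1 : rotF (rotF (rotF v)) = v := rot_cube v hv
    have e2 : rotF (rotF (rotF w) + rotF (rotF v) + rotF (rotF v)) = w := by
      rw [add_assoc, vadd_self, add_zero, rot_cube w hw]
    rw [e1, e2] at h1
    obtain ⟨i, j, e⟩ := P.Co_coset h1 hco
    have h2 := hnσ _ _ _ (hk1 b _ _ hb)
    rw [← hradd (rotF (rotF w) + rotF (rotF v)) (rotF (rotF v)), e2, e1] at h2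
    have h3 := P.Co_mul (P.Co_zy i j) h2
    rw [zero_add, zero_add] at h3
    rw [e, show k' * (zy z y i j * (n * b * n⁻¹)) * k'⁻¹
      = (k' * zy z y i j * k'⁻¹) * (k' * (n * b * n⁻¹) * k'⁻¹) by group, hk'D]
    rwa [show k' * (n * b * n⁻¹) * k'⁻¹ = n * (k * b * k⁻¹) * n⁻¹ by rw [hk']; group]
  set a' := k' * k⁻¹ with ha'
  have hcz' : a' * z = z * a' := by
    refine conj_fix_iff.1 ?_
    have h1 : k' * z * k'⁻¹ = z := by simpa [zy] using hk'D 1 0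
    rw [ha', show k' * k⁻¹ * z * (k' * k⁻¹)⁻¹ = k' * (k⁻¹ * z * k) * k'⁻¹ by group,
      comm_inv hkz, inv_mul_cancel_right, h1]
  have hcy' : a' * y = y * a' := by
    refine conj_fix_iff.1 ?_
    have h1 : k' * y * k'⁻¹ = y := by simpa [zy] using hk'D 0 1
    rw [ha', show k' * k⁻¹ * y * (k' * k⁻¹)⁻¹ = k' * (k⁻¹ * y * k) * k'⁻¹ by group,
      comm_inv hky, inv_mul_cancel_right, h1]
  obtain ⟨va, wa, hva⟩ := P.Co_of_trivial hcz' hcy' fun v hv => by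
    obtain ⟨b, hb⟩ := P.Co_exists (rot_mid _ (rot_mid _ hv)) mid_zero
    have h1 := hk1 b _ _ hb
    have h2 := P.Co_conj_cent hcz' hcy' h1
    rw [show a' * (k * b * k⁻¹) * a'⁻¹ = k' * b * k'⁻¹ by rw [ha']; group] at h2
    have h3 := (P.Co_unique h2 (hk'1 b _ _ hb)).1
    rwa [rot_cube v hv] at h3
  have hk't : k' * t * k'⁻¹ = u := by
    rw [hk', show n * k * n⁻¹ * t * (n * k * n⁻¹)⁻¹ = n * (k * (n⁻¹ * t * n) * k⁻¹) * n⁻¹ by group,
      comm_inv hnt, inv_mul_cancel_right, hkt, conj_fix_iff.2 hnu]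
  have hau : a' * u = u * a' := by
    refine conj_fix_iff.1 ?_
    rw [ha']
    calc k' * k⁻¹ * u * (k' * k⁻¹)⁻¹ = k' * (k⁻¹ * u * k) * k'⁻¹ := by group
      _ = u := by rw [← hkt, show k⁻¹ * (k * t * k⁻¹) * k = t by group, hk't, hkt]
  have htu := P.Co_mul ht hu
  rw [show z2V + (z1V + z2V) = z1V by decide, show z1V + z2V = z1V + z2V from rfl] at htu
  have hku0 := hk1 _ _ _ hu
  rw [rot_vals.2.2.2, rot_vals.2.1] at hku0
  obtain ⟨i', j', e'⟩ := P.Co_coset htu hku0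
  have hku : k * u * k⁻¹ = t * u := by
    obtain ⟨c1, c2⟩ := (P.Co_commute hva hu).1 hau
    obtain ⟨hvm, hwm⟩ := P.Co_mid hva
    have hatu := (P.Co_commute hva htu).2 (u_comm_all va hvm wa hwm c1 c2)
    have h1 : k' * u * k'⁻¹ = zy z y i' j' * (t * u) := by
      rw [show k' = a' * k by rw [ha']; group,
        show a' * k * u * (a' * k)⁻¹ = a' * (k * u * k⁻¹) * a'⁻¹ by group, e',
        show a' * (zy z y i' j' * (t * u)) * a'⁻¹
          = (a' * zy z y i' j' * a'⁻¹) * (a' * (t * u) * a'⁻¹) by group,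
        conj_fix_iff.2 (P.comm_zy hcz' hcy' _ _), conj_fix_iff.2 hatu]
    have h2 : k' * u * k'⁻¹ = zy z y j' (i' + j') * (t * u) := by
      rw [hk', show n * k * n⁻¹ * u * (n * k * n⁻¹)⁻¹ = n * (k * (n⁻¹ * u * n) * k⁻¹) * n⁻¹ by group,
        comm_inv hnu, inv_mul_cancel_right, e',
        show n * (zy z y i' j' * (t * u)) * n⁻¹
          = (n * zy z y i' j' * n⁻¹) * ((n * t * n⁻¹) * (n * u * n⁻¹)) by group,
        hnD, conj_fix_iff.2 hnt, conj_fix_iff.2 hnu]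
    obtain ⟨d1, d2⟩ := P.zy_inj (mul_right_cancel (h1.symm.trans h2))
    have hi : i' = 0 := by linear_combination d2 * (-1 : ZMod 2)
    rw [e', hi, ← d1, hi]
    simp [zy]
  -- the outer involution
  obtain ⟨d, hdz, hdy, hdρ⟩ :=
    P.exists_cent_lift (p := (z1V, e2V + f2V)) q_z1V (by decide) sig_vals.1
  have hφ : ∀ a v w, Co z Qf θ ρ y a v w →
      Co z Qf θ ρ y ((r * d) * a * (r * d)⁻¹) (sigF (v + w)) (sigF w) := by
    intro a v w hco
    have := P.Co_conj_flip hr hθr (P.Co_conj_cent hdz hdy hco)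
    rw [hdρ, hdρ, show r * (d * a * d⁻¹) * r⁻¹ = r * d * a * (r * d)⁻¹ by group] at this
    have e : sigF (v + w) = sigF v + sigF w := by
      rw [sigF, sigF, sigF, ← hdρ, ap_add, md_add, hdρ, hdρ]
    rw [e]
    exact this
  set x₀ := r * d with hx₀
  have hx₀z : x₀ * z = z * x₀ := comm_mul hrz hdz
  have hx₀y : x₀ * y * x₀⁻¹ = z * y := by
    rw [hx₀, show r * d * y * (r * d)⁻¹ = r * (d * y * d⁻¹) * r⁻¹ by group, conj_fix_iff.2 hdy, hry]
  have hx₀ρ : md (ap (ρ x₀) z2V) = sigF z2V := by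
    rw [hx₀, P.toSetting.ρ_mul hrz hdz, P.toSetting.ρ_of_mem hr, one_mul, hdρ]
    rfl
  -- multiplying by an element of the product of the two halves keeps these
  have step : ∀ x₁ b : G, ∀ v' w' : V, Co z Qf θ ρ y b v' w' → x₁ * z = z * x₁ →
      x₁ * y * x₁⁻¹ = z * y →
      (∀ a v w, Co z Qf θ ρ y a v w → Co z Qf θ ρ y (x₁ * a * x₁⁻¹) (sigF (v + w)) (sigF w)) →
      md (ap (ρ x₁) z2V) = sigF z2V →
      b * x₁ * z = z * (b * x₁) ∧ b * x₁ * y * (b * x₁)⁻¹ = z * y ∧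
      (∀ a v w, Co z Qf θ ρ y a v w →
        Co z Qf θ ρ y (b * x₁ * a * (b * x₁)⁻¹) (sigF (v + w)) (sigF w)) ∧
      md (ap (ρ (b * x₁)) z2V) = sigF z2V := by
    intro x₁ b v' w' hb h1 h2 h3 h4
    have hbc := P.Co_comm hb
    refine ⟨comm_mul hbc.1 h1, ?_, fun a v w hco => ?_, ?_⟩
    · rw [show b * x₁ * y * (b * x₁)⁻¹ = (b * (x₁ * y * x₁⁻¹) * b⁻¹) by group, h2]
      exact conj_fix_iff.2 (by rw [← mul_assoc, hbc.1, mul_assoc, hbc.2, mul_assoc])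
    · have h5 := h3 a v w hco
      rw [show b * x₁ * a * (b * x₁)⁻¹ = b * (x₁ * a * x₁⁻¹) * b⁻¹ by group, P.Co_conj hb h5]
      have h6 := P.Co_mul (P.Co_zy (C1 v' w' (sigF (v + w)) (sigF w))
        (C2 v' w' (sigF (v + w)) (sigF w))) h5
      rwa [zero_add, zero_add] at h6
    · have hw' := (P.Co_mid hb).2
      rw [P.toSetting.ρ_mul hbc.1 h1, ap_mul, P.Co_ρ hb hw'.bl_eV,
        ← md_ap (ap_Te_eV hw'.bl_eV), h4]
      exact md_ap_Te hw'.bl_eV (by decide +kernel)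
  -- fixing `t`
  have hxt0 : Co z Qf θ ρ y (x₀ * t * x₀⁻¹) z2V z1V := by
    have := hφ t _ _ ht
    rwa [sig_vals.2.1, sig_vals.2.2] at this
  obtain ⟨i₁, j₁, e₁⟩ := P.Co_coset ht hxt0
  obtain ⟨g₅, g₆, b1, b2⟩ := adjust_one i₁ j₁
  obtain ⟨b, hb⟩ := P.Co_exists (v := vec 0 0 0 0 g₅ g₆) (w := 0) ⟨rfl, rfl⟩ mid_zero
  obtain ⟨x1z, x1y, x1σ, x1ρ⟩ := step x₀ b _ _ hb hx₀z hx₀y hφ hx₀ρ
  set x₁ := b * x₀ with hx₁
  have hbA := P.Co_comm hb
  have x1t : x₁ * t = t * x₁ := by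
    refine conj_fix_iff.1 ?_
    rw [hx₁, show b * x₀ * t * (b * x₀)⁻¹ = b * (x₀ * t * x₀⁻¹) * b⁻¹ by group, e₁,
      show b * (zy z y i₁ j₁ * t) * b⁻¹ = (b * zy z y i₁ j₁ * b⁻¹) * (b * t * b⁻¹) by group,
      conj_fix_iff.2 (P.comm_zy hbA.1 hbA.2 _ _), P.Co_conj hb ht, b1, b2, hzy2]
  -- the square
  have hsy : x₁ * x₁ * y = y * (x₁ * x₁) := by
    refine conj_fix_iff.1 ?_
    rw [show x₁ * x₁ * y * (x₁ * x₁)⁻¹ = x₁ * (x₁ * y * x₁⁻¹) * x₁⁻¹ by group, x1y,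
      show x₁ * (z * y) * x₁⁻¹ = (x₁ * z * x₁⁻¹) * (x₁ * y * x₁⁻¹) by group,
      conj_fix_iff.2 x1z, x1y, ← mul_assoc, P.toSetting.z_sq, one_mul]
  have hS := comm_mul x1t x1t
  obtain ⟨v, w, hvw⟩ : ∃ v w, Co z Qf θ ρ y (x₁ * x₁) v w := by
    have hsz := comm_mul x1z x1z
    have hge := P.ρy hsz hsy
    have hct' := P.Co_conj_cent hsz hsy ht
    rw [conj_fix_iff.2 hS] at hct'
    obtain ⟨f2, f1⟩ := P.Co_unique hct' ht
    obtain ⟨w, hw, -, he⟩ := P.half.eq_Te_of_plane (P.ρ_mem _ hsz) hge f1 f2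
    exact P.Co_of_trivial hsz hsy fun u hu => by rw [he]; exact md_ap_Te hw hu
  have hm := P.Co_mid hvw
  obtain ⟨c1, c2⟩ := (P.Co_commute hvw ht).1 hS
  obtain ⟨f1, f2⟩ := P.Co_unique (by
    have := x1σ _ _ _ hvw
    rwa [show x₁ * (x₁ * x₁) * x₁⁻¹ = x₁ * x₁ by group] at this) hvw
  obtain ⟨p₁, p₂, p₃, p₄, p₅, p₆, p₇, p₈, q1, q2, q3, q4⟩ := image_phi v hm.1 w hm.2 c1 c2 f1 f2
  obtain ⟨a', ha'⟩ :=
    P.Co_exists (v := vec 0 p₁ 0 p₂ p₃ p₄) (w := vec 0 p₅ 0 p₆ p₇ p₈) ⟨rfl, rfl⟩ ⟨rfl, rfl⟩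
  obtain ⟨x2z, x2y, x2σ, x2ρ⟩ := step x₁ a' _ _ ha' x1z x1y x1σ x1ρ
  set x₂ := a' * x₁ with hx₂
  have x2t : x₂ * t = t * x₂ := comm_mul ((P.Co_commute ha' ht).2 ⟨q1, q2⟩) x1t
  obtain ⟨i₂, j₂, e₂⟩ : ∃ i j, x₂ * x₂ = zy z y i j := by
    refine P.Co_zero ?_
    have := P.Co_mul (P.Co_mul ha' (x1σ _ _ _ ha')) hvw
    rw [q3, q4, vadd_self, vadd_self,
      show a' * (x₁ * a' * x₁⁻¹) * (x₁ * x₁) = x₂ * x₂ by rw [hx₂]; group] at this
    exact this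
  have hj : j₂ = 0 := by
    refine (z2_cases j₂).resolve_right fun ej => ?_
    have h1 : x₂ * zy z y i₂ j₂ * x₂⁻¹ = zy z y i₂ j₂ := by rw [← e₂]; group
    rw [ej, zy, zp_one, show x₂ * (zp z i₂ * y) * x₂⁻¹ = (x₂ * zp z i₂ * x₂⁻¹) * (x₂ * y * x₂⁻¹) by group,
      conj_fix_iff.2 (zp_comm x2z i₂), x2y] at h1
    exact P.toSetting.z_ne (mul_eq_right.1 (mul_left_cancel h1))
  subst hj
  rcases z2_cases i₂ with rfl | rfl
  · exact ⟨t, u, k, n, x₂, P, ht, hu, hkz, hky, hkt, hku, hnz, hny, hnt, hnu, hnσ, x2z, x2t, x2y,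
      by simpa [zy] using e₂, x2σ, x2ρ⟩
  · obtain ⟨x3z, x3y, x3σ, x3ρ⟩ := step x₂ y _ _
      (by simpa [zy] using P.Co_zy 0 1) x2z x2y x2σ x2ρ
    refine ⟨t, u, k, n, y * x₂, P, ht, hu, hkz, hky, hkt, hku, hnz, hny, hnt, hnu, hnσ, x3z,
      comm_mul (P.Co_comm ht).2.symm x2t, x3y, ?_, x3σ, x3ρ⟩
    calc y * x₂ * (y * x₂) = y * (x₂ * y * x₂⁻¹) * (x₂ * x₂) := by group
      _ = y * (y * z) * z := by rw [x2y, e₂, P.yz_comm]; simp [zy]
      _ = 1 := by rw [← mul_assoc, P.y_sq, one_mul, P.toSetting.z_sq]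

end CfsgLib.SuzukiType
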