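import Cfsg.Agent.Lib.ConjFunctor.Basic
import Mathlib.GroupTheory.Transfer
import Mathlib.GroupTheory.IndexNormal

/-!
Tools for two-subgroups of a subgroup: recognition of Sylow subgroups and a transfer step.
-/

set_option autoImplicit false
set_option linter.unusedSectionVars false

namespace CfsgLib.SuzukiType

open CfsgLib.ConjFunctor

variable {G : Type*} [Group G] [Finite G]

/-- A 2-subgroup containing all elements of `K` that normalise it is Sylow in `K`. -/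
theorem odd_relIndex_of_normalizer {P K : Subgroup G} (hP : IsPGroup 2 P) (hPK : P ≤ K)
    (h : ∀ g ∈ K, (∀ a ∈ P, g * a * g⁻¹ ∈ P) → g ∈ P) : ¬ 2 ∣ P.relIndex K := by
  haveI : Fact (Nat.Prime 2) := ⟨Nat.prime_two⟩
  obtain ⟨T, hPT, hTK, hT, hTi⟩ := exists_sylow_ge hP hPK
  rcases eq_or_lt_of_le hPT with e | hlt
  · rw [e]; exact hTi
  · exfalso
    obtain ⟨g, hg, hgP⟩ := SetLike.exists_of_lt (lt_inf_normalizer hT hlt)
    exact hgP (h g (hTK hg.1) fun a ha => (Subgroup.mem_normalizer_iff.1 hg.2 a).1 ha)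

/-- A 2-subgroup of `K` is conjugate in `K` into a Sylow subgroup. -/
theorem exists_conj_into {P K D : Subgroup G} (hP : IsPGroup 2 P) (hPK : P ≤ K)
    (hodd : ¬ 2 ∣ P.relIndex K) (hD : IsPGroup 2 D) (hDK : D ≤ K) :
    ∃ c ∈ K, ∀ d ∈ D, c * d * c⁻¹ ∈ P := by
  haveI : Fact (Nat.Prime 2) := ⟨Nat.prime_two⟩
  obtain ⟨c, hc, hle⟩ := exists_cj_le hD hDK hP hPK hodd
  exact ⟨c, hc, fun d hd => hle ⟨d, hd, rfl⟩⟩

/-- An element of order dividing two is conjugate in `K` into a Sylow subgroup. -/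
theorem exists_conj_into_of_sq {P K : Subgroup G} (hP : IsPGroup 2 P) (hPK : P ≤ K)
    (hodd : ¬ 2 ∣ P.relIndex K) {i : G} (hi : i ∈ K) (h2 : i * i = 1) :
    ∃ c ∈ K, c * i * c⁻¹ ∈ P := by
  have hD : IsPGroup 2 (Subgroup.zpowers i) := fun a => ⟨1, Subtype.ext (by
    obtain ⟨k, hk⟩ := Subgroup.mem_zpowers_iff.1 a.2
    rw [pow_one, Subgroup.coe_pow, ← hk, ← zpow_natCast, ← zpow_mul, mul_comm, zpow_mul,
      zpow_natCast, pow_two, h2, one_zpow, Subgroup.coe_one])⟩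
  obtain ⟨c, hc, hcd⟩ := exists_conj_into hP hPK hodd hD (Subgroup.zpowers_le.2 hi)
  exact ⟨c, hc, hcd i (Subgroup.mem_zpowers i)⟩

/-- The transfer step: an involution `x` of a Sylow subgroup `R` of `H` that is never conjugate into
the subgroup `M` of index two gives a subgroup of index two without `x` containing every involution
whose conjugates in `R` stay in `M`. -/
theorem transfer_step {H R M : Subgroup G} (hRH : R ≤ H) (hR : IsPGroup 2 R)
    (hodd : ¬ 2 ∣ R.relIndex H) (hM : M.relIndex R = 2) {x : G} (hx : x ∈ R) (hxx : x * x = 1)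
    (hconj : ∀ g ∈ H, g * x * g⁻¹ ∈ R → g * x * g⁻¹ ∉ M) :
    ∃ K : Subgroup G, K ≤ H ∧ x ∉ K ∧ (∀ a ∈ H, a ∉ K → a * x ∈ K) ∧
      (∀ g ∈ H, ∀ a ∈ K, g * a * g⁻¹ ∈ K) ∧ ¬ 2 ∣ (K ⊓ R).relIndex K ∧
      (∀ a ∈ R, a ∉ K → a * x ∈ K ⊓ R) ∧
      ∀ a ∈ R, a * a = 1 → (∀ g ∈ H, g * a * g⁻¹ ∈ R → g * a * g⁻¹ ∈ M) → a ∈ K := by
  classical
  haveI : Fact (Nat.Prime 2) := ⟨Nat.prime_two⟩
  obtain ⟨T, hT⟩ := exists_sylow_subgroupOf hR hRH hodd
  let M₀ : Subgroup ↥(T : Subgroup H) := (M.subgroupOf H).subgroupOf (T : Subgroup H)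
  have hi : M₀.index = 2 := by
    show (M.subgroupOf H).relIndex (T : Subgroup H) = 2
    rw [hT, Subgroup.relIndex_subgroupOf hRH]
    exact hM
  haveI : M₀.Normal := Subgroup.normal_of_index_eq_two hi
  have hcardq : Nat.card (↥(T : Subgroup H) ⧸ M₀) = 2 := hi
  haveI : IsCyclic (↥(T : Subgroup H) ⧸ M₀) := isCyclic_of_prime_card hcardq
  letI : CommGroup (↥(T : Subgroup H) ⧸ M₀) := IsCyclic.commGroup
  let φ : ↥(T : Subgroup H) →* ↥(T : Subgroup H) ⧸ M₀ := QuotientGroup.mk' M₀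
  let W : H →* ↥(T : Subgroup H) ⧸ M₀ := MonoidHom.transfer φ
  have hmemT : ∀ a : H, a ∈ (T : Subgroup H) ↔ (a : G) ∈ R := fun a => by
    rw [hT]; rfl
  have hxT : (⟨x, hRH hx⟩ : H) ∈ (T : Subgroup H) := (hmemT _).2 hx
  let ε : ↥(T : Subgroup H) ⧸ M₀ := φ ⟨⟨x, hRH hx⟩, hxT⟩
  have hφ : ∀ a : ↥(T : Subgroup H), φ a = 1 ↔ ((a : H) : G) ∈ M := fun a =>
    QuotientGroup.eq_one_iff a
  have hε : ε ≠ 1 := by
    intro h
    refine hconj 1 (one_mem _) (by simpa using hx) ?_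
    simpa using (hφ _).1 h
  have hone : ∀ c : ↥(T : Subgroup H) ⧸ M₀, c ≠ 1 → c = ε := by
    intro c hc
    by_contra hne
    haveI : Fintype (↥(T : Subgroup H) ⧸ M₀) := Fintype.ofFinite _
    have : ({1, ε, c} : Finset (↥(T : Subgroup H) ⧸ M₀)).card ≤ 2 := by
      have h0 := Finset.card_le_univ ({1, ε, c} : Finset (↥(T : Subgroup H) ⧸ M₀))
      rwa [← Nat.card_eq_fintype_card, hcardq] at h0
    rw [Finset.card_insert_of_notMem (by simp [Ne.symm hε, Ne.symm hc]),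
      Finset.card_insert_of_notMem (by simp [Ne.symm hne]), Finset.card_singleton] at this
    omega
  have hsq : ε ^ 2 = 1 := by
    have h0 := pow_card_eq_one' (x := ε)
    rwa [hcardq] at h0
  haveI : Fintype (H ⧸ (T : Subgroup H)) := Fintype.ofFinite _
  -- the value at an element whose square is trivial
  have hval : ∀ a : G, ∀ ha : a ∈ H, a * a = 1 → ∀ val : ↥(T : Subgroup H) ⧸ M₀, val ^ 2 = 1 →
      (∀ g ∈ H, ∀ hm : g * a * g⁻¹ ∈ R, ∀ hH : g * a * g⁻¹ ∈ H,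
        φ ⟨⟨g * a * g⁻¹, hH⟩, (hmemT _).2 hm⟩ = val) →
      W ⟨a, ha⟩ = val := by
    intro a ha haa val hval2 hfix
    set a' : H := ⟨a, ha⟩
    haveI : Fintype (Quotient (MulAction.orbitRel (Subgroup.zpowers a') (H ⧸ (T : Subgroup H)))) :=
      Fintype.ofFinite _
    let per : Quotient (MulAction.orbitRel (Subgroup.zpowers a') (H ⧸ (T : Subgroup H))) → ℕ :=
      fun c => Function.minimalPeriod (a' • ·) c.out
    have ha2 : a' ^ 2 = 1 := Subtype.ext (by simpa [pow_two, a'] using haa)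
    have hv : ∀ c : Quotient (MulAction.orbitRel (Subgroup.zpowers a') (H ⧸ (T : Subgroup H))),
        ∀ hm, φ ⟨c.out.out⁻¹ * a' ^ per c * c.out.out, hm⟩ = val ^ per c := by
      intro c hm
      have hd : per c ∣ 2 := by
        rw [← Function.isPeriodicPt_iff_minimalPeriod_dvd]
        show (a' • ·)^[2] c.out = c.out
        rw [smul_iterate, ha2]
        exact one_smul H _
      rcases (Nat.dvd_prime Nat.prime_two).1 hd with e | e
      · revert hm
        rw [e]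
        intro hm
        rw [pow_one val]
        have hm' : ((c.out.out⁻¹ : H) : G) * a * ((c.out.out⁻¹ : H) : G)⁻¹ ∈ R := by
          have := (hmemT _).1 hm
          rw [pow_one] at this
          simpa [a'] using this
        have := hfix ((c.out.out⁻¹ : H) : G) (c.out.out⁻¹).2 hm'
          (by simpa [a'] using (c.out.out⁻¹ * a' * c.out.out).2)
        rw [← this]
        congr 1
        apply Subtype.ext
        apply Subtype.ext
        simp [a']
      · revert hm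
        rw [e]
        intro hm
        rw [hval2, hφ]
        simp [ha2, one_mem]
    have hsum : ∑ c, per c = (T : Subgroup H).index := by
      rw [Subgroup.index, Nat.card_congr (MulAction.selfEquivSigmaOrbits (Subgroup.zpowers a') (H ⧸ (T : Subgroup H))),
        Nat.card_sigma]
      refine Finset.sum_congr rfl fun c _ => ?_
      haveI : Fintype (MulAction.orbit (Subgroup.zpowers a') c.out) := Fintype.ofFinite _
      rw [Nat.card_eq_fintype_card]
      exact (MulAction.minimalPeriod_eq_card a' c.out).trans (Fintype.card_congr' rfl)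
    have h1 : W a' = ∏ c, val ^ per c := by
      rw [MonoidHom.transfer_eq_prod_quotient_orbitRel_zpowers_quot]
      exact Finset.prod_congr rfl fun c _ => hv c _
    rw [h1, Finset.prod_pow_eq_pow_sum, hsum]
    have hodd' : ¬ 2 ∣ (T : Subgroup H).index := T.not_dvd_index
    obtain ⟨m, hm⟩ : ∃ m, (T : Subgroup H).index = 2 * m + 1 :=
      ⟨(T : Subgroup H).index / 2, by omega⟩
    rw [hm, pow_succ, pow_mul, hval2, one_pow, one_mul]
  have hWx : W ⟨x, hRH hx⟩ = ε := hval x _ hxx ε hsq fun g hg hm hH =>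
    hone _ fun e => hconj g hg hm ((hφ _).1 e)
  let K : Subgroup G := W.ker.map H.subtype
  have hmemK : ∀ a (ha : a ∈ H), a ∈ K ↔ W ⟨a, ha⟩ = 1 := fun a ha =>
    ⟨fun ⟨b, hb, e⟩ => (Subtype.ext e : b = ⟨a, ha⟩) ▸ hb, fun e => ⟨⟨a, ha⟩, e, rfl⟩⟩
  have hKH : K ≤ H := Subgroup.map_subtype_le _
  have hxK : x ∉ K := fun e => hε (hWx.symm.trans ((hmemK x _).1 e))
  have hmul : ∀ a ∈ H, a ∉ K → a * x ∈ K := by
    intro a ha haK
    refine (hmemK _ (H.mul_mem ha (hRH hx))).2 ?_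
    rw [show (⟨a * x, H.mul_mem ha (hRH hx)⟩ : H) = ⟨a, ha⟩ * ⟨x, hRH hx⟩ from rfl, map_mul, hWx,
      hone _ (fun e => haK ((hmemK a ha).2 e)), ← pow_two, hsq]
  refine ⟨K, hKH, hxK, hmul, ?_, ?_, fun a ha hnK => ⟨hmul a (hRH ha) hnK, R.mul_mem ha hx⟩, ?_⟩
  · intro g hg a ha
    refine (hmemK _ (H.mul_mem (H.mul_mem hg (hKH ha)) (H.inv_mem hg))).2 ?_
    rw [show (⟨g * a * g⁻¹, _⟩ : H) = ⟨g, hg⟩ * ⟨a, hKH ha⟩ * ⟨g, hg⟩⁻¹ from rfl, map_mul, map_mul,
      (hmemK a _).1 ha, mul_one, ← map_mul, mul_inv_cancel, map_one]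
  · have h1 : ∀ P Q : Subgroup G, P ≤ Q → x ∈ Q → x ∉ P → (∀ a ∈ Q, a ∉ P → a * x ∈ P) →
        P.relIndex Q = 2 := by
      intro P Q hPQ hxQ hxP hall
      rw [Subgroup.relIndex, Subgroup.index_eq_two_iff]
      refine ⟨⟨x, hxQ⟩, fun b => ?_⟩
      simp only [Subgroup.mem_subgroupOf, Subgroup.coe_mul]
      by_cases hb : (b : G) ∈ P
      · refine Or.inr ⟨hb, fun hm => hxP ?_⟩
        simpa using P.mul_mem (P.inv_mem hb) hm
      · exact Or.inl ⟨hall b b.2 hb, hb⟩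
    have hKH2 : K.relIndex H = 2 := h1 K H hKH (hRH hx) hxK hmul
    have hKR2 : (K ⊓ R).relIndex R = 2 :=
      h1 _ R inf_le_right hx (fun h => hxK h.1) fun a ha hn =>
        ⟨hmul a (hRH ha) fun h => hn ⟨h, ha⟩, R.mul_mem ha hx⟩
    have e1 := Subgroup.relIndex_mul_relIndex (K ⊓ R) R H inf_le_right hRH
    have e2 := Subgroup.relIndex_mul_relIndex (K ⊓ R) K H inf_le_left hKH
    rw [hKR2] at e1
    rw [hKH2] at e2
    intro hdvd
    have : (K ⊓ R).relIndex K = R.relIndex H := by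
      apply Nat.eq_of_mul_eq_mul_left (show 0 < 2 by norm_num)
      rw [e1, ← e2, mul_comm]
    exact hodd (this ▸ hdvd)
  · intro a ha haa hstay
    refine (hmemK a (hRH ha)).2 (hval a _ haa 1 (one_pow 2) fun g hg hm hH => ?_)
    exact (hφ _).2 (hstay g hg hm)

end CfsgLib.SuzukiType
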