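import Cfsg.Agent.Lib.SuzukiType.Second
import Cfsg.Agent.Lib.SuzukiType.Transfer
import Cfsg.Agent.Lib.CIT.Basic
import Cfsg.Agent.Lib.SFourFree.Basic

/-!
The centraliser of an involution of the second class: its Sylow 2-subgroup and the normal subgroup
generated by the conjugates of `z`.
-/

set_option autoImplicit false
set_option linter.unusedSectionVars false
set_option maxRecDepth 100000
set_option synthInstance.maxSize 2000

namespace CfsgLib.SuzukiType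

open Cfsg

variable {G : Type*} [Group G] [Finite G]
variable {z : G} {Qf : G → Subgroup G} {θ : G → V} {ρ : G → O} {J : Subgroup O}
variable {y h t u k n x : G}

theorem perp_cases : ∀ v : V, Mid v → Perp v → v = 0 ∨ v = e2V ∨ v = f2V ∨ v = e2V + f2V := by
  rw [forall_mid]; decide +kernel

theorem q_plane : ∀ v : V, Mid v → ∀ w : V, Mid w → C1 v w z2V z1V = 0 → C2 v w z2V z1V = 0 →
    ¬ (Perp v ∧ Perp w) → E1 v w = 0 → E2 v w = 0 → q w = 1 := by
  rw [forall_mid]; intro b d g k; rw [forall_mid]; revert b d g k; decide +kernel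

theorem noncomm_perp : ∀ v : V, Mid v → ∀ w : V, Mid w → Perp v → Perp w → (v ≠ 0 ∨ w ≠ 0) →
    ∃ p ∈ [(e2V, (0 : V)), (f2V, 0), (0, e2V), (0, f2V)],
      C1 v w p.1 p.2 ≠ 0 ∨ C2 v w p.1 p.2 ≠ 0 := by
  rw [forall_mid]; intro b d g k; rw [forall_mid]; revert b d g k; decide +kernel

theorem gen_ok : ∀ p ∈ [(e2V, (0 : V)), (f2V, 0), (0, e2V), (0, f2V)],
    Mid p.1 ∧ Mid p.2 ∧ Perp p.1 ∧ Perp p.2 ∧ E1 p.1 p.2 = 0 ∧ E2 p.1 p.2 = 0 := by
  decide +kernel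

theorem sigF_z2 : q (sigF z2V + z2V) = 1 ∧ bl eV z2V = 0 := by decide +kernel

/-- The centraliser of `t`. -/
abbrev HT (t : G) : Subgroup G := Subgroup.centralizer ({t} : Set G)

/-- The common centraliser of `z` and `t`. -/
def RR (z t : G) : Subgroup G :=
  Subgroup.centralizer ({z} : Set G) ⊓ Subgroup.centralizer ({t} : Set G)

/-- The common centraliser of `z`, `y` and `t`. -/
def R0 (z y t : G) : Subgroup G := RR z t ⊓ Subgroup.centralizer ({y} : Set G)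

theorem mem_HT {a : G} : a ∈ HT t ↔ a * t = t * a := Subgroup.mem_centralizer_singleton_iff

theorem mem_RR {a : G} : a ∈ RR z t ↔ a * z = z * a ∧ a * t = t * a := by
  rw [RR, Subgroup.mem_inf, Subgroup.mem_centralizer_singleton_iff,
    Subgroup.mem_centralizer_singleton_iff]

theorem mem_R0 {a : G} : a ∈ R0 z y t ↔ (a * z = z * a ∧ a * t = t * a) ∧ a * y = y * a := by
  rw [R0, Subgroup.mem_inf, mem_RR, Subgroup.mem_centralizer_singleton_iff]

/-- The subgroup generated by the conjugates of `z` commuting with `t`. -/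
def NT (z t : G) : Subgroup G :=
  Subgroup.closure {i | i * t = t * i ∧ i * i = 1 ∧ IsConj z i}

theorem conj_eq_mul_self {g a : G} (h : g * g = 1) : g⁻¹ = g := inv_eq_of_mul_eq_one_right h

namespace Second

variable (S : Second z Qf θ ρ J y h t u k n x)
include S

theorem co_sq_one {a : G} {v w : V} (ha : Co z Qf θ ρ y a v w) (e1 : E1 v w = 0)
    (e2 : E2 v w = 0) : a * a = 1 := by
  rw [S.Co_sq ha, e1, e2]; simp [zy]

theorem t_sq : t * t = 1 := S.co_sq_one S.t_co (by decide +kernel) (by decide +kernel)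

theorem u_sq : u * u = 1 := S.co_sq_one S.u_co (by decide +kernel) (by decide +kernel)

theorem tu_co : Co z Qf θ ρ y (t * u) z1V (z1V + z2V) := by
  have := S.Co_mul S.t_co S.u_co
  rwa [show z2V + (z1V + z2V) = z1V by decide] at this

theorem ut : u * t = t * u := (S.Co_commute S.u_co S.t_co).2 (by decide +kernel)

theorem tu_sq : t * u * (t * u) = 1 :=
  S.co_sq_one S.tu_co (by decide +kernel) (by decide +kernel)

theorem t_ne : t ≠ 1 := by
  intro e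
  have h0 : Co z Qf θ ρ y t 0 0 := by
    rw [e]; simpa [zy] using S.Co_zy 0 0
  exact absurd (S.Co_unique S.t_co h0).1 (by decide)

theorem zt : z * t = t * z := (S.Co_comm S.t_co).1.symm

theorem yt : y * t = t * y := (S.Co_comm S.t_co).2.symm

theorem not_z_t : ¬ IsConj z t := fun e =>
  absurd (S.q_w_of_conj S.t_co S.t_sq e) (by decide)

theorem not_z_u : ¬ IsConj z u := fun e =>
  absurd (S.q_w_of_conj S.u_co S.u_sq e) (by decide)

theorem not_z_tu : ¬ IsConj z (t * u) := fun e =>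
  absurd (S.q_w_of_conj S.tu_co S.tu_sq e) (by decide)

theorem SS_comm {a : G} (ha : a ∈ S.SS) : a * t = t * a ∧ a * u = u * a ∧ a * z = z * a ∧ a * y = y * a := by
  obtain ⟨v, w, hco, hv, hw⟩ := ha
  obtain ⟨hvm, hwm⟩ := S.Co_mid hco
  obtain ⟨c1, c2, c3, c4⟩ := perp_comm v hvm w hwm hv hw
  exact ⟨(S.Co_commute hco S.t_co).2 ⟨c1, c2⟩, (S.Co_commute hco S.u_co).2 ⟨c3, c4⟩,
    (S.Co_comm hco).1, (S.Co_comm hco).2⟩

theorem SS_le : S.SS ≤ R0 z y t := fun _ ha =>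
  mem_R0.2 ⟨⟨(S.SS_comm ha).2.2.1, (S.SS_comm ha).1⟩, (S.SS_comm ha).2.2.2⟩

theorem z_SS : z ∈ S.SS :=
  ⟨0, 0, by simpa [zy] using S.Co_zy 1 0, perp_zero, perp_zero⟩

theorem y_SS : y ∈ S.SS :=
  ⟨0, 0, by simpa [zy] using S.Co_zy 0 1, perp_zero, perp_zero⟩

theorem R0_co {a : G} (ha : a ∈ R0 z y t) : ∃ v w, Co z Qf θ ρ y a v w := by
  obtain ⟨⟨haz, hat⟩, hay⟩ := mem_R0.1 ha
  have hct := S.Co_conj_cent haz hay S.t_co
  rw [conj_fix_iff.2 hat] at hct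
  obtain ⟨f2, f1⟩ := S.Co_unique hct S.t_co
  obtain ⟨w, hw, -, he⟩ :=
    S.half.eq_Te_of_plane (S.ρ_mem _ haz) (S.ρy haz hay) f1 f2
  exact S.Co_of_trivial haz hay fun v hv => by rw [he]; exact md_ap_Te hw hv

/-- The decomposition of the elements centralising `z`, `y` and `t`. -/
theorem R0_cases {a : G} (ha : a ∈ R0 z y t) :
    a ∈ S.SS ∨ t * a ∈ S.SS ∨ u * a ∈ S.SS ∨ t * u * a ∈ S.SS := by
  obtain ⟨v, w, hco⟩ := S.R0_co ha
  obtain ⟨hvm, hwm⟩ := S.Co_mid hco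
  obtain ⟨c1, c2⟩ := (S.Co_commute hco S.t_co).1 (mem_R0.1 ha).1.2
  rcases plane_split v hvm w hwm c1 c2 with h | h | h | h
  · exact Or.inl ⟨v, w, hco, h.1, h.2⟩
  · refine Or.inr (Or.inl ⟨_, _, S.Co_mul S.t_co hco, ?_⟩)
    rw [add_comm z2V, add_comm z1V]; exact h
  · refine Or.inr (Or.inr (Or.inl ⟨_, _, S.Co_mul S.u_co hco, ?_⟩))
    rw [add_comm (z1V + z2V), add_comm z2V]; exact h
  · refine Or.inr (Or.inr (Or.inr ⟨_, _, S.Co_mul S.tu_co hco, ?_⟩))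
    rw [show z2V + (z1V + z2V) = z1V by decide] at h
    rw [add_comm z1V, add_comm (z1V + z2V)]
    exact h

theorem zType_R0 {a : G} (ha : a ∈ R0 z y t) (h2 : a * a = 1) (hc : IsConj z a) : a ∈ S.SS := by
  obtain ⟨v, w, hco⟩ := S.R0_co ha
  obtain ⟨hvm, hwm⟩ := S.Co_mid hco
  obtain ⟨c1, c2⟩ := (S.Co_commute hco S.t_co).1 (mem_R0.1 ha).1.2
  obtain ⟨e1, e2⟩ := S.zy_eq_one ((S.Co_sq hco).symm.trans h2)
  obtain ⟨hv, hw⟩ := z_coords v hvm w hwm c1 c2 e1 e2 (S.q_w_of_conj hco h2 hc)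
  exact ⟨v, w, hco, hv, hw⟩

theorem moves_y {a : G} (ha : a ∈ RR z t) : a * y * a⁻¹ = y ∨ a * y * a⁻¹ = z * y := by
  obtain ⟨haz, hat⟩ := mem_RR.1 ha
  have hρt := S.Co_ρ S.t_co mid_z1V.bl_eV
  have hcomm : ρ a * Te z1V mid_z1V.bl_eV = Te z1V mid_z1V.bl_eV * ρ a := by
    rw [← hρt, ← S.toSetting.ρ_mul haz S.zt.symm, hat, S.toSetting.ρ_mul S.zt.symm haz]
  have hge : ap (ρ a) eV = eV := by
    have e1 : sgf eV z1V z2V + z2V = eV := by decide +kernel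
    have h1 : ap (ρ a) (sgf eV z1V z2V) = sgf eV z1V (ap (ρ a) z2V) := by
      have := congrArg (fun g => ap g z2V) hcomm
      simpa only [ap_mul, Te, ap_T] using this
    have h2 : ap (ρ a) eV = sgf eV z1V (ap (ρ a) z2V) + ap (ρ a) z2V := by
      conv_lhs => rw [← e1]
      rw [ap_add, h1]
    have h3 := q_ap (ρ a) eV
    rw [q_eV, h2] at h3
    rcases image_singular _ h3 with e | e
    · exfalso
      have e' : ap (ρ a) eV = ap (ρ a) 0 := by rw [h2, ap_zero]; exact e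
      exact absurd (ap_inj _ e') (by decide)
    · rw [h2]; exact e
  have h1 : θ (a * y * a⁻¹) = θ y := by rw [S.ρ_act a haz y S.y_mem, S.θy, hge]
  exact S.toSetting.eq_or_of_θ (S.toSetting.conj_mem_Q haz S.y_mem) S.y_mem h1

theorem xR : x ∈ RR z t := mem_RR.2 ⟨S.xz, S.xt⟩

theorem x_not : x ∉ R0 z y t := by
  intro h
  have e := S.xy
  rw [conj_fix_iff.2 (mem_R0.1 h).2] at e
  exact S.toSetting.z_ne (right_eq_mul.1 (e : y = z * y))

theorem outer_mul {a : G} (ha : a ∈ RR z t) (hn : a ∉ R0 z y t) : a * x ∈ R0 z y t := by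
  refine ⟨(RR z t).mul_mem ha S.xR, Subgroup.mem_centralizer_singleton_iff.2 (conj_fix_iff.1 ?_)⟩
  have hay : a * y * a⁻¹ = z * y := by
    rcases S.moves_y ha with e | e
    · exact absurd (mem_R0.2 ⟨mem_RR.1 ha, conj_fix_iff.1 e⟩) hn
    · exact e
  rw [show a * x * y * (a * x)⁻¹ = a * (x * y * x⁻¹) * a⁻¹ by group, S.xy,
    show a * (z * y) * a⁻¹ = (a * z * a⁻¹) * (a * y * a⁻¹) by group,
    conj_fix_iff.2 (mem_RR.1 ha).1, hay, ← mul_assoc, S.toSetting.z_sq, one_mul]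

theorem R_isPGroup : IsPGroup 2 (RR z t) := by
  intro a
  refine ⟨3, Subtype.ext ?_⟩
  have h2 : (a : G) * a ∈ R0 z y t := by
    by_cases ha : (a : G) ∈ R0 z y t
    · exact mul_mem ha ha
    · have h1 := S.outer_mul a.2 ha
      by_cases hb : (a : G) * a ∈ R0 z y t
      · exact hb
      · exfalso
        have h3 := S.outer_mul ((RR z t).mul_mem a.2 a.2) hb
        refine ha ?_
        have := (R0 z y t).mul_mem h3 ((R0 z y t).inv_mem h1)
        simpa [mul_assoc] using this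
  obtain ⟨v, w, hco⟩ := S.R0_co h2
  have h4 := S.Co_pow_four hco
  rw [Subgroup.coe_pow, Subgroup.coe_one, show (2 : ℕ) ^ 3 = 2 * 4 by norm_num, pow_mul, pow_two]
  exact h4

theorem outer_not_z {a : G} (ha : a ∈ RR z t) (hn : a ∉ R0 z y t) (h2 : a * a = 1) :
    ¬ IsConj z a := by
  intro hc
  have hb := S.outer_mul ha hn
  obtain ⟨v, w, hco⟩ := S.R0_co hb
  have hw := (S.Co_mid hco).2
  have e : a = (a * x) * x := by rw [mul_assoc, S.xx, mul_one]
  have hs := S.sing_of_conj (mem_RR.1 ha).1 h2 hc z2V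
  have hxy : ap (ρ x) eV = eV := by
    rw [← S.θy, ← S.ρ_act x S.xz y S.y_mem, S.xy, S.toSetting.θ_z_mul S.y_mem]
  rw [e, S.toSetting.ρ_mul (S.Co_comm hco).1 S.xz, ap_mul, S.Co_ρ hco hw.bl_eV] at hs
  have hb0 : bl eV (ap (Te w hw.bl_eV) (ap (ρ x) z2V) + z2V) = 0 := by
    rw [bl_add_right, sigF_z2.2, add_zero]
    exact bl_eV_ap (ap_Te_eV _) (bl_eV_ap hxy sigF_z2.2)
  rw [← q_md hb0, md_add, ← md_ap (ap_Te_eV _), S.xρ, md_of_mid mid_z2V,
    md_ap_Te _ (by decide +kernel), sigF_z2.1] at hs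
  exact one_ne_zero hs

theorem zType_RR {a : G} (ha : a ∈ RR z t) (h2 : a * a = 1) (hc : IsConj z a) : a ∈ S.SS := by
  by_cases hn : a ∈ R0 z y t
  · exact S.zType_R0 hn h2 hc
  · exact absurd hc (S.outer_not_z ha hn h2)

theorem zType_fixed {a i : G} (ha : a ∈ RR z t) (hn : a ∉ R0 z y t) (hi : i ∈ RR z t)
    (h2 : i * i = 1) (hc : IsConj z i) (hai : a * i = i * a) : i = z := by
  obtain ⟨v, w, hco, hv, hw⟩ := S.zType_RR hi h2 hc
  obtain ⟨hvm, hwm⟩ := S.Co_mid hco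
  obtain ⟨v', w', hb⟩ := S.R0_co (S.outer_mul ha hn)
  have e : a * i * a⁻¹ = (a * x) * (x * i * x⁻¹) * (a * x)⁻¹ := by
    rw [conj_eq_mul_self (a := a) S.xx,
      show a * x * (x * i * x) * (a * x)⁻¹ = a * (x * x) * i * (x * x⁻¹) * a⁻¹ by group, S.xx]
    group
  have h1 := S.xσ i v w hco
  have h6 := S.Co_mul (S.Co_zy (C1 v' w' (sigF (v + w)) (sigF w))
    (C2 v' w' (sigF (v + w)) (sigF w))) h1
  rw [zero_add, zero_add, ← S.Co_conj hb h1, ← e, conj_fix_iff.2 hai] at h6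
  obtain ⟨f1, f2⟩ := S.Co_unique h6 hco
  obtain ⟨e1, e2⟩ := S.zy_eq_one ((S.Co_sq hco).symm.trans h2)
  obtain ⟨rfl, rfl⟩ := fix_coords v hvm w hwm hv hw e1 e2 f1 f2
  obtain ⟨i₀, j₀, rfl⟩ := S.Co_zero hco
  rcases z2_cases j₀ with rfl | rfl
  · rcases z2_cases i₀ with rfl | rfl
    · exact absurd (by simp [zy]) (fun e : zy z y 0 0 = 1 => by
        rw [e] at hc
        exact S.toSetting.z_ne (isConj_one_left.1 hc))
    · simp [zy]
  · exfalso
    have hay : a * y * a⁻¹ = z * y := by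
      rcases S.moves_y ha with e | e
      · exact absurd (mem_R0.2 ⟨mem_RR.1 ha, conj_fix_iff.1 e⟩) hn
      · exact e
    have := conj_fix_iff.2 hai
    rw [zy, zp_one, show a * (zp z i₀ * y) * a⁻¹ = (a * zp z i₀ * a⁻¹) * (a * y * a⁻¹) by group,
      conj_fix_iff.2 (zp_comm (mem_RR.1 ha).1 i₀), hay] at this
    exact S.toSetting.z_ne (mul_eq_right.1 (mul_left_cancel this))

theorem SS_le_of_involutions {K : Subgroup G}
    (hK : ∀ a ∈ S.SS, a * a = 1 → a ≠ 1 → a ∈ K) : S.SS ≤ K := by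
  have hK' : ∀ a ∈ S.SS, a * a = 1 → a ∈ K := fun a ha h2 => by
    by_cases h1 : a = 1
    · rw [h1]; exact one_mem K
    · exact hK a ha h2 h1
  have hgen : ∀ p ∈ [(e2V, (0 : V)), (f2V, 0), (0, e2V), (0, f2V)],
      ∃ a ∈ K, Co z Qf θ ρ y a p.1 p.2 := by
    intro p hp
    obtain ⟨m1, m2, p1, p2, q1, q2⟩ := gen_ok p hp
    obtain ⟨a, ha⟩ := S.Co_exists m1 m2
    exact ⟨a, hK' a ⟨_, _, ha, p1, p2⟩ (S.co_sq_one ha q1 q2), ha⟩
  obtain ⟨a₁, k₁, c₁⟩ := hgen (e2V, 0) (by simp)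
  obtain ⟨a₂, k₂, c₂⟩ := hgen (f2V, 0) (by simp)
  obtain ⟨a₃, k₃, c₃⟩ := hgen (0, e2V) (by simp)
  obtain ⟨a₄, k₄, c₄⟩ := hgen (0, f2V) (by simp)
  have hhalf : ∀ v, Mid v → Perp v →
      (∃ a ∈ K, Co z Qf θ ρ y a v 0) ∧ ∃ a ∈ K, Co z Qf θ ρ y a 0 v := by
    intro v hv hp
    have h0 : Co z Qf θ ρ y 1 0 0 := by simpa [zy] using S.Co_zy 0 0
    rcases perp_cases v hv hp with rfl | rfl | rfl | rfl
    · exact ⟨⟨1, one_mem K, h0⟩, 1, one_mem K, h0⟩
    · exact ⟨⟨a₁, k₁, c₁⟩, a₃, k₃, c₃⟩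
    · exact ⟨⟨a₂, k₂, c₂⟩, a₄, k₄, c₄⟩
    · refine ⟨⟨a₁ * a₂, K.mul_mem k₁ k₂, ?_⟩, a₃ * a₄, K.mul_mem k₃ k₄, ?_⟩
      · simpa using S.Co_mul c₁ c₂
      · simpa using S.Co_mul c₃ c₄
  have hzy : ∀ i j, zy z y i j ∈ K := fun i j => K.mul_mem
    (zp_mem (hK' z S.z_SS S.toSetting.z_sq) i) (zp_mem (hK' y S.y_SS S.y_sq) j)
  rintro a ⟨v, w, hco, hv, hw⟩
  obtain ⟨hvm, hwm⟩ := S.Co_mid hco
  obtain ⟨b, hb, cb⟩ := (hhalf v hvm hv).1
  obtain ⟨c, hc, cc⟩ := (hhalf w hwm hw).2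
  have := S.Co_mul cb cc
  rw [add_zero, zero_add] at this
  obtain ⟨i, j, rfl⟩ := S.Co_coset this hco
  exact K.mul_mem (hzy i j) (K.mul_mem hb hc)

/-- Every conjugate of `z` commuting with `t` is conjugate to `z` under the centraliser of `t`. -/
theorem zTypes_conj {i : G} (hit : i * t = t * i) (hc : IsConj z i) :
    ∃ g, g * t = t * g ∧ g * z * g⁻¹ = i := by
  obtain ⟨a, ha⟩ := isConj_iff.1 hc
  set e := a⁻¹ * t * a with he
  have hez : e * z = z * e :=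
    PairSetting.conj_comm (g := a⁻¹) (a := t) (b := i) (by rw [he, inv_inv]) (by rw [← ha]; group) hit.symm
  have he2 : e * e = 1 := by
    rw [he, show a⁻¹ * t * a * (a⁻¹ * t * a) = a⁻¹ * (t * t) * a by group, S.t_sq]; group
  have he1 : e ≠ 1 := fun e1 => S.t_ne (by
    have : a * e * a⁻¹ = 1 := by rw [e1]; group
    rw [he] at this
    simpa [mul_assoc] using this)
  have hne : ¬ IsConj z e := fun h1 =>
    S.not_z_t (h1.trans (isConj_iff.2 ⟨a, by rw [he]; group⟩))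
  obtain ⟨s₀, u₀, T0⟩ := S.exists_T0
  have toT0 : ∀ b, b * z = z * b → b * b = 1 → b ≠ 1 → ¬ IsConj z b →
      ∃ c, c * z = z * c ∧ c * b * c⁻¹ = s₀ * u₀ := by
    intro b hbz hb2 hb1 hbn
    obtain ⟨c, hcz, hcase⟩ := S.involution_cases T0 hbz hb2 hb1
    refine ⟨c, hcz, ?_⟩
    have hbc : IsConj b (c * b * c⁻¹) := isConj_iff.2 ⟨c, rfl⟩
    rcases hcase with e | e | ⟨e, -, -⟩ | e
    · exact absurd (hbc.trans (e ▸ IsConj.refl z)).symm hbn
    · exact absurd ((e ▸ (isConj_iff.2 ⟨h, S.hz⟩) : IsConj z (c * b * c⁻¹)).trans hbc.symm) hbn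
    · obtain ⟨g2, g1⟩ := S.toSetting.conj_involution (c := c) hb2 hb1
      exact absurd ((S.isConj_of_Wy e g2 g1).trans hbc.symm) hbn
    · exact e
  obtain ⟨c, hcz, hce⟩ := toT0 e hez he2 he1 hne
  obtain ⟨d, hdz, hdt⟩ := toT0 t S.zt.symm S.t_sq S.t_ne S.not_z_t
  refine ⟨a * c⁻¹ * d, conj_fix_iff.1 ?_, ?_⟩
  · calc a * c⁻¹ * d * t * (a * c⁻¹ * d)⁻¹ = a * c⁻¹ * (d * t * d⁻¹) * c * a⁻¹ := by group
      _ = t := by rw [hdt, ← hce, he]; group
  · calc a * c⁻¹ * d * z * (a * c⁻¹ * d)⁻¹ = a * (c⁻¹ * (d * z * d⁻¹) * c) * a⁻¹ := by group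
      _ = i := by rw [conj_fix_iff.2 hdz, comm_inv hcz, inv_mul_cancel_right, ha]

theorem centralizer_zType {i : G} (hit : i * t = t * i) (hc : IsConj z i) :
    IsPGroup 2 (Subgroup.centralizer ({i} : Set G) ⊓ HT t : Subgroup G) := by
  obtain ⟨g, hgt, rfl⟩ := S.zTypes_conj hit hc
  intro a
  obtain ⟨⟨ha1, ha2⟩⟩ : Nonempty (((a : G) * (g * z * g⁻¹) = g * z * g⁻¹ * a) ∧ (a : G) * t = t * a) :=
    ⟨⟨Subgroup.mem_centralizer_singleton_iff.1 a.2.1, mem_HT.1 a.2.2⟩⟩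
  have hm : g⁻¹ * (a : G) * g ∈ RR z t := by
    refine mem_RR.2 ⟨?_, comm_mul (comm_mul (comm_inv hgt) ha2) hgt⟩
    exact PairSetting.conj_comm (g := g⁻¹) (by rw [inv_inv]) (by group) ha1
  obtain ⟨m, hm'⟩ := S.R_isPGroup ⟨_, hm⟩
  refine ⟨m, Subtype.ext ?_⟩
  have h' : (g⁻¹ * (a : G) * g) ^ 2 ^ m = 1 := by simpa using congrArg Subtype.val hm'
  rw [Subgroup.coe_pow, Subgroup.coe_one,
    show (a : G) = g * (g⁻¹ * (a : G) * g) * g⁻¹ by group, conj_pow, h', mul_one, mul_inv_cancel]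

theorem R_sylow : ¬ 2 ∣ (RR z t).relIndex (HT t) := by
  refine odd_relIndex_of_normalizer S.R_isPGroup inf_le_right fun g hg hnorm => ?_
  have hgz : g * z * g⁻¹ ∈ RR z t := hnorm z (mem_RR.2 ⟨rfl, S.zt⟩)
  have hgzc : IsConj z (g * z * g⁻¹) := isConj_iff.2 ⟨g, rfl⟩
  have h2 := (S.toSetting.conj_involution (c := g) S.toSetting.z_sq S.toSetting.z_ne).1
  -- it centralises the outer involution
  obtain ⟨b, hb, hbe⟩ : ∃ b ∈ RR z t, g * b * g⁻¹ = x := by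
    haveI : Finite (RR z t) := inferInstance
    let f : RR z t → RR z t := fun a => ⟨g * a * g⁻¹, hnorm a a.2⟩
    have hf : Function.Surjective f := Finite.surjective_of_injective fun a b e =>
      Subtype.ext (by simpa [f] using congrArg Subtype.val e)
    obtain ⟨b, hb⟩ := hf ⟨x, S.xR⟩
    exact ⟨b, b.2, congrArg Subtype.val hb⟩
  have hcomm : x * (g * z * g⁻¹) = g * z * g⁻¹ * x :=
    PairSetting.conj_comm hbe rfl (mem_RR.1 hb).1
  have := S.zType_fixed S.xR S.x_not hgz h2 hgzc hcomm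
  exact mem_RR.2 ⟨conj_fix_iff.1 this, mem_HT.1 hg⟩

/-- Outer involutions are never conjugate to elements centralising `y`. -/
theorem outer_stays {a g : G} (ha : a ∈ RR z t) (hn : a ∉ R0 z y t) (h2 : a * a = 1)
    (hg : g * t = t * g) (hm : g * a * g⁻¹ ∈ R0 z y t) : False := by
  set K := Subgroup.centralizer ({a} : Set G) ⊓ HT t with hK
  set P := Subgroup.centralizer ({a} : Set G) ⊓ RR z t with hP
  have hPR : P ≤ RR z t := inf_le_right
  have hP2 : IsPGroup 2 P := S.R_isPGroup.to_le hPR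
  have hPK : P ≤ K := inf_le_inf_left _ inf_le_right
  have hodd := odd_relIndex_of_normalizer hP2 hPK fun c hc hnorm => by
    have hzP : z ∈ P := ⟨Subgroup.mem_centralizer_singleton_iff.2 (mem_RR.1 ha).1.symm,
      mem_RR.2 ⟨rfl, S.zt⟩⟩
    have h1 := hnorm z hzP
    have := S.zType_fixed ha hn h1.2
      (S.toSetting.conj_involution (c := c) S.toSetting.z_sq S.toSetting.z_ne).1
      (isConj_iff.2 ⟨c, rfl⟩) (Subgroup.mem_centralizer_singleton_iff.1 h1.1).symm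
    exact ⟨hc.1, mem_RR.2 ⟨conj_fix_iff.1 this, mem_HT.1 hc.2⟩⟩
  set D := Subgroup.closure ({g⁻¹ * z * g, g⁻¹ * y * g} : Set G) with hD
  obtain ⟨⟨gz, gt⟩, gy⟩ := mem_R0.1 hm
  have hDK : ∀ w : G, w * t = t * w → w * (g * a * g⁻¹) = g * a * g⁻¹ * w →
      g⁻¹ * w * g ∈ K := by
    intro w hwt hwa
    refine ⟨Subgroup.mem_centralizer_singleton_iff.2 ?_,
      mem_HT.2 (comm_mul (comm_mul (comm_inv hg) hwt) hg)⟩
    exact PairSetting.conj_comm (g := g⁻¹) (by rw [inv_inv]) (by group) hwa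
  have hDle : D ≤ K := by
    rw [hD, Subgroup.closure_le]
    rintro w (rfl | rfl)
    · exact hDK z S.zt gz.symm
    · exact hDK y S.yt gy.symm
  have hD2 : IsPGroup 2 D := by
    let f : G →* G := (MulAut.conj g⁻¹).toMonoidHom
    have hle : D ≤ ((RR z t).map f) := by
      rw [hD, Subgroup.closure_le]
      rintro w (rfl | rfl)
      · exact ⟨z, mem_RR.2 ⟨rfl, S.zt⟩, by simp [f]⟩
      · exact ⟨y, mem_RR.2 ⟨S.yz_comm, S.yt⟩, by simp [f]⟩
    exact (S.R_isPGroup.map f).to_le hle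
  obtain ⟨c, hc, hcd⟩ := exists_conj_into hP2 hPK hodd hD2 hDle
  have hfix : ∀ w : G, IsConj z w → w * w = 1 → g⁻¹ * w * g ∈ D →
      c * (g⁻¹ * w * g) * c⁻¹ = z := by
    intro w hwc hw2 hwD
    have h1 := hcd _ hwD
    refine S.zType_fixed ha hn h1.2 ?_ ?_ (Subgroup.mem_centralizer_singleton_iff.1 h1.1).symm
    · rw [show c * (g⁻¹ * w * g) * c⁻¹ * (c * (g⁻¹ * w * g) * c⁻¹) = c * g⁻¹ * (w * w) * g * c⁻¹ by group,
        hw2]
      group
    · exact hwc.trans (isConj_iff.2 ⟨c * g⁻¹, by group⟩)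
  have e1 := hfix z (IsConj.refl z) S.toSetting.z_sq (Subgroup.subset_closure (Or.inl rfl))
  have e2 := hfix y (isConj_iff.2 ⟨h, S.hz⟩) S.y_sq (Subgroup.subset_closure (Or.inr rfl))
  have : z = y := by simpa using e1.trans e2.symm
  have hθ := congrArg θ this
  rw [S.toSetting.θ_z, S.θy] at hθ
  exact absurd hθ (by decide)

end Second

end CfsgLib.SuzukiType
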