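import Cfsg.Agent.Lib.SuzukiType.SecondCent

/-!
The normal subgroup generated by the conjugates of `z` in the centraliser of `t`: a CIT group with
trivial cores.
-/

set_option autoImplicit false
set_option linter.unusedSectionVars false
set_option maxRecDepth 100000

namespace CfsgLib.SuzukiType

open Cfsg CfsgLib.CIT

variable {G : Type*} [Group G] [Finite G]
variable {z : G} {Qf : G → Subgroup G} {θ : G → V} {ρ : G → O} {J : Subgroup O}
variable {y h t u k n x : G}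

/-- A conjugation by an element of the larger group is one by an element of the subgroup of index
two, up to an element fixing the point. -/
theorem conj_descend {H K : Subgroup G} {b : G} (hmul : ∀ a ∈ H, a ∉ K → a * b ∈ K)
    (hb : b * z = z * b) {g : G} (hg : g ∈ H) : ∃ g' ∈ K, g' * z * g'⁻¹ = g * z * g⁻¹ := by
  by_cases hgK : g ∈ K
  · exact ⟨g, hgK, rfl⟩
  · refine ⟨g * b, hmul g hg hgK, ?_⟩
    rw [show g * b * z * (g * b)⁻¹ = g * (b * z * b⁻¹) * g⁻¹ by group, conj_fix_iff.2 hb]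

theorem relIndex_eq_two {M R : Subgroup G} {b : G} (hMR : M ≤ R) (hb : b ∈ R) (hbM : b ∉ M)
    (hall : ∀ a ∈ R, a ∉ M → a * b ∈ M) : M.relIndex R = 2 := by
  rw [Subgroup.relIndex, Subgroup.index_eq_two_iff]
  refine ⟨⟨b, hb⟩, fun a => ?_⟩
  simp only [Subgroup.mem_subgroupOf, Subgroup.coe_mul]
  by_cases ha : (a : G) ∈ M
  · refine Or.inr ⟨ha, fun hm => hbM ?_⟩
    simpa using M.mul_mem (M.inv_mem ha) hm
  · exact Or.inl ⟨hall a a.2 ha, ha⟩

namespace Second

variable (S : Second z Qf θ ρ J y h t u k n x)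
include S

/-- The extension of the perpendicular part by one involution. -/
def Ext {e : G} (he : ∀ a ∈ S.SS, e * a = a * e) (hee : e * e = 1) : Subgroup G where
  carrier := {a | a ∈ S.SS ∨ e * a ∈ S.SS}
  one_mem' := Or.inl (one_mem _)
  mul_mem' := by
    rintro a b (ha | ha) (hb | hb)
    · exact Or.inl (mul_mem ha hb)
    · refine Or.inr ?_
      rw [← mul_assoc, he a ha, mul_assoc]
      exact mul_mem ha hb
    · exact Or.inr (by rw [← mul_assoc]; exact mul_mem ha hb)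
    · refine Or.inl ?_
      have h1 : a = e * (e * a) := by rw [← mul_assoc, hee, one_mul]
      have h2 : a * b = (e * a) * (e * b) := by
        conv_lhs => rw [h1, he _ ha]
        group
      rw [h2]
      exact mul_mem ha hb
  inv_mem' := by
    rintro a (ha | ha)
    · exact Or.inl (inv_mem ha)
    · refine Or.inr ?_
      have h1 : e⁻¹ = e := inv_eq_of_mul_eq_one_right hee
      have h2 : a = e * (e * a) := by rw [← mul_assoc, hee, one_mul]
      have h3 : a⁻¹ = (e * a)⁻¹ * e := by rw [mul_inv_rev, h1, mul_assoc, hee, mul_one]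
      have h4 := he _ (inv_mem ha)
      rw [h3, ← h4, ← mul_assoc, hee, one_mul]
      exact inv_mem ha

theorem Ext_le {e : G} (he : ∀ a ∈ S.SS, e * a = a * e) (hee : e * e = 1) (heR : e ∈ R0 z y t) :
    S.Ext he hee ≤ R0 z y t := by
  rintro a (ha | ha)
  · exact S.SS_le ha
  · have := mul_mem (inv_mem heR) (S.SS_le ha)
    rwa [inv_mul_cancel_left] at this

theorem t_R0 : t ∈ R0 z y t := mem_R0.2 ⟨⟨S.zt.symm, rfl⟩, S.yt.symm⟩

theorem u_R0 : u ∈ R0 z y t := mem_R0.2 ⟨⟨(S.Co_comm S.u_co).1, S.ut⟩, (S.Co_comm S.u_co).2⟩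

theorem t_not : t ∉ S.SS := by
  rintro ⟨v, w, hco, hv, -⟩
  rw [← (S.Co_unique S.t_co hco).1] at hv
  exact absurd hv (by decide +kernel)

theorem ut_not : u * t ∉ S.SS := by
  rintro ⟨v, w, hco, hv, -⟩
  rw [S.ut] at hco
  rw [← (S.Co_unique S.tu_co hco).1] at hv
  exact absurd hv (by decide +kernel)

theorem NT_le : NT z t ≤ HT t := (Subgroup.closure_le _).2 fun _ hi => mem_HT.2 hi.1

theorem NT_normal {g a : G} (hg : g ∈ HT t) (ha : a ∈ NT z t) : g * a * g⁻¹ ∈ NT z t := by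
  have hle : (NT z t).map (MulAut.conj g).toMonoidHom ≤ NT z t := by
    rw [NT, MonoidHom.map_closure, Subgroup.closure_le]
    rintro _ ⟨i, ⟨hit, hi2, hic⟩, rfl⟩
    refine Subgroup.subset_closure ⟨?_, ?_, hic.trans (isConj_iff.2 ⟨g, rfl⟩)⟩
    · exact PairSetting.conj_comm rfl (conj_fix_iff.2 (mem_HT.1 hg)) hit
    · show g * i * g⁻¹ * (g * i * g⁻¹) = 1
      rw [show g * i * g⁻¹ * (g * i * g⁻¹) = g * (i * i) * g⁻¹ by group, hi2]; group
  exact hle ⟨a, ha, rfl⟩

theorem SS_le_NT : S.SS ≤ NT z t := S.SS_le_of_involutions fun a ha h2 h1 =>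
  Subgroup.subset_closure ⟨(S.SS_comm ha).1, h2, S.SS_conj_z ha h2 h1⟩

/-- The normal subgroup meets the Sylow subgroup in the perpendicular part, a Sylow subgroup. -/
theorem NT_sylow : NT z t ⊓ RR z t = S.SS ∧ ¬ 2 ∣ S.SS.relIndex (NT z t) := by
  have hSSinv : ∀ a ∈ S.SS, a * a = 1 → ∀ g ∈ HT t, g * a * g⁻¹ ∈ RR z t →
      g * a * g⁻¹ ∈ S.SS := by
    intro a ha h2 g _ hm
    by_cases h1 : a = 1
    · rw [h1, mul_one, mul_inv_cancel]; exact one_mem _
    · exact S.zType_RR hm (S.toSetting.conj_involution (c := g) h2 h1).1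
        ((S.SS_conj_z ha h2 h1).trans (isConj_iff.2 ⟨g, rfl⟩))
  -- the first step
  obtain ⟨K, hKH, hxK, hKmul, -, hKodd, hKR, hKin⟩ := transfer_step (H := HT t) (R := RR z t)
    (M := R0 z y t) inf_le_right S.R_isPGroup S.R_sylow
    (relIndex_eq_two inf_le_left S.xR S.x_not fun a ha hn => S.outer_mul ha hn)
    S.xR S.xx fun g hg _ hm => S.outer_stays S.xR S.x_not S.xx (mem_HT.1 hg) hm
  have hR0inv : ∀ a ∈ R0 z y t, a * a = 1 → a ∈ K := by
    intro a ha h2
    refine hKin a ha.1 h2 fun g hg hm => ?_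
    by_contra hn
    refine S.outer_stays (g := g⁻¹) hm hn ?_ ?_ (by simpa [mul_assoc] using ha)
    · rw [show g * a * g⁻¹ * (g * a * g⁻¹) = g * (a * a) * g⁻¹ by group, h2]; group
    · exact comm_inv (mem_HT.1 hg)
  have htK := hR0inv t S.t_R0 S.t_sq
  have huK := hR0inv u S.u_R0 S.u_sq
  have hSK : S.SS ≤ K := S.SS_le_of_involutions fun a ha h2 _ => hR0inv a (S.SS_le ha) h2
  have hR0K : R0 z y t ≤ K := by
    intro a ha
    rcases S.R0_cases ha with e | e | e | e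
    · exact hSK e
    · have := K.mul_mem (K.inv_mem htK) (hSK e)
      rwa [inv_mul_cancel_left] at this
    · have := K.mul_mem (K.inv_mem huK) (hSK e)
      rwa [inv_mul_cancel_left] at this
    · have := K.mul_mem (K.inv_mem (K.mul_mem htK huK)) (hSK e)
      rwa [inv_mul_cancel_left] at this
  have hKR0 : K ⊓ RR z t = R0 z y t := by
    refine le_antisymm (fun a ha => ?_) (le_inf hR0K inf_le_left)
    by_contra hn
    refine hxK ?_
    have := K.mul_mem (K.inv_mem ha.1) (hR0K (S.outer_mul ha.2 hn))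
    rwa [inv_mul_cancel_left] at this
  rw [hKR0] at hKodd
  -- the second step
  have hue : ∀ a ∈ S.SS, u * a = a * u := fun a ha => (S.SS_comm ha).2.1.symm
  set M1 := S.Ext hue S.u_sq with hM1
  have hR0_2 : IsPGroup 2 (R0 z y t) := S.R_isPGroup.to_le inf_le_left
  have htM1 : t ∉ M1 := by
    rintro (e | e)
    · exact S.t_not e
    · exact S.ut_not e
  have hM1idx : M1.relIndex (R0 z y t) = 2 := by
    refine relIndex_eq_two (S.Ext_le hue S.u_sq S.u_R0) S.t_R0 htM1 fun a ha hn => ?_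
    have hat : a * t = t * a := (mem_R0.1 ha).1.2
    rcases S.R0_cases ha with e | e | e | e
    · exact absurd (Or.inl e) hn
    · exact Or.inl (by rwa [hat])
    · exact absurd (Or.inr e) hn
    · refine Or.inr ?_
      rwa [hat, ← mul_assoc, S.ut]
  obtain ⟨K1, hK1K, htK1, hK1mul, -, hK1odd, hK1R, hK1in⟩ := transfer_step (H := K)
    (R := R0 z y t) (M := M1) hR0K hR0_2 hKodd hM1idx S.t_R0 S.t_sq fun g hg _ hm => by
      rw [conj_fix_iff.2 (mem_HT.1 (hKH hg))] at hm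
      exact htM1 hm
  have hSK1 : S.SS ≤ K1 := S.SS_le_of_involutions fun a ha h2 _ =>
    hK1in a (S.SS_le ha) h2 fun g hg hm => Or.inl (hSSinv a ha h2 g (hKH hg) hm.1)
  -- the third step
  obtain ⟨v, hvco, hvv, hvK1, hvR0, hvz, hvS, hvnot, hvsel⟩ : ∃ v, (∀ a ∈ S.SS, v * a = a * v) ∧
      v * v = 1 ∧ v ∈ K1 ∧ v ∈ R0 z y t ∧ ¬ IsConj z v ∧ v * z = z * v ∧ v ∉ S.SS ∧
      ((v = u ∧ u ∈ K1) ∨ (v = u * t ∧ u ∉ K1)) := by
    by_cases hu1 : u ∈ K1
    · refine ⟨u, hue, S.u_sq, hu1, S.u_R0, S.not_z_u, (S.Co_comm S.u_co).1, ?_, Or.inl ⟨rfl, hu1⟩⟩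
      rintro ⟨v, w, hco, hv, -⟩
      rw [← (S.Co_unique S.u_co hco).1] at hv
      exact absurd hv (by decide +kernel)
    · refine ⟨u * t, fun a ha => comm_mul (hue a ha) (S.SS_comm ha).1.symm, ?_,
        hK1mul u (hR0K S.u_R0) hu1, mul_mem S.u_R0 S.t_R0, ?_,
        comm_mul (S.Co_comm S.u_co).1 S.zt.symm, S.ut_not, Or.inr ⟨rfl, hu1⟩⟩
      · rw [S.ut]; exact S.tu_sq
      · rw [S.ut]; exact S.not_z_tu
  set M2 := S.Ext hvco hvv with hM2
  have hK1R0 : K1 ⊓ R0 z y t = M2 := by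
    refine le_antisymm (fun a ha => ?_) (le_inf ?_ (S.Ext_le hvco hvv hvR0))
    · have hin : ∀ e, e * a ∈ S.SS → e ∈ K1 := fun e he => by
        have := K1.mul_mem (hSK1 he) (K1.inv_mem ha.1)
        rwa [mul_inv_cancel_right] at this
      rcases S.R0_cases ha.2 with e | e | e | e
      · exact Or.inl e
      · exact absurd (hin t e) htK1
      · rcases hvsel with ⟨rfl, -⟩ | ⟨-, hnu⟩
        · exact Or.inr e
        · exact absurd (hin u e) hnu
      · rcases hvsel with ⟨rfl, hu1⟩ | ⟨rfl, -⟩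
        · refine absurd ?_ htK1
          have := K1.mul_mem (hin (t * v) e) (K1.inv_mem hu1)
          rwa [mul_inv_cancel_right] at this
        · exact Or.inr (by rwa [S.ut])
    · rintro a (e | e)
      · exact hSK1 e
      · have := K1.mul_mem (K1.inv_mem hvK1) (hSK1 e)
        rwa [inv_mul_cancel_left] at this
  rw [hK1R0] at hK1odd
  have hM2le : M2 ≤ K1 := hK1R0 ▸ inf_le_left
  have hM2R0 : M2 ≤ R0 z y t := S.Ext_le hvco hvv hvR0
  have hvM2 : v ∈ M2 := Or.inr (by rw [hvv]; exact one_mem _)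
  have hSM2 : S.SS.relIndex M2 = 2 := by
    refine relIndex_eq_two (fun a ha => Or.inl ha) hvM2 hvnot fun a ha hn => ?_
    have hva : v * a ∈ S.SS := Or.resolve_left ha hn
    have hav : a * v = v * a := by
      have h1 := hvco _ hva
      calc a * v = v * (v * a * v) := by rw [← mul_assoc, ← mul_assoc, hvv, one_mul]
        _ = v * (v * (v * a)) := by rw [h1]
        _ = v * a := by rw [← mul_assoc v v, hvv, one_mul]
    rwa [hav]
  obtain ⟨K2, hK2K, hvK2, hK2mul, hK2n, hK2odd, -, hK2in⟩ := transfer_step (H := K1)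
    (R := M2) (M := S.SS) hM2le (hR0_2.to_le hM2R0) hK1odd hSM2 hvM2 hvv fun g hg hm hS => by
      have hv1 : v ≠ 1 := fun e => hvnot (e ▸ one_mem _)
      obtain ⟨g2, g1⟩ := S.toSetting.conj_involution (c := g) hvv hv1
      exact hvz ((S.SS_conj_z hS g2 g1).trans (isConj_iff.2 ⟨g, rfl⟩).symm)
  have hSK2 : S.SS ≤ K2 := S.SS_le_of_involutions fun a ha h2 _ =>
    hK2in a (Or.inl ha) h2 fun g hg hm =>
      hSSinv a ha h2 g (hKH (hK1K hg)) (hM2R0 hm).1
  have hK2M2 : K2 ⊓ M2 = S.SS := by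
    refine le_antisymm (fun a ha => ?_) (le_inf hSK2 fun a ha => Or.inl ha)
    refine ha.2.resolve_right fun e => hvK2 ?_
    have := K2.mul_mem (hSK2 e) (K2.inv_mem ha.1)
    rwa [mul_inv_cancel_right] at this
  rw [hK2M2] at hK2odd
  have hzK2 : z ∈ K2 := hSK2 S.z_SS
  have hgen : ∀ i, i * t = t * i ∧ i * i = 1 ∧ IsConj z i → i ∈ K2 := by
    rintro i ⟨hit, -, hic⟩
    obtain ⟨g, hgt, rfl⟩ := S.zTypes_conj hit hic
    obtain ⟨g1, hg1, e1⟩ := conj_descend hKmul S.xz (mem_HT.2 hgt : g ∈ HT t)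
    obtain ⟨g2, hg2, e2⟩ := conj_descend hK1mul S.zt.symm hg1
    obtain ⟨g3, hg3, e3⟩ := conj_descend hK2mul hvS hg2
    rw [← e1, ← e2, ← e3]
    exact K2.mul_mem (K2.mul_mem hg3 hzK2) (K2.inv_mem hg3)
  have hNK2 : NT z t ≤ K2 := (Subgroup.closure_le _).2 hgen
  refine ⟨le_antisymm (fun a ha => ?_) (le_inf S.SS_le_NT (S.SS_le.trans inf_le_left)), ?_⟩
  · have h0 : a ∈ R0 z y t := hKR0 ▸ ⟨hK1K (hK2K (hNK2 ha.1)), ha.2⟩
    have h1 : a ∈ M2 := hK1R0 ▸ ⟨hK2K (hNK2 ha.1), h0⟩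
    exact hK2M2 ▸ ⟨hNK2 ha.1, h1⟩
  · intro hd
    refine hK2odd ?_
    rw [← Subgroup.relIndex_mul_relIndex S.SS (NT z t) K2 S.SS_le_NT hNK2]
    exact hd.mul_right _

theorem SS_isPGroup : IsPGroup 2 S.SS := S.R_isPGroup.to_le (S.SS_le.trans inf_le_left)

theorem NT_involution {i : G} (hi : i ∈ NT z t) (h2 : i * i = 1) (h1 : i ≠ 1) : IsConj z i := by
  obtain ⟨c, hc, hcS⟩ := exists_conj_into_of_sq S.SS_isPGroup S.SS_le_NT S.NT_sylow.2 hi h2
  obtain ⟨g2, g1⟩ := S.toSetting.conj_involution (c := c) h2 h1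
  exact (S.SS_conj_z hcS g2 g1).trans (isConj_iff.2 ⟨c, rfl⟩).symm

theorem NT_centralizer {i : G} (hi : i ∈ NT z t) (h2 : i * i = 1) (h1 : i ≠ 1) :
    IsPGroup 2 (Subgroup.centralizer ({i} : Set G) ⊓ NT z t : Subgroup G) :=
  (S.centralizer_zType (mem_HT.1 (S.NT_le hi)) (S.NT_involution hi h2 h1)).to_le
    (inf_le_inf_left _ S.NT_le)

theorem NT_cit : IsCIT (NT z t) := by
  intro i hi a
  have h2 : (i : G) * i = 1 := by
    have := pow_orderOf_eq_one i
    rw [hi, pow_two] at this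
    simpa using congrArg Subtype.val this
  have h1 : (i : G) ≠ 1 := fun e => by
    rw [show i = 1 from Subtype.ext e, orderOf_one] at hi
    omega
  have hm : ((a : NT z t) : G) ∈ Subgroup.centralizer ({(i : G)} : Set G) ⊓ NT z t :=
    ⟨Subgroup.mem_centralizer_singleton_iff.2
      (congrArg Subtype.val (Subgroup.mem_centralizer_singleton_iff.1 a.2)), (a : NT z t).2⟩
  obtain ⟨m, hm'⟩ := S.NT_centralizer i.2 h2 h1 ⟨_, hm⟩
  exact ⟨m, Subtype.ext (Subtype.ext (by simpa using congrArg Subtype.val hm'))⟩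

end Second

end CfsgLib.SuzukiType
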