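import Cfsg.Agent.Lib.SuzukiType.SecondNormal
import Cfsg.Agent.Lib.CNStruct.Structure
import Cfsg.Agent.Lib.CIT.Main

/-!
The normal subgroup generated by the conjugates of `z` in the centraliser of `t` is `PSL₃(4)`.
-/

set_option autoImplicit false
set_option linter.unusedSectionVars false
set_option maxRecDepth 100000
set_option synthInstance.maxSize 2000

namespace CfsgLib.SuzukiType

open Cfsg CfsgLib.CIT

universe u₀

variable {G : Type u₀} [Group G] [Finite G]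
variable {z : G} {Qf : G → Subgroup G} {θ : G → V} {ρ : G → O} {J : Subgroup O}
variable {y h t u k n x : G}

/-- The perpendicular vectors. -/
def pv (p : ZMod 2 × ZMod 2) : V := vec 0 p.1 0 p.2 0 0

theorem pv_ok : ∀ p, Mid (pv p) ∧ Perp (pv p) := by decide +kernel

theorem pv_inj : ∀ p p', pv p = pv p' → p = p' := by decide +kernel

theorem pv_surj : ∀ v : V, Mid v → Perp v → ∃ a b, pv (a, b) = v := by
  rw [forall_mid]; decide +kernel

theorem e2_f2 : Perp e2V ∧ Perp f2V ∧ E1 e2V 0 = 0 ∧ E2 e2V 0 = 0 ∧ E1 f2V 0 = 0 ∧ E2 f2V 0 = 0 ∧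
    C1 e2V 0 f2V 0 = 1 := by decide +kernel

theorem e2f2_ne : e2V ≠ (0 : V) ∧ f2V ≠ (0 : V) := by decide +kernel

theorem inv_eq_self_of_sq {a : G} (h : a * a = 1) : a⁻¹ = a := inv_eq_of_mul_eq_one_right h

/-- A subgroup of odd order normalised by two commuting involutions, each product of which is
fixed-point-free, is trivial. -/
theorem eq_bot_of_three {W : Subgroup G} {a b : G} (ha : a * a = 1) (hb : b * b = 1)
    (hWa : ∀ w ∈ W, a * w * a⁻¹ ∈ W) (hWb : ∀ w ∈ W, b * w * b⁻¹ ∈ W)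
    (fa : ∀ w ∈ W, a * w = w * a → w = 1) (fb : ∀ w ∈ W, b * w = w * b → w = 1)
    (fab : ∀ w ∈ W, a * b * w = w * (a * b) → w = 1) : W = ⊥ := by
  have inv : ∀ c : G, c * c = 1 → (∀ w ∈ W, c * w * c⁻¹ ∈ W) → (∀ w ∈ W, c * w = w * c → w = 1) →
      ∀ w ∈ W, c * w * c⁻¹ = w⁻¹ := by
    intro c hc hWc fc
    have hci := inv_eq_self_of_sq hc
    let f : W → W := fun w => ⟨(w : G)⁻¹ * (c * w * c⁻¹), W.mul_mem (W.inv_mem w.2) (hWc w w.2)⟩
    have hf : Function.Injective f := by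
      intro v w e
      have e1 : (v : G)⁻¹ * (c * v * c⁻¹) = (w : G)⁻¹ * (c * w * c⁻¹) := congrArg Subtype.val e
      have h1 := fc ((w : G) * (v : G)⁻¹) (W.mul_mem w.2 (W.inv_mem v.2)) (conj_fix_iff.1 (by
        calc c * ((w : G) * (v : G)⁻¹) * c⁻¹ = (c * w * c⁻¹) * (c * v * c⁻¹)⁻¹ := by group
          _ = (w : G) * ((w : G)⁻¹ * (c * w * c⁻¹)) * (c * v * c⁻¹)⁻¹ := by group
          _ = (w : G) * (v : G)⁻¹ := by rw [← e1]; group))
      exact Subtype.ext (mul_inv_eq_one.1 h1).symm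
    intro w hw
    obtain ⟨v, hv⟩ := (Finite.surjective_of_injective hf) ⟨w, hw⟩
    have e : (v : G)⁻¹ * (c * v * c⁻¹) = w := congrArg Subtype.val hv
    rw [← e]
    calc c * ((v : G)⁻¹ * (c * v * c⁻¹)) * c⁻¹ = (c * v * c⁻¹)⁻¹ * (c * c) * v * (c * c)⁻¹ := by group
      _ = ((v : G)⁻¹ * (c * v * c⁻¹))⁻¹ := by rw [hc]; group
  refine (Subgroup.eq_bot_iff_forall _).2 fun w hw => fab w hw (conj_fix_iff.1 ?_)
  rw [show a * b * w * (a * b)⁻¹ = a * (b * w * b⁻¹) * a⁻¹ by group, inv b hb hWb fb w hw,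
    inv a ha hWa fa _ (W.inv_mem hw), inv_inv]

namespace Second

variable (S : Second z Qf θ ρ J y h t u k n x)
include S

theorem card_SS : Nat.card S.SS = 64 := by
  classical
  choose L hL using fun (p p' : ZMod 2 × ZMod 2) => S.Co_exists (pv_ok p).1 (pv_ok p').1
  let f : (ZMod 2 × ZMod 2) × (ZMod 2 × ZMod 2) × (ZMod 2 × ZMod 2) → S.SS := fun q =>
    ⟨zy z y q.1.1 q.1.2 * L q.2.1 q.2.2, pv q.2.1, pv q.2.2, by
      have := S.Co_mul (S.Co_zy q.1.1 q.1.2) (hL q.2.1 q.2.2)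
      rwa [zero_add, zero_add] at this, (pv_ok _).2, (pv_ok _).2⟩
  have hf : Function.Bijective f := by
    constructor
    · rintro ⟨⟨i, j⟩, p, p'⟩ ⟨⟨i', j'⟩, p₁, p₁'⟩ e
      have e1 : zy z y i j * L p p' = zy z y i' j' * L p₁ p₁' := congrArg Subtype.val e
      have c1 := S.Co_mul (S.Co_zy i j) (hL p p')
      have c2 := S.Co_mul (S.Co_zy i' j') (hL p₁ p₁')
      rw [zero_add, zero_add] at c1 c2
      rw [e1] at c1
      obtain ⟨hp, hp'⟩ := S.Co_unique c1 c2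
      obtain rfl := pv_inj _ _ hp
      obtain rfl := pv_inj _ _ hp'
      obtain ⟨rfl, rfl⟩ := S.zy_inj (mul_right_cancel e1)
      rfl
    · rintro ⟨a, v, w, hco, hv, hw⟩
      obtain ⟨hvm, hwm⟩ := S.Co_mid hco
      obtain ⟨b, c, rfl⟩ := pv_surj v hvm hv
      obtain ⟨b', c', rfl⟩ := pv_surj w hwm hw
      obtain ⟨i, j, e⟩ := S.Co_coset (hL (b, c) (b', c')) hco
      exact ⟨((i, j), (b, c), (b', c')), Subtype.ext e.symm⟩
  rw [← Nat.card_congr (Equiv.ofBijective f hf)]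
  simp only [Nat.card_prod, Nat.card_zmod]

theorem zy_fpf {c w : G} (hc : c = z ∨ c = y ∨ c = z * y) (hw : w ∈ NT z t) (hcw : c * w = w * c)
    {m : ℕ} (hm : Odd m) (hwm : w ^ m = 1) : w = 1 := by
  have hcS : c ∈ S.SS := by
    rcases hc with rfl | rfl | rfl
    · exact S.z_SS
    · exact S.y_SS
    · exact mul_mem S.z_SS S.y_SS
  obtain ⟨hc2, hc1⟩ : c * c = 1 ∧ c ≠ 1 := by
    rcases hc with rfl | rfl | rfl
    · exact ⟨S.toSetting.z_sq, S.toSetting.z_ne⟩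
    · exact ⟨S.y_sq, S.goody.ne_one⟩
    · refine ⟨?_, fun e => ?_⟩
      · rw [mul_assoc, ← mul_assoc y, S.yz_comm, mul_assoc, S.y_sq, mul_one, S.toSetting.z_sq]
      · have := S.zy_eq_one (show zy z y 1 1 = 1 by simpa [zy] using e)
        exact absurd this.1 (by decide)
  obtain ⟨j, hj⟩ := S.NT_centralizer (S.SS_le_NT hcS) hc2 hc1
    ⟨w, Subgroup.mem_centralizer_singleton_iff.2 hcw.symm, hw⟩
  have h2 : w ^ (2 ^ j) = 1 := by simpa using congrArg Subtype.val hj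
  have := pow_gcd_eq_one.2 ⟨hwm, h2⟩
  rwa [(hm.coprime_two_right.pow_right j), pow_one] at this

theorem no_odd_normal (W : Subgroup G) (hWN : W ≤ NT z t) (hW : Odd (Nat.card W))
    (hnorm : ∀ c ∈ S.SS, ∀ w ∈ W, c * w * c⁻¹ ∈ W) : W = ⊥ := by
  have hpow : ∀ w ∈ W, w ^ Nat.card W = 1 := fun w hw =>
    congrArg Subtype.val (pow_card_eq_one' (x := (⟨w, hw⟩ : W)))
  refine eq_bot_of_three S.toSetting.z_sq S.y_sq (hnorm z S.z_SS) (hnorm y S.y_SS) ?_ ?_ ?_
  · exact fun w hw e => S.zy_fpf (Or.inl rfl) (hWN hw) e hW (hpow w hw)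
  · exact fun w hw e => S.zy_fpf (Or.inr (Or.inl rfl)) (hWN hw) e hW (hpow w hw)
  · exact fun w hw e => S.zy_fpf (Or.inr (Or.inr rfl)) (hWN hw) e hW (hpow w hw)

theorem nHT : n ∈ HT t := mem_HT.2 S.nt

theorem NT_pCore : pCore 2 (NT z t) = ⊥ := by
  haveI : Fact (Nat.Prime 2) := ⟨Nat.prime_two⟩
  set E := (pCore 2 (NT z t)).map (NT z t).subtype with hE
  by_contra hne
  have hEN : E ≤ NT z t := Subgroup.map_subtype_le _
  have hEp : IsPGroup 2 E := (Cores.isPGroup_pCore 2 _).map _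
  -- invariance under the centraliser of `t`
  have hEinv : ∀ g ∈ HT t, ∀ e ∈ E, g * e * g⁻¹ ∈ E := by
    intro g hg e he
    obtain ⟨e', he', rfl⟩ := he
    let f : NT z t ≃* NT z t :=
      { toFun := fun a => ⟨g * a * g⁻¹, S.NT_normal hg a.2⟩
        invFun := fun a => ⟨g⁻¹ * a * g, by
          have := S.NT_normal ((HT t).inv_mem hg) a.2
          rwa [inv_inv] at this⟩
        left_inv := fun a => Subtype.ext (by group)
        right_inv := fun a => Subtype.ext (by group)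
        map_mul' := fun a b => Subtype.ext (by simp only [Subgroup.coe_mul]; group) }
    haveI : ((pCore 2 (NT z t)).map f.toMonoidHom).Normal :=
      Subgroup.Normal.map inferInstance _ f.surjective
    have h1 : (pCore 2 (NT z t)).map f.toMonoidHom ≤ pCore 2 (NT z t) :=
      Cores.le_pCore ((Cores.isPGroup_pCore 2 _).map _)
    exact ⟨f e', h1 ⟨e', he', rfl⟩, rfl⟩
  have hES : E ≤ S.SS := by
    obtain ⟨c, hc, hcS⟩ := exists_conj_into S.SS_isPGroup S.SS_le_NT S.NT_sylow.2 hEp hEN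
    intro e he
    have h1 := hcS _ (hEinv c⁻¹ ((HT t).inv_mem (S.NT_le hc)) e he)
    rwa [inv_inv, show c * (c⁻¹ * e * c) * c⁻¹ = e by group] at h1
  have hSEinv : ∀ a ∈ S.SS, ∀ e ∈ E, a * e * a⁻¹ * e⁻¹ ∈ E := fun a ha e he =>
    E.mul_mem (hEinv a (mem_HT.2 (S.SS_comm ha).1) e he) (E.inv_mem he)
  obtain ⟨⟨e, heN⟩, hep, hene⟩ := (Subgroup.ne_bot_iff_exists_ne_one.1 hne).elim
    fun a ha => (⟨a.1, a.2, fun h0 => ha (Subtype.ext h0)⟩ : ∃ e, e ∈ pCore 2 (NT z t) ∧ e ≠ 1)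
  have heE : e ∈ E := ⟨⟨e, heN⟩, hep, rfl⟩
  -- a nontrivial element of the centre of the pair
  obtain ⟨i, j, hij, hijE⟩ : ∃ i j : ZMod 2, (i ≠ 0 ∨ j ≠ 0) ∧ zy z y i j ∈ E := by
    obtain ⟨v, w, hco, hv, hw⟩ := hES heE
    obtain ⟨hvm, hwm⟩ := S.Co_mid hco
    by_cases h0 : v = 0 ∧ w = 0
    · obtain ⟨rfl, rfl⟩ := h0
      obtain ⟨i, j, rfl⟩ := S.Co_zero hco
      refine ⟨i, j, ?_, heE⟩
      by_contra hh
      push Not at hh
      exact hene (Subtype.ext (by simp [zy, hh.1, hh.2]))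
    · obtain ⟨p, hp, hC⟩ := noncomm_perp v hvm w hwm hv hw (by tauto)
      obtain ⟨m1, m2, p1, p2, -, -⟩ := gen_ok p hp
      obtain ⟨b, hb⟩ := S.Co_exists m1 m2
      have hbS : b ∈ S.SS := ⟨_, _, hb, p1, p2⟩
      refine ⟨C1 p.1 p.2 v w, C2 p.1 p.2 v w, ?_, ?_⟩
      · simp only [C1, C2] at hC ⊢
        rw [bl_comm p.1 v, bl_comm p.2 w, bl_comm p.1 w, bl_comm p.2 v]
        rwa [show bl v p.1 + bl w p.1 + bl v p.2 = bl v p.1 + bl v p.2 + bl w p.1 by ring,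
          show bl w p.2 + bl w p.1 + bl v p.2 = bl w p.2 + bl v p.2 + bl w p.1 by ring]
      · have h1 := hSEinv b hbS e heE
        rwa [S.Co_conj hb hco, mul_inv_cancel_right] at h1
  have hzE : z ∈ E := by
    have hn : ∀ a ∈ E, n * a * n⁻¹ ∈ E := hEinv n S.nHT
    have hnzy : n * (z * y) * n⁻¹ = z := by
      rw [show n * (z * y) * n⁻¹ = (n * z * n⁻¹) * (n * y * n⁻¹) by group, S.nz, S.ny, ← mul_assoc,
        S.yz_comm, mul_assoc, S.y_sq, mul_one]
    rcases z2_cases i with rfl | rfl <;> rcases z2_cases j with rfl | rfl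
    · rcases hij with h | h <;> exact absurd rfl h
    · have h1 := hn _ (show y ∈ E by simpa [zy] using hijE)
      rw [S.ny] at h1
      have h2 := hn _ h1
      rwa [hnzy] at h2
    · simpa [zy] using hijE
    · have h1 := hn _ (show z * y ∈ E by simpa [zy] using hijE)
      rwa [hnzy] at h1
  -- all conjugates of `z` commuting with `t` centralise it
  have hall : ∀ a ∈ S.SS, a * a = 1 → a ≠ 1 → a ∈ E ∧ ∀ e ∈ E, a * e = e * a := by
    intro a ha h2 h1
    obtain ⟨g, hgt, rfl⟩ := S.zTypes_conj (S.SS_comm ha).1 (S.SS_conj_z ha h2 h1)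
    refine ⟨hEinv g (mem_HT.2 hgt) z hzE, fun e he => ?_⟩
    have h3 := hEinv g⁻¹ ((HT t).inv_mem (mem_HT.2 hgt)) e he
    exact PairSetting.conj_comm (g := g) rfl (by group)
      ((S.SS_comm (hES h3)).2.2.1.symm)
  obtain ⟨ep, fp, e1, e2, e3, e4, hC⟩ := e2_f2
  obtain ⟨a, ha⟩ := S.Co_exists mid_e2V mid_zero
  obtain ⟨b, hb⟩ := S.Co_exists mid_f2V mid_zero
  have hne1 : ∀ (c : G) (v : V), Co z Qf θ ρ y c v 0 → v ≠ 0 → c ≠ 1 := fun c v hc hv e =>
    hv (S.Co_unique hc (show Co z Qf θ ρ y c 0 0 by subst e; simpa [zy] using S.Co_zy 0 0)).1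
  have haE := (hall a ⟨_, _, ha, ep, perp_zero⟩ (S.co_sq_one ha e1 e2) (hne1 a _ ha e2f2_ne.1)).1
  have hbc := (hall b ⟨_, _, hb, fp, perp_zero⟩ (S.co_sq_one hb e3 e4) (hne1 b _ hb e2f2_ne.2)).2 a haE
  have := ((S.Co_commute ha hb).1 hbc.symm).1
  rw [hC] at this
  exact one_ne_zero this

theorem NT_not_solvable : ¬ Group.IsSolvable (NT z t) := by
  intro hs
  have h1 := SFourFree.centralizer_pPrimeCore_le (L := NT z t) S.NT_pCore
  set W := (pPrimeCore 2 (NT z t)).map (NT z t).subtype with hW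
  have hodd : Odd (Nat.card W) := by
    rw [hW, Subgroup.card_map_of_injective (NT z t).subtype_injective]
    exact Nat.coprime_two_right.1 (Cores.card_pPrimeCore_coprime 2)
  have hWb : W = ⊥ := S.no_odd_normal W (Subgroup.map_subtype_le _) hodd fun c hc w hw => by
    obtain ⟨w', hw', rfl⟩ := hw
    exact ⟨⟨c, S.SS_le_NT hc⟩ * w' * ⟨c, S.SS_le_NT hc⟩⁻¹,
      (inferInstance : (pPrimeCore 2 (NT z t)).Normal).conj_mem w' hw' _, rfl⟩
  rw [hW, Subgroup.map_eq_bot_iff_of_injective _ (NT z t).subtype_injective] at hWb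
  rw [hWb] at h1
  have h2 : (⟨z, S.SS_le_NT S.z_SS⟩ : NT z t) ∈ (⊥ : Subgroup (NT z t)) :=
    h1 (Subgroup.mem_centralizer_iff.2 fun a ha => by
      rw [show a = 1 from ha]; simp)
  exact S.toSetting.z_ne (congrArg Subtype.val (Subgroup.mem_bot.1 h2))

theorem two_dvd_NT : 2 ∣ Nat.card (NT z t) :=
  (show 2 ∣ Nat.card S.SS by rw [S.card_SS]; norm_num).trans (Subgroup.card_dvd_of_le S.SS_le_NT)

theorem sylow_card (T : Sylow 2 (NT z t)) : Nat.card (T : Subgroup (NT z t)) = 64 := by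
  haveI : Fact (Nat.Prime 2) := ⟨Nat.prime_two⟩
  obtain ⟨T', hT'⟩ := ConjFunctor.exists_sylow_subgroupOf S.SS_isPGroup S.SS_le_NT S.NT_sylow.2
  have : Nat.card (T' : Subgroup (NT z t)) = 64 := by
    rw [hT', Nat.card_congr (Subgroup.subgroupOfEquivOfLe S.SS_le_NT).toEquiv, S.card_SS]
  rw [← this, Sylow.card_eq_multiplicity, Sylow.card_eq_multiplicity]

theorem sylow_exp (T : Sylow 2 (NT z t)) : ∀ a ∈ (T : Subgroup (NT z t)), a ^ 4 = 1 := by
  intro a ha
  haveI : Fact (Nat.Prime 2) := ⟨Nat.prime_two⟩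
  obtain ⟨T', hT'⟩ := ConjFunctor.exists_sylow_subgroupOf S.SS_isPGroup S.SS_le_NT S.NT_sylow.2
  obtain ⟨g, hg⟩ := MulAction.exists_smul_eq (NT z t) T T'
  have hmem : g * a * g⁻¹ ∈ (T' : Subgroup (NT z t)) := by
    rw [← hg]
    exact Subgroup.smul_mem_pointwise_smul a (MulAut.conj g) _ ha
  rw [hT', Subgroup.mem_subgroupOf] at hmem
  obtain ⟨v, w, hco, -, -⟩ := hmem
  have h4 : (g * a * g⁻¹) ^ 4 = 1 := Subtype.ext (by simpa using S.Co_pow_four hco)
  rw [conj_pow] at h4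
  exact conj_eq_one_iff.1 h4

theorem not_tiSylow : ¬ TISylow (NT z t) := by
  intro hTI
  haveI : Fact (Nat.Prime 2) := ⟨Nat.prime_two⟩
  obtain ⟨T, hT⟩ := ConjFunctor.exists_sylow_subgroupOf S.SS_isPGroup S.SS_le_NT S.NT_sylow.2
  obtain ⟨ep, fp, e1, e2, e3, e4, hC⟩ := e2_f2
  obtain ⟨a, ha⟩ := S.Co_exists mid_e2V mid_zero
  obtain ⟨b, hb⟩ := S.Co_exists mid_f2V mid_zero
  have ha1 : a ≠ 1 := fun e =>
    absurd (S.Co_unique ha (by rw [e]; simpa [zy] using S.Co_zy 0 0)).1 (by decide)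
  have haS : a ∈ S.SS := ⟨_, _, ha, ep, perp_zero⟩
  have hbS : b ∈ S.SS := ⟨_, _, hb, fp, perp_zero⟩
  obtain ⟨g, hgt, hga⟩ :=
    S.zTypes_conj (S.SS_comm haS).1 (S.SS_conj_z haS (S.co_sq_one ha e1 e2) ha1)
  -- the conjugate Sylow subgroup
  let f : NT z t ≃* NT z t :=
    { toFun := fun c => ⟨g * c * g⁻¹, S.NT_normal (mem_HT.2 hgt) c.2⟩
      invFun := fun c => ⟨g⁻¹ * c * g, by
        have := S.NT_normal ((HT t).inv_mem (mem_HT.2 hgt)) c.2
        rwa [inv_inv] at this⟩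
      left_inv := fun c => Subtype.ext (by group)
      right_inv := fun c => Subtype.ext (by group)
      map_mul' := fun c d => Subtype.ext (by simp only [Subgroup.coe_mul]; group) }
  let T' : Sylow 2 (NT z t) := T.mapSurjective (f := f.toMonoidHom) f.surjective
  have hT' : ∀ c, c ∈ (T : Subgroup (NT z t)) → f c ∈ (T' : Subgroup (NT z t)) :=
    fun c hc => ⟨c, hc, rfl⟩
  have haT : (⟨a, S.SS_le_NT haS⟩ : NT z t) ∈ (T : Subgroup (NT z t)) := by
    rw [hT]; exact haS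
  have hzT : (⟨z, S.SS_le_NT S.z_SS⟩ : NT z t) ∈ (T : Subgroup (NT z t)) := by
    rw [hT]; exact S.z_SS
  have heq : T = T' := by
    refine hTI T T' fun hbot => ha1 ?_
    have hm : (⟨a, S.SS_le_NT haS⟩ : NT z t) ∈ (T : Subgroup (NT z t)) ⊓ T' :=
      ⟨haT, ⟨_, hzT, Subtype.ext hga⟩⟩
    rw [hbot] at hm
    exact congrArg Subtype.val (Subgroup.mem_bot.1 hm)
  -- so it centralises the whole Sylow subgroup
  have hbT : (⟨b, S.SS_le_NT hbS⟩ : NT z t) ∈ (T' : Subgroup (NT z t)) := by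
    rw [← heq, hT]; exact hbS
  obtain ⟨c, hc, hce⟩ := hbT
  have hcS : (c : G) ∈ S.SS := by
    have hc' : c ∈ (T : Subgroup (NT z t)) := hc
    rw [hT] at hc'
    exact hc'
  have hab : a * b = b * a :=
    PairSetting.conj_comm (g := g) hga (congrArg Subtype.val hce) (S.SS_comm hcS).2.2.1.symm
  have := ((S.Co_commute ha hb).1 hab).1
  rw [hC] at this
  exact one_ne_zero this

/-- The normal subgroup is `PSL₃(4)`. -/
theorem NT_iso : ∃ (F : Type) (_ : Field F) (_ : Fintype F), Fintype.card F = 4 ∧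
    Nonempty (NT z t ≃* Matrix.ProjectiveSpecialLinearGroup (Fin 3) F) := by
  haveI : Fact (Nat.Prime 2) := ⟨Nat.prime_two⟩
  rcases CNStruct.core_trivial_cases S.NT_cit S.NT_not_solvable S.two_dvd_NT S.NT_pCore with
    ⟨hsimp, hna⟩ | ⟨N, hN, hidx, F, _, _, hF, ⟨e⟩⟩
  · haveI := hsimp
    have hna' : ∃ a b : NT z t, a * b ≠ b * a := by
      by_contra hh
      push Not at hh
      exact hna ⟨⟨hh⟩⟩
    rcases refined (NT z t) S.NT_cit hna' S.two_dvd_NT with hTI | ⟨⟨T, m, hm, ⟨e⟩, -⟩, -⟩ |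
      ⟨-, F, i1, i2, hF, he⟩
    · exact absurd hTI S.not_tiSylow
    · exfalso
      have hc := Nat.card_congr e.toEquiv
      rw [S.sylow_card, DihedralGroup.nat_card] at hc
      have h4 : (e.symm (DihedralGroup.r 1)) ^ 4 = 1 :=
        Subtype.ext (by simpa using S.sylow_exp T _ (e.symm (DihedralGroup.r 1)).2)
      have h5 := congrArg e h4
      rw [map_pow, e.apply_symm_apply, map_one] at h5
      have hd := orderOf_dvd_of_pow_eq_one h5
      rw [DihedralGroup.orderOf_r_one] at hd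
      have := Nat.le_of_dvd (by norm_num) hd
      omega
    · exact ⟨F, i1, i2, hF, he⟩
  · exfalso
    have h1 := N.card_mul_index
    rw [hidx, Nat.card_congr e.toEquiv] at h1
    obtain ⟨T⟩ : Nonempty (Sylow 2 (NT z t)) := inferInstance
    have h64 : (64 : ℕ) ∣ Nat.card (NT z t) := S.sylow_card T ▸ Subgroup.card_subgroup_dvd_card _
    rw [← h1, show Nat.card (Matrix.ProjectiveSpecialLinearGroup (Fin 2) F) = 360 from ?_] at h64
    · norm_num at h64
    · have h := ClassicalLinear.card_PSL_two_of_odd hF (by decide)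
      norm_num at h
      omega

end Second

end CfsgLib.SuzukiType
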