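import Mathlib

/-!
Suzuki type: the stabiliser of a line of the group `A` of order `3 ^ 5` in a normaliser with
quotient of order 7920 contains a Sylow 3-subgroup once its order is divisible by 432.
-/

set_option autoImplicit false

namespace CfsgLib.SuzukiType

namespace ThreeOrbit

variable {G : Type*} [Group G] [Finite G] {A : Subgroup G}

/-- The elements of `A` centralising an element of prime order `p` of the normaliser. -/
theorem card_fixed {p : ℕ} [Fact p.Prime] (y : ↥(Subgroup.normalizer (A : Set G)))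
    (hy : orderOf y = p) :
    Nat.card A ≡ Nat.card ↥(A ⊓ Subgroup.centralizer ({(y : G)} : Set G)) [MOD p] := by
  let K := Subgroup.zpowers y
  let f : K →* MulAut A := A.normalizerMonoidHom.comp K.subtype
  letI : MulAction K A := MulAction.compHom A f
  have hK : IsPGroup p K := IsPGroup.of_card (n := 1) (by rw [Nat.card_zpowers, hy, pow_one])
  refine (hK.card_modEq_card_fixedPoints A).trans (congrArg (· % p) ?_)
  refine Nat.card_congr
    { toFun := fun a => ⟨a.1, a.1.2, ?_⟩
      invFun := fun a => ⟨⟨a.1, a.2.1⟩, ?_⟩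
      left_inv := fun a => rfl
      right_inv := fun a => rfl }
  · have h := congrArg Subtype.val (a.2 ⟨y, Subgroup.mem_zpowers y⟩)
    have h' : (y : G) * a.1 * (y : G)⁻¹ = a.1 := h
    exact Subgroup.mem_centralizer_singleton_iff.2 (mul_inv_eq_iff_eq_mul.1 h').symm
  · rintro ⟨_, k, rfl⟩
    have hc : Commute (a.1) (y : G) := Subgroup.mem_centralizer_singleton_iff.1 a.2.2
    refine Subtype.ext ?_
    show ((y ^ k : ↥(Subgroup.normalizer (A : Set G))) : G) * a.1 *
      ((y ^ k : ↥(Subgroup.normalizer (A : Set G))) : G)⁻¹ = a.1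
    rw [SubgroupClass.coe_zpow, ← (hc.zpow_right k).eq, mul_inv_cancel_right]

/-- The order of that subgroup of `A`. -/
theorem exists_exp (hA : Nat.card A = 243) (hcen : Subgroup.centralizer (A : Set G) = A) {p : ℕ}
    [Fact p.Prime] (hp3 : p ≠ 3) (y : ↥(Subgroup.normalizer (A : Set G))) (hy : orderOf y = p) :
    ∃ c < 5, Nat.card ↥(A ⊓ Subgroup.centralizer ({(y : G)} : Set G)) = 3 ^ c ∧
      243 % p = 3 ^ c % p := by
  have hd : Nat.card ↥(A ⊓ Subgroup.centralizer ({(y : G)} : Set G)) ∣ 3 ^ 5 :=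
    (Subgroup.card_dvd_of_le inf_le_left).trans (by rw [hA]; norm_num)
  obtain ⟨c, hc5, hc⟩ := (Nat.dvd_prime_pow Nat.prime_three).1 hd
  have hmod : Nat.card A % p = 3 ^ c % p := hc ▸ card_fixed y hy
  rw [hA] at hmod
  refine ⟨c, lt_of_le_of_ne hc5 fun h => ?_, hc, hmod⟩
  subst h
  have heq : A ⊓ Subgroup.centralizer ({(y : G)} : Set G) = A :=
    Subgroup.eq_of_le_of_card_ge inf_le_left (by rw [hc, hA]; norm_num)
  have hyA : (y : G) ∈ A := by
    refine hcen.le (Subgroup.mem_centralizer_iff.2 ?_)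
    intro a ha
    exact Subgroup.mem_centralizer_singleton_iff.1 (heq.ge ha).2
  have h1 := Subgroup.orderOf_dvd_natCard A hyA
  rw [Subgroup.orderOf_coe, hy, hA, show (243 : ℕ) = 3 ^ 5 by norm_num] at h1
  exact hp3 ((Nat.prime_dvd_prime_iff_eq Fact.out Nat.prime_three).1 (Nat.Prime.dvd_of_dvd_pow Fact.out h1))

/-- An element of odd order normalising a subgroup of order 3 centralises it. -/
theorem le_centralizer_of_normalises {K : Subgroup G} (hK : Nat.card K = 3) {y : G} {m : ℕ}
    (hm : y ^ (2 * m + 1) = 1) (hyK : ∀ k ∈ K, y * k * y⁻¹ ∈ K) :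
    K ≤ Subgroup.centralizer ({y} : Set G) := by
  haveI : Fact (Nat.Prime 3) := ⟨Nat.prime_three⟩
  intro x hx
  rw [Subgroup.mem_centralizer_singleton_iff]
  by_cases hx1 : x = 1
  · simp [hx1]
  have hord : orderOf x = 3 :=
    ((Nat.dvd_prime Nat.prime_three).1 (hK ▸ Subgroup.orderOf_dvd_natCard K hx)).resolve_left
      fun h => hx1 (orderOf_eq_one_iff.1 h)
  have hgen : Subgroup.zpowers x = K :=
    Subgroup.eq_of_le_of_card_ge (Subgroup.zpowers_le.2 hx) (by rw [hK, Nat.card_zpowers, hord])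
  have hmem := hyK x hx
  rw [← hgen, ← mem_powers_iff_mem_zpowers, Submonoid.mem_powers_iff] at hmem
  obtain ⟨k, hk⟩ := hmem
  rw [← pow_mod_orderOf, hord] at hk
  rcases (show k % 3 = 0 ∨ k % 3 = 1 ∨ k % 3 = 2 by omega) with h | h | h <;> rw [h] at hk
  · rw [pow_zero] at hk
    exact absurd (conj_eq_one_iff.1 hk.symm) hx1
  · rw [pow_one] at hk
    exact (mul_inv_eq_iff_eq_mul.1 hk.symm).symm
  · have h2 : y * y * x * (y * y)⁻¹ = x := by
      calc y * y * x * (y * y)⁻¹ = y * (y * x * y⁻¹) * y⁻¹ := by group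
        _ = y * x ^ 2 * y⁻¹ := by rw [hk]
        _ = (y * x * y⁻¹) ^ 2 := by rw [conj_pow]
        _ = x ^ 4 := by rw [← hk, ← pow_mul]
        _ = x := by rw [← pow_mod_orderOf x 4, hord]; norm_num
    have hc : Commute (y * y) x := mul_inv_eq_iff_eq_mul.1 h2
    have hy : y = ((y * y) ^ m)⁻¹ := by
      rw [eq_inv_iff_mul_eq_one, ← pow_two, ← pow_mul, ← pow_succ', hm]
    have := (hc.pow_left m).inv_left
    rw [← hy] at this
    exact this.eq.symm

/-- The subgroups of order 3 of `A`. -/
abbrev Line (A : Subgroup G) : Type _ := {K : Subgroup G // K ≤ A ∧ Nat.card K = 3}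

theorem card_line (hA : Nat.card A = 243) : Nat.card (Line A) ≤ 121 := by
  classical
  haveI : Fact (Nat.Prime 3) := ⟨Nat.prime_three⟩
  have hex : ∀ K : Line A, ∃ x ∈ K.1, x ≠ 1 ∧ Subgroup.zpowers x = K.1 := fun K => by
    obtain ⟨x, hx⟩ := exists_prime_orderOf_dvd_card' (G := K.1) 3 (dvd_of_eq K.2.2.symm)
    rw [← Subgroup.orderOf_coe] at hx
    exact ⟨x, x.2, fun h => by rw [h, orderOf_one] at hx; omega,
      Subgroup.eq_of_le_of_card_ge (Subgroup.zpowers_le.2 x.2) (by rw [K.2.2, Nat.card_zpowers, hx])⟩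
  choose x hx hx1 hxg using hex
  let f : Line A × Bool → A := fun a =>
    if a.2 then ⟨x a.1, a.1.2.1 (hx a.1)⟩ else ⟨(x a.1)⁻¹, inv_mem (a.1.2.1 (hx a.1))⟩
  have hz : ∀ a, Subgroup.zpowers (f a : G) = a.1.1 := by
    rintro ⟨K, _ | _⟩
    · show Subgroup.zpowers (x K)⁻¹ = K.1
      rw [Subgroup.zpowers_inv, hxg]
    · exact hxg K
  have hinj : Function.Injective f := by
    rintro ⟨K, a⟩ ⟨L, b⟩ h
    obtain rfl : K = L := Subtype.ext (by rw [← hz (K, a), ← hz (L, b), h])
    have hne : x K ≠ (x K)⁻¹ := fun e => by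
      have h3 : x K ^ 3 = 1 := orderOf_dvd_iff_pow_eq_one.1 (K.2.2 ▸ Subgroup.orderOf_dvd_natCard _ (hx K))
      rw [eq_inv_iff_mul_eq_one] at e
      rw [pow_succ, pow_two, e, one_mul] at h3
      exact hx1 K h3
    have h' := congrArg Subtype.val h
    cases a <;> cases b <;> simp only [f, if_true, if_false, Bool.false_eq_true] at h' <;> first
      | rfl
      | exact absurd h' hne
      | exact absurd h'.symm hne
  have h := Nat.card_le_card_of_injective f hinj
  rw [Nat.card_prod, hA, Nat.card_eq_fintype_card (α := Bool), Fintype.card_bool] at h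
  omega

end ThreeOrbit

open ThreeOrbit in
theorem lineStab_dvd {G : Type*} [Group G] [Finite G] (A : Subgroup G) (hA : Nat.card A = 243)
    (hcen : Subgroup.centralizer (A : Set G) = A)
    (hN : Nat.card ↥(Subgroup.normalizer (A : Set G)) = 243 * 7920) (L : Subgroup G) (hLA : L ≤ A)
    (hL : Nat.card L = 3)
    (h432 : 432 ∣ Nat.card ↥(Subgroup.normalizer (A : Set G) ⊓ Subgroup.normalizer (L : Set G) : Subgroup G)) :
    3 ^ 7 ∣ Nat.card ↥(Subgroup.normalizer (A : Set G) ⊓ Subgroup.normalizer (L : Set G) : Subgroup G) := by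
  classical
  set N := Subgroup.normalizer (A : Set G) with hNdef
  set S := N ⊓ Subgroup.normalizer (L : Set G) with hSdef
  set S' : Subgroup N := S.subgroupOf N
  have hcS : Nat.card S' = Nat.card S :=
    Nat.card_congr (Subgroup.subgroupOfEquivOfLe inf_le_left).toEquiv
  have hAc : ∀ a ∈ A, ∀ b ∈ A, a * b = b * a := fun a ha b hb => by
    rw [← hcen] at hb
    exact Subgroup.mem_centralizer_iff.1 hb a ha
  -- the point map
  have hconj : ∀ g : N, ∀ k ∈ L, (g : G) * k * (g : G)⁻¹ ∈ A := fun g k hk =>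
    (Subgroup.mem_normalizer_iff.1 g.2 k).1 (hLA hk)
  let pt : N → Line A := fun g => ⟨L.map (MulAut.conj (g : G)).toMonoidHom,
    by rintro _ ⟨k, hk, rfl⟩; exact hconj g k hk,
    by rw [Subgroup.card_map_of_injective (MulEquiv.injective _), hL]⟩
  have hpt : ∀ g h : N, g⁻¹ * h ∈ S' ↔ pt g = pt h := by
    intro g h
    have e : (pt g = pt h) ↔ L.map (MulAut.conj ((g : G)⁻¹ * h)).toMonoidHom = L := by
      rw [Subtype.ext_iff]
      show L.map (MulAut.conj (g : G)).toMonoidHom = L.map (MulAut.conj (h : G)).toMonoidHom ↔ _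
      rw [show (MulAut.conj ((g : G)⁻¹ * h)).toMonoidHom =
        (MulAut.conj (g : G)⁻¹).toMonoidHom.comp (MulAut.conj (h : G)).toMonoidHom by
          ext; simp [mul_assoc], ← Subgroup.map_map]
      have key : ∀ X : Subgroup G, ∀ a b : G, a * b = 1 →
          (X.map (MulAut.conj a).toMonoidHom).map (MulAut.conj b).toMonoidHom = X := by
        intro X a b hab
        rw [Subgroup.map_map]
        convert Subgroup.map_id X
        ext
        have hba : b * a = 1 := mul_eq_one_comm.1 hab
        simp [eq_inv_of_mul_eq_one_left hba, mul_assoc]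
      constructor
      · intro e
        rw [← e]
        exact key L _ _ (mul_inv_cancel _)
      · intro e
        have h' := congrArg (fun X : Subgroup G => X.map (MulAut.conj (g : G)).toMonoidHom) e
        simp only [key _ _ _ (inv_mul_cancel _)] at h'
        exact h'.symm
    rw [e]
    show (g : G)⁻¹ * h ∈ S ↔ _
    rw [hSdef, Subgroup.mem_inf]
    constructor
    · rintro ⟨-, hn⟩
      refine Subgroup.eq_of_le_of_card_ge ?_
        (by rw [Subgroup.card_map_of_injective (MulEquiv.injective _)])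
      rintro _ ⟨k, hk, rfl⟩
      exact (Subgroup.mem_normalizer_iff.1 hn k).1 hk
    · intro e'
      refine ⟨(g⁻¹ * h).2, Subgroup.mem_normalizer_fintype fun k hk => ?_⟩
      conv => arg 1; rw [← e']
      exact ⟨k, hk, rfl⟩
  let F : N ⧸ S' → Line A := Quotient.lift pt fun g h e => (hpt g h).1 (QuotientGroup.leftRel_apply.1 e)
  have hF : Function.Injective F := by
    intro a b
    induction a using QuotientGroup.induction_on
    induction b using QuotientGroup.induction_on
    exact fun e => QuotientGroup.eq.2 ((hpt _ _).2 e)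
  have hn121 : S'.index ≤ 121 := by
    rw [Subgroup.index_eq_card]
    exact (Nat.card_le_card_of_injective F hF).trans (card_line hA)
  have hidx := S'.card_mul_index
  rw [hcS, hN] at hidx
  -- invariant lines
  have hfix : ∀ {p : ℕ} (m : ℕ), p = 2 * m + 1 → ∀ y : N, orderOf y = p → ∀ g : N,
      (QuotientGroup.mk (y * g) : N ⧸ S') = QuotientGroup.mk g → (pt g).1 ≤ A ⊓ Subgroup.centralizer ({(y : G)} : Set G) := by
    intro p m hm y hy g hyg
    have h := (hpt (y * g) g).1 (QuotientGroup.eq.1 hyg)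
    refine le_inf (pt g).2.1 (le_centralizer_of_normalises (pt g).2.2 (m := m) ?_ fun k hk => ?_)
    · rw [← hm, ← hy, ← SubmonoidClass.coe_pow, pow_orderOf_eq_one, Subgroup.coe_one]
    · obtain ⟨l, hl, rfl⟩ := hk
      have h' : (y : G) * ((g : G) * l * (g : G)⁻¹) * (y : G)⁻¹ ∈ (pt (y * g)).1 := ⟨l, hl, by
        show (y : G) * g * l * ((y : G) * g)⁻¹ = _
        group⟩
      rw [h] at h'
      exact h'
  -- eleven divides the length of the orbit
  haveI : Fact (Nat.Prime 11) := ⟨by norm_num⟩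
  haveI : Fact (Nat.Prime 5) := ⟨by norm_num⟩
  have h11 : ¬ 11 ∣ Nat.card S := by
    intro hd
    obtain ⟨y, hy⟩ := exists_prime_orderOf_dvd_card' (G := S') 11 (hcS ▸ hd)
    rw [← Subgroup.orderOf_coe] at hy
    obtain ⟨c, hc5, hc, hmod⟩ := exists_exp hA hcen (by norm_num) (y : N) hy
    have hle := hfix 5 (by norm_num) (y : N) hy 1 (by rw [mul_one]; exact QuotientGroup.eq.2 (by simpa using inv_mem y.2))
    have h3 := Subgroup.card_le_of_le hle
    rw [(pt 1).2.2, hc] at h3
    interval_cases c <;> omega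
  have h5 : 5 ∣ Nat.card S → S'.index % 5 ≤ 1 := by
    intro hd
    obtain ⟨y, hy⟩ := exists_prime_orderOf_dvd_card' (G := S') 5 (hcS ▸ hd)
    rw [← Subgroup.orderOf_coe] at hy
    obtain ⟨c, hc5, hc, hmod⟩ := exists_exp hA hcen (by norm_num) (y : N) hy
    have hc1 : c = 1 := by interval_cases c <;> omega
    subst hc1
    set K := Subgroup.zpowers (y : N)
    have hK : IsPGroup 5 K := IsPGroup.of_card (n := 1) (by rw [Nat.card_zpowers, hy, pow_one])
    have hsub : Subsingleton (MulAction.fixedPoints K (N ⧸ S')) := by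
      refine ⟨fun ⟨a, ha⟩ ⟨b, hb⟩ => Subtype.ext (hF (Subtype.ext ?_))⟩
      induction a using QuotientGroup.induction_on with | _ g => ?_
      induction b using QuotientGroup.induction_on with | _ h => ?_
      have key : ∀ g : N, (QuotientGroup.mk g : N ⧸ S') ∈ MulAction.fixedPoints K (N ⧸ S') →
          (pt g).1 = A ⊓ Subgroup.centralizer ({((y : N) : G)} : Set G) := fun g hg =>
        Subgroup.eq_of_le_of_card_ge
          (hfix 2 (by norm_num) (y : N) hy g (hg ⟨(y : N), Subgroup.mem_zpowers _⟩))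
          (by rw [hc, (pt g).2.2, pow_one])
      exact (key g ha).trans (key h hb).symm
    have hmod' := hK.card_modEq_card_fixedPoints (N ⧸ S')
    rw [← Subgroup.index_eq_card] at hmod'
    have h1 : Nat.card (MulAction.fixedPoints K (N ⧸ S')) ≤ 1 := Finite.card_le_one_iff_subsingleton.2 hsub
    have h' : S'.index % 5 = Nat.card (MulAction.fixedPoints K (N ⧸ S')) % 5 := hmod'
    omega
  -- arithmetic
  have hA' : 243 ∣ Nat.card S := hA ▸ Subgroup.card_dvd_of_le (le_inf Subgroup.le_normalizer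
    fun a ha => Subgroup.mem_normalizer_fintype fun k hk => by
      rw [hAc a ha k (hLA hk), mul_inv_cancel_right]; exact hk)
  obtain ⟨q, hq⟩ : 3888 ∣ Nat.card S := by
    have := Nat.lcm_dvd hA' h432
    exact (show 3888 ∣ Nat.lcm 243 432 by decide +kernel).trans this
  rw [hq] at hidx h11 h5 ⊢
  have hq495 : q * S'.index = 495 := by nlinarith
  have hqd : q ∈ Nat.divisors 495 := Nat.mem_divisors.2 ⟨⟨_, hq495.symm⟩, by norm_num⟩
  rw [show Nat.divisors 495 = {1, 3, 5, 9, 11, 15, 33, 45, 55, 99, 165, 495} by decide +kernel] at hqd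
  simp only [Finset.mem_insert, Finset.mem_singleton] at hqd
  rcases hqd with rfl | rfl | rfl | rfl | rfl | rfl | rfl | rfl | rfl | rfl | rfl | rfl <;>
    first | (norm_num; done) | (exfalso; omega) | (exfalso; have := h5 (by norm_num); omega) | (norm_num at h11; done)

end CfsgLib.SuzukiType
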