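import Mathlib.GroupTheory.PGroup
import Mathlib.GroupTheory.Perm.Basic
import Mathlib.Data.Finite.Perm
import Mathlib.GroupTheory.Commutator.Basic
import Mathlib.GroupTheory.GroupAction.Quotient
import Mathlib.Algebra.Group.Subgroup.Pointwise
import Mathlib.Data.ZMod.Basic
import Mathlib.GroupTheory.Sylow

/-!
A distinguished element of a self-centralising elementary abelian group of order 243 whose normaliser has eleven
conjugate lines lies in the commutator with the centralizer of the element.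
-/

set_option autoImplicit false
set_option linter.unusedSectionVars false
set_option linter.style.haveILetI false

set_option maxHeartbeats 1000000

namespace CfsgLib.SuzukiType

open scoped Pointwise commutatorElement

variable {G : Type*} [Group G] [Finite G]

/-- The conjugate of a cyclic group. -/
theorem smul_zpowers (g x : G) :
    MulAut.conj g • Subgroup.zpowers x = Subgroup.zpowers (g * x * g⁻¹) := by
  show Subgroup.map (MulAut.conj g).toMonoidHom (Subgroup.zpowers x) = _
  rw [MonoidHom.map_zpowers]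
  rfl

/-- An element of order five normalising a group of order three centralises it. -/
theorem commute_of_smul_eq {f x : G} (hf : f ^ 5 = 1) (hx : x ^ 3 = 1)
    (h : MulAut.conj f • Subgroup.zpowers x = Subgroup.zpowers x) : Commute f x := by
  rw [smul_zpowers] at h
  obtain ⟨k, hk⟩ := Subgroup.mem_zpowers_iff.1 (h ▸ Subgroup.mem_zpowers (f * x * f⁻¹))
  have hx' : (x : G) ^ (3 : ℤ) = 1 := by rw [zpow_ofNat, hx]
  have hk' : x ^ (k % 3) = f * x * f⁻¹ := by
    rw [← hk]
    conv_rhs => rw [← Int.emod_add_mul_ediv k 3, zpow_add, zpow_mul, hx', one_zpow, mul_one]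
  have hr : k % 3 = 0 ∨ k % 3 = 1 ∨ k % 3 = 2 := by omega
  rcases hr with e | e | e <;> rw [e] at hk'
  · rw [zpow_zero] at hk'
    rw [show x = 1 from conj_eq_one_iff.1 hk'.symm]
    exact Commute.one_right f
  · rw [zpow_one] at hk'
    exact mul_inv_eq_iff_eq_mul.1 hk'.symm
  · have h2 : ∀ n : ℕ, f ^ n * x * (f ^ n)⁻¹ = x ^ ((2 : ℕ) ^ n) := by
      intro n
      induction n with
      | zero => simp
      | succ n ih =>
        rw [pow_succ', mul_inv_rev, show f * f ^ n * x * ((f ^ n)⁻¹ * f⁻¹) = f * (f ^ n * x * (f ^ n)⁻¹) * f⁻¹ by group,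
          ih, ← conj_pow, ← hk', zpow_ofNat, ← pow_mul, pow_succ']
    have h5 := h2 5
    rw [hf, one_mul, inv_one, mul_one, show (2 : ℕ) ^ 5 = 3 * 10 + 2 by norm_num, pow_add, pow_mul, hx, one_pow,
      one_mul, pow_two] at h5
    rw [show x = 1 from by
      have := congrArg (fun t => x⁻¹ * t) h5
      simpa using this.symm]
    exact Commute.one_right f

/-- The element lies in the commutator of the group with the centralizer. -/
theorem mem_commutator_of_line (A : Subgroup G) (hA : Nat.card A = 243)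
    (hab : ∀ v ∈ A, ∀ w ∈ A, v * w = w * v) (hexp : ∀ v ∈ A, v ^ 3 = 1)
    (hcen : Subgroup.centralizer (A : Set G) = A)
    (hN : Nat.card ↥(Subgroup.normalizer (A : Set G)) = 243 * 7920) {e : G} (he : e ∈ A) (he1 : e ≠ 1)
    (M : Subgroup G) (hM : M = Subgroup.normalizer (A : Set G) ⊓ Subgroup.centralizer ({e} : Set G))
    (hMc : Nat.card M = 243 * 360)
    (hsimple : ∀ K : Subgroup G, A ≤ K → K ≤ M → (∀ m ∈ M, ∀ k ∈ K, m * k * m⁻¹ ∈ K) → K = A ∨ K = M)
    (hNL : Nat.card ↥(Subgroup.normalizer (A : Set G) ⊓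
      Subgroup.normalizer ((Subgroup.zpowers e : Subgroup G) : Set G) : Subgroup G) = 243 * 720)
    {u e' : G} (hu : u ∈ M) (hc : ∃ g ∈ Subgroup.normalizer (A : Set G), g * e * g⁻¹ = e')
    (hne : e' ∉ Subgroup.zpowers e) (hinv : u * e' * u⁻¹ = e'⁻¹) : e ∈ ⁅A, M⁆ := by
  classical
  set N := Subgroup.normalizer (A : Set G) with hNdef
  set D := ⁅A, M⁆ with hD
  have hNA : ∀ g ∈ N, ∀ x ∈ A, g * x * g⁻¹ ∈ A := fun g hg x hx => (Subgroup.mem_normalizer_iff.1 hg x).1 hx
  have hMN : M ≤ N := hM ▸ inf_le_left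
  have hMe : ∀ m ∈ M, Commute m e := fun m hm => by
    rw [hM] at hm
    exact Subgroup.mem_centralizer_singleton_iff.1 hm.2
  have hAM : A ≤ M := fun x hx => by
    rw [hM]
    exact ⟨Subgroup.le_normalizer hx, Subgroup.mem_centralizer_singleton_iff.2 (hab x hx e he)⟩
  have hDM : ∀ m ∈ M, ∀ x ∈ D, m * x * m⁻¹ ∈ D := by
    intro m hm x hx
    have h : D ≤ D.comap (MulAut.conj m).toMonoidHom := by
      rw [hD, Subgroup.commutator_le]
      intro a ha b hb
      show m * ⁅a, b⁆ * m⁻¹ ∈ ⁅A, M⁆
      rw [show m * ⁅a, b⁆ * m⁻¹ = ⁅m * a * m⁻¹, m * b * m⁻¹⁆ by simp only [commutatorElement_def]; group]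
      exact Subgroup.commutator_mem_commutator (hNA m (hMN hm) a ha) (mul_mem (mul_mem hm hb) (inv_mem hm))
    exact h hx
  obtain ⟨g', hg', hge'⟩ := hc
  have he'A : e' ∈ A := hge' ▸ hNA g' hg' e he
  have he'D : e' ∈ D := by
    have h := Subgroup.commutator_mem_commutator (H₁ := A) (H₂ := M) he'A hu
    have e1 : ⁅e', u⁆ = e' ^ 2 := by
      rw [commutatorElement_def, show e' * u * e'⁻¹ * u⁻¹ = e' * (u * e' * u⁻¹)⁻¹ by group, hinv, inv_inv, pow_two]
    rw [e1] at h
    have := pow_mem h 2
    rwa [← pow_mul, show 2 * 2 = 3 + 1 by norm_num, pow_succ, hexp e' he'A, one_mul] at this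
  -- the action on the lines
  let _ : MulAction G (Subgroup G) := MulAction.compHom (Subgroup G) MulAut.conj
  have hsm : ∀ (g x : G), g • Subgroup.zpowers x = Subgroup.zpowers (g * x * g⁻¹) := smul_zpowers
  set L0 : Subgroup G := Subgroup.zpowers e with hL0
  let lines : Set (Subgroup G) := MulAction.orbit N L0
  have hlines : lines.ncard = 11 := by
    have hs : MulAction.stabilizer N L0 = (N ⊓ Subgroup.normalizer (L0 : Set G)).subgroupOf N := by
      ext ⟨g, hg⟩
      rw [MulAction.mem_stabilizer_iff, Subgroup.mem_subgroupOf, Subgroup.mem_inf,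
        Subgroup.mem_normalizer_iff]
      show MulAut.conj g • L0 = L0 ↔ g ∈ N ∧ _
      constructor
      · intro h
        refine ⟨hg, fun x => ?_⟩
        conv_rhs => rw [← h]
        show x ∈ L0 ↔ MulAut.conj g • x ∈ MulAut.conj g • L0
        rw [Subgroup.smul_mem_pointwise_smul_iff]
      · rintro ⟨-, h⟩
        ext x
        rw [Subgroup.mem_pointwise_smul_iff_inv_smul_mem, MulAut.smul_def, ← map_inv, MulAut.conj_apply,
          Subgroup.mem_normalizer_iff.1 h _]
        simp [mul_assoc]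
    have h := MulAction.index_stabilizer N L0
    have h2 := (MulAction.stabilizer N L0).card_mul_index
    have hidx : (MulAction.stabilizer N L0).index = 11 := by
      rw [hs, Nat.card_congr (Subgroup.subgroupOfEquivOfLe (inf_le_left : N ⊓ Subgroup.normalizer (L0 : Set G) ≤ N)).toEquiv,
        hNL, hN] at h2
      rw [← hs] at h2
      omega
    rw [← hidx, h]
  have hline : ∀ L ∈ lines, ∃ g ∈ N, L = Subgroup.zpowers (g * e * g⁻¹) := by
    rintro _ ⟨g, rfl⟩
    exact ⟨g, g.2, hsm g e⟩
  have hfixe : ∀ m ∈ M, (m : G) • L0 = L0 := fun m hm => by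
    rw [hsm, (hMe m hm).eq, mul_inv_cancel_right]
  -- an element of order five
  haveI : Fact (Nat.Prime 5) := ⟨Nat.prime_five⟩
  obtain ⟨f, hf⟩ := exists_prime_orderOf_dvd_card' (G := M) 5 (by rw [hMc]; norm_num)
  have hf5 : (f : G) ^ 5 = 1 := by
    rw [← Subgroup.coe_pow, ← hf, pow_orderOf_eq_one, Subgroup.coe_one]
  have hP : IsPGroup 5 (Subgroup.zpowers f) :=
    IsPGroup.of_card (n := 1) (by rw [Nat.card_zpowers, hf, pow_one])
  -- its fixed points in the group
  have hCA : ∀ x ∈ A, Commute (f : G) x → x ∈ L0 := by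
    let _ : MulAction (Subgroup.zpowers f) A :=
      { smul := fun k x => ⟨((k : M) : G) * x * ((k : M) : G)⁻¹, hNA _ (hMN (k : M).2) x x.2⟩
        one_smul := fun x => Subtype.ext (by show (1 : G) * x * (1 : G)⁻¹ = x; group)
        mul_smul := fun k l x => Subtype.ext (by
          show ((k : M) : G) * (l : M) * x * (((k : M) : G) * (l : M))⁻¹ = _
          show _ = ((k : M) : G) * (((l : M) : G) * x * ((l : M) : G)⁻¹) * ((k : M) : G)⁻¹
          group) }
    set W := A ⊓ Subgroup.centralizer ({(f : G)} : Set G) with hW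
    have hfix : Nat.card (MulAction.fixedPoints (Subgroup.zpowers f) A) = Nat.card W := by
      refine Nat.card_congr
        { toFun := fun x => ⟨x.1, x.1.2, Subgroup.mem_centralizer_singleton_iff.2 ?_⟩
          invFun := fun x => ⟨⟨x.1, x.2.1⟩, fun k => ?_⟩
          left_inv := fun x => rfl
          right_inv := fun x => rfl }
      · have := congrArg Subtype.val (x.2 ⟨f, Subgroup.mem_zpowers f⟩)
        exact (mul_inv_eq_iff_eq_mul.1 this).symm
      · refine Subtype.ext ?_
        show ((k : M) : G) * x.1 * ((k : M) : G)⁻¹ = x.1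
        obtain ⟨n, hn⟩ := Subgroup.mem_zpowers_iff.1 k.2
        have hc : Commute (f : G) x.1 := (Subgroup.mem_centralizer_singleton_iff.1 x.2.2 : _ = _).symm
        rw [← hn, SubgroupClass.coe_zpow, (hc.zpow_left n).eq, mul_inv_cancel_right]
    have hmod := hP.card_modEq_card_fixedPoints A
    rw [hfix, hA] at hmod
    obtain ⟨k, hk, hcard⟩ := (Nat.dvd_prime_pow Nat.prime_three).1
      (show Nat.card W ∣ 3 ^ 5 by rw [show 3 ^ 5 = Nat.card A by rw [hA]; norm_num]; exact Subgroup.card_dvd_of_le inf_le_left)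
    rw [hcard] at hmod
    have h15 : k = 1 ∨ k = 5 := by
      have : k = 0 ∨ k = 1 ∨ k = 2 ∨ k = 3 ∨ k = 4 ∨ k = 5 := by omega
      rcases this with rfl | rfl | rfl | rfl | rfl | rfl <;> simp [Nat.ModEq] at hmod ⊢
    rcases h15 with rfl | rfl
    · have heW : L0 ≤ W := Subgroup.zpowers_le.2
        ⟨he, Subgroup.mem_centralizer_singleton_iff.2 (hMe f f.2).symm.eq⟩
      have hcard0 : Nat.card L0 = 3 := by
        rw [Nat.card_zpowers]
        exact orderOf_eq_prime (hexp e he) he1
      have heq : L0 = W := Subgroup.eq_of_le_of_card_ge heW (by rw [hcard0, hcard, pow_one])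
      intro x hx hxc
      rw [heq]
      exact ⟨hx, Subgroup.mem_centralizer_singleton_iff.2 hxc.symm.eq⟩
    · exfalso
      have hWA : W = A := Subgroup.eq_of_le_of_card_ge inf_le_left (by rw [hA, hcard]; norm_num)
      have hfA : (f : G) ∈ A := by
        rw [← hcen, Subgroup.mem_centralizer_iff]
        intro x hx
        exact (Subgroup.mem_centralizer_singleton_iff.1 (hWA.symm ▸ hx : x ∈ W).2)
      have h3 := hexp _ hfA
      have h5 : (f : G) = 1 := by
        have : (f : G) ^ 6 = 1 := by rw [show 6 = 3 * 2 by norm_num, pow_mul, h3, one_pow]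
        rwa [pow_succ, hf5, one_mul] at this
      rw [show f = 1 from Subtype.ext h5, orderOf_one] at hf
      norm_num at hf
  -- the orbit of the other line
  have hkey : ∀ g ∈ N, g * e * g⁻¹ ∉ L0 → g * e * g⁻¹ ∈ D := by
    set L' := Subgroup.zpowers e' with hL'
    let O : Set (Subgroup G) := MulAction.orbit M L'
    have hL'l : L' ∈ lines := ⟨⟨g', hg'⟩, (hsm g' e).trans (by rw [hge'])⟩
    have hOl : O ⊆ lines \ {L0} := by
      rintro _ ⟨m, rfl⟩
      obtain ⟨⟨k, hk⟩, hkL⟩ := hL'l
      have hk' : k • L0 = L' := hkL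
      refine ⟨⟨⟨(m : G) * k, mul_mem (hMN m.2) hk⟩, ?_⟩, fun h => hne ?_⟩
      · show ((m : G) * k) • L0 = (m : G) • L'
        rw [mul_smul, hk']
      · have h1 : (m : G) • L' = L0 := h
        have h2 : L' = L0 := by
          rw [← inv_smul_smul (m : G) L', h1, hfixe _ (inv_mem m.2)]
        show e' ∈ L0
        rw [← h2]
        exact Subgroup.mem_zpowers e'
    have hO10 : O.ncard = 10 := by
      have hle : O.ncard ≤ 10 := by
        have h1 := Set.ncard_le_ncard hOl
        have h2 : (lines \ {L0}).ncard + 1 = lines.ncard :=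
          Set.ncard_sdiff_singleton_add_one (MulAction.mem_orbit_self L0)
        omega
      have hpos : 0 < O.ncard := (Set.ncard_pos (Set.toFinite _)).2 ⟨L', MulAction.mem_orbit_self L'⟩
      let _ : MulAction (Subgroup.zpowers f) O := MulAction.compHom O (Subgroup.zpowers f).subtype
      have h0 : Nat.card (MulAction.fixedPoints (Subgroup.zpowers f) O) = 0 := by
        rw [Nat.card_eq_zero]
        refine Or.inl ⟨fun x => ?_⟩
        have hx := congrArg Subtype.val (x.2 ⟨f, Subgroup.mem_zpowers f⟩)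
        obtain ⟨g, hg, hL⟩ := hline _ (hOl x.1.2).1
        refine (hOl x.1.2).2 ?_
        have hxf : (f : G) • (x.1 : Subgroup G) = x.1 := hx
        rw [hL] at hxf
        have hxA : g * e * g⁻¹ ∈ A := hNA g hg e he
        have hin := hCA _ hxA (commute_of_smul_eq hf5 (hexp _ hxA) hxf)
        show (x.1 : Subgroup G) = L0
        rw [hL]
        refine Subgroup.eq_of_le_of_card_ge (Subgroup.zpowers_le.2 hin) ?_
        rw [Nat.card_zpowers, Nat.card_zpowers, orderOf_eq_prime (hexp e he) he1,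
          orderOf_eq_prime (hexp _ hxA) (fun h1 => he1 (conj_eq_one_iff.1 h1))]
      have hmod := hP.card_modEq_card_fixedPoints O
      rw [h0, Nat.card_coe_set_eq] at hmod
      have hdvd : 5 ∣ O.ncard := Nat.modEq_zero_iff_dvd.1 hmod
      by_contra h10
      have h5 : Nat.card O = 5 := by rw [Nat.card_coe_set_eq]; omega
      obtain ⟨φ, hφ⟩ : ∃ φ : M →* Equiv.Perm O, ∀ (m : M) (x : O), φ m x = m • x :=
        ⟨MulAction.toPermHom M O, fun _ _ => rfl⟩
      have hA0 : A ≤ φ.ker.map M.subtype := by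
        intro a ha
        refine ⟨⟨a, hAM ha⟩, MonoidHom.mem_ker.2 (Equiv.ext fun x => (hφ _ x).trans (Subtype.ext ?_)), rfl⟩
        obtain ⟨g, hg, hL⟩ := hline _ (hOl x.2).1
        show a • (x : Subgroup G) = x
        rw [hL, hsm, hab a ha _ (hNA g hg e he), mul_inv_cancel_right]
      have hnorm : ∀ m ∈ M, ∀ k ∈ φ.ker.map M.subtype, m * k * m⁻¹ ∈ φ.ker.map M.subtype := by
        rintro m hm _ ⟨k, hk, rfl⟩
        refine ⟨(⟨m, hm⟩ : M) * k * (⟨m, hm⟩ : M)⁻¹, MonoidHom.mem_ker.2 ?_, rfl⟩
        rw [map_mul, map_mul, map_inv, MonoidHom.mem_ker.1 hk, mul_one, mul_inv_cancel]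
      rcases hsimple _ hA0 (Subgroup.map_subtype_le _) hnorm with hK | hK
      · have hq : Nat.card φ.range * Nat.card A = Nat.card M := by
          rw [← hK, Subgroup.card_map_of_injective M.subtype_injective,
            ← Nat.card_congr (QuotientGroup.quotientKerEquivRange φ).toEquiv]
          exact (Subgroup.card_eq_card_quotient_mul_card_subgroup φ.ker).symm
        rw [hA, hMc] at hq
        have hle' : Nat.card φ.range ∣ Nat.card (Equiv.Perm O) := Subgroup.card_subgroup_dvd_card _
        rw [Nat.card_perm, h5, show (Nat.factorial 5) = 120 by rfl, show Nat.card φ.range = 360 by omega] at hle'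
        norm_num at hle'
      · have hone : ∀ x : O, x = ⟨L', MulAction.mem_orbit_self L'⟩ := by
          rintro ⟨_, m, rfl⟩
          obtain ⟨k, hk, hkm⟩ := (hK.ge m.2 : (m : G) ∈ φ.ker.map M.subtype)
          obtain rfl : k = m := Subtype.ext hkm
          exact Subtype.ext (congrArg Subtype.val
            ((hφ k ⟨L', MulAction.mem_orbit_self L'⟩).symm.trans
              (Equiv.congr_fun (MonoidHom.mem_ker.1 hk) ⟨L', MulAction.mem_orbit_self L'⟩)))
        have : Nat.card O ≤ 1 := Finite.card_le_one_iff_subsingleton.2 ⟨fun a b => (hone a).trans (hone b).symm⟩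
        omega
    have hOeq : O = lines \ {L0} := Set.eq_of_subset_of_ncard_le hOl (by
      have h2 : (lines \ {L0}).ncard + 1 = lines.ncard :=
        Set.ncard_sdiff_singleton_add_one (MulAction.mem_orbit_self L0)
      omega)
    intro g hg hgn
    have hL : Subgroup.zpowers (g * e * g⁻¹) ∈ O := by
      rw [hOeq]
      exact ⟨⟨⟨g, hg⟩, hsm g e⟩, fun h => hgn ((h : Subgroup.zpowers (g * e * g⁻¹) = L0) ▸ Subgroup.mem_zpowers _)⟩
    obtain ⟨m, hm⟩ := hL
    have hm' : Subgroup.zpowers ((m : G) * e' * (m : G)⁻¹) = Subgroup.zpowers (g * e * g⁻¹) := (hsm m e').symm.trans hm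
    exact (Subgroup.zpowers_le.2 (hDM m m.2 e' he'D)) (hm' ▸ Subgroup.mem_zpowers _)
  -- six lines would generate too much
  by_contra hDe
  obtain ⟨T, hT, hT6⟩ := Set.exists_subset_card_eq (s := lines) (n := 6) (by omega)
  obtain ⟨F, hF⟩ : ∃ F : Fin 6 ↪ Subgroup G, Set.range F ⊆ lines := by
    have hc' : Nat.card T = 6 := by rw [Nat.card_coe_set_eq, hT6]
    obtain ⟨eqv⟩ : Nonempty (Fin 6 ≃ T) := ⟨(Finite.equivFinOfCardEq hc').symm⟩
    exact ⟨eqv.toEmbedding.trans (Function.Embedding.subtype _), by rintro _ ⟨i, rfl⟩; exact hT (eqv i).2⟩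
  choose g hg hgF using fun i => hline (F i) (hF ⟨i, rfl⟩)
  set x : Fin 6 → G := fun i => g i * e * (g i)⁻¹ with hx
  have hxA : ∀ i, x i ∈ A := fun i => hNA _ (hg i) e he
  have hout : ∀ i (S : Set (Fin 6)), i ∉ S → x i ∉ Subgroup.closure (x '' S) := by
    intro i S hiS hmem
    apply hDe
    have hsub : Subgroup.closure (x '' S) ≤ D.comap (MulAut.conj (g i)⁻¹).toMonoidHom := by
      rw [Subgroup.closure_le]
      rintro _ ⟨j, hj, rfl⟩
      show (g i)⁻¹ * x j * (g i)⁻¹⁻¹ ∈ D
      rw [show (g i)⁻¹ * x j * (g i)⁻¹⁻¹ = (g i)⁻¹ * g j * e * ((g i)⁻¹ * g j)⁻¹ by simp only [hx]; group]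
      refine hkey _ (mul_mem (inv_mem (hg i)) (hg j)) fun h => hiS ?_
      have hxo : ∀ k, orderOf (x k) = 3 := fun k =>
        orderOf_eq_prime (hexp _ (hxA k)) fun h1 => he1 (conj_eq_one_iff.1 h1)
      have hle : Subgroup.zpowers (x j) ≤ Subgroup.zpowers (x i) := Subgroup.zpowers_le.2 (by
        obtain ⟨n, hn⟩ := Subgroup.mem_zpowers_iff.1 h
        refine ⟨n, ?_⟩
        show (g i * e * (g i)⁻¹) ^ n = x j
        rw [conj_zpow, hn]
        simp only [hx]
        group)
      have : j = i := F.injective (by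
        rw [hgF j, hgF i]
        exact Subgroup.eq_of_le_of_card_ge hle (by rw [Nat.card_zpowers, Nat.card_zpowers, hxo, hxo]))
      exact this ▸ hj
    have := hsub hmem
    simpa [hx, mul_assoc] using this
  have hgrow : ∀ k : ℕ, k ≤ 6 → 3 ^ k ≤ Nat.card (Subgroup.closure (x '' {i | i.val < k})) := by
    intro k
    induction k with
    | zero => intro _; rw [pow_zero]; exact Nat.card_pos
    | succ k ih =>
      intro hk
      have hlt : Subgroup.closure (x '' {i | i.val < k}) ≤ Subgroup.closure (x '' {i | i.val < k + 1}) :=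
        Subgroup.closure_mono (Set.image_mono fun i (hi : i.val < k) => Nat.lt_succ_of_lt hi)
      have hnew : x ⟨k, by omega⟩ ∈ Subgroup.closure (x '' {i | i.val < k + 1}) :=
        Subgroup.subset_closure ⟨_, Nat.lt_succ_self k, rfl⟩
      obtain ⟨m, hm⟩ := Subgroup.card_dvd_of_le hlt
      have hmA : m ∣ 3 ^ 5 := by
        rw [show 3 ^ 5 = Nat.card A by rw [hA]; norm_num]
        exact (Dvd.intro_left _ hm.symm).trans (Subgroup.card_dvd_of_le
          ((Subgroup.closure_le _).2 (by rintro _ ⟨i, -, rfl⟩; exact hxA i)))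
      obtain ⟨j, -, rfl⟩ := (Nat.dvd_prime_pow Nat.prime_three).1 hmA
      rcases Nat.eq_zero_or_pos j with rfl | hj
      · exfalso
        rw [pow_zero, mul_one] at hm
        refine hout ⟨k, by omega⟩ {i | i.val < k} (lt_irrefl k) ?_
        rw [Subgroup.eq_of_le_of_card_ge hlt (le_of_eq hm)]
        exact hnew
      · rw [hm, pow_succ]
        exact Nat.mul_le_mul (ih (by omega)) (Nat.le_self_pow (by omega) 3)
  have h6 := hgrow 6 le_rfl
  have hle : Nat.card (Subgroup.closure (x '' {i | i.val < 6})) ≤ 243 :=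
    hA ▸ Subgroup.card_le_of_le ((Subgroup.closure_le _).2 (by rintro _ ⟨i, -, rfl⟩; exact hxA i))
  omega

end CfsgLib.SuzukiType
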