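import Cfsg.Agent.Lib.U43Recog.Defs
import Mathlib.GroupTheory.Sylow
import Mathlib.GroupTheory.Commutator.Basic
import Mathlib.GroupTheory.Abelianization.Defs

/-!
The quotient of the centraliser of an element of order three by that element satisfies the
hypotheses for the recognition of `PSU₄(3)`.
-/

set_option autoImplicit false
set_option linter.unusedSectionVars false
set_option linter.style.haveILetI false

namespace CfsgLib.SuzukiType

open CfsgLib.U43Recog
open scoped commutatorElement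

universe u₀

theorem quot_hyp {G : Type u₀} [Group G] [Finite G] {A : Subgroup G} {e : G}
    (hA : Nat.card A = 243) (hab : ∀ v ∈ A, ∀ w ∈ A, v * w = w * v) (hexp : ∀ v ∈ A, v ^ 3 = 1)
    (hcen : Subgroup.centralizer (A : Set G) = A) (he : e ∈ A) (he1 : e ≠ 1)
    (C : Subgroup G) (hC : C = Subgroup.centralizer ({e} : Set G)) (hCc : Nat.card C = 9797760)
    (hMc : Nat.card ↥(Subgroup.normalizer (A : Set G) ⊓ C : Subgroup G) = 243 * 360)
    (hsimple : ∀ K : Subgroup G, A ≤ K → K ≤ Subgroup.normalizer (A : Set G) ⊓ C →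
      (∀ m ∈ Subgroup.normalizer (A : Set G) ⊓ C, ∀ k ∈ K, m * k * m⁻¹ ∈ K) →
      K = A ∨ K = Subgroup.normalizer (A : Set G) ⊓ C)
    (hclosed : ∀ g : G, (∀ v ∈ A, g * v * g⁻¹ ∈ Subgroup.normalizer (A : Set G)) →
      g ∈ Subgroup.normalizer (A : Set G))
    (Yc : Subgroup C) [Yc.Normal] (hYc : Yc = (Subgroup.zpowers e).subgroupOf C) :
    Hyp ((A.subgroupOf C).map (QuotientGroup.mk' Yc)) := by
  classical
  haveI : Fact (Nat.Prime 3) := ⟨Nat.prime_three⟩
  haveI : Fact (Nat.Prime 5) := ⟨Nat.prime_five⟩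
  set π := QuotientGroup.mk' Yc with hπ
  set T := (A.subgroupOf C).map π with hT
  set N := Subgroup.normalizer (A : Set G) with hN
  have heC : e ∈ C := hC ▸ Subgroup.mem_centralizer_singleton_iff.2 rfl
  have hAC : A ≤ C := fun v hv => hC ▸ Subgroup.mem_centralizer_singleton_iff.2 (hab v hv e he)
  have he3 : e ^ 3 = 1 := hexp e he
  have hYA : Yc ≤ A.subgroupOf C := fun v hv => by
    rw [hYc, Subgroup.mem_subgroupOf] at hv
    exact (Subgroup.zpowers_le.2 he) hv
  have hmemT : ∀ v : C, π v ∈ T ↔ (v : G) ∈ A := by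
    intro v
    constructor
    · rintro ⟨w, hw, hwv⟩
      rw [hπ, QuotientGroup.mk'_eq_mk'] at hwv
      obtain ⟨d, hd, rfl⟩ := hwv
      exact A.mul_mem hw (hYA hd)
    · exact fun hv => ⟨v, hv, rfl⟩
  -- the normaliser
  set Mc := (N ⊓ C).subgroupOf C with hMcdef
  have hnorm : ∀ v : C, π v ∈ Subgroup.normalizer (T : Set (C ⧸ Yc)) ↔ (v : G) ∈ N := by
    intro v
    constructor
    · intro hv
      refine Subgroup.mem_normalizer_fintype fun w hw => ?_
      have h := (Subgroup.mem_normalizer_iff.1 hv (π ⟨w, hAC hw⟩)).1 ((hmemT _).2 hw)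
      rw [← map_mul, ← map_inv, ← map_mul] at h
      exact (hmemT _).1 h
    · intro hv
      refine Subgroup.mem_normalizer_iff.2 fun t => ?_
      obtain ⟨w, rfl⟩ := QuotientGroup.mk'_surjective Yc t
      rw [← map_mul, ← map_inv, ← map_mul]
      show π w ∈ T ↔ π (v * w * v⁻¹) ∈ T
      rw [hmemT, hmemT]
      exact Subgroup.mem_normalizer_iff.1 hv (w : G)
  have hNT : Subgroup.normalizer (T : Set (C ⧸ Yc)) = Mc.map π := by
    ext t
    obtain ⟨v, rfl⟩ := QuotientGroup.mk'_surjective Yc t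
    rw [hnorm]
    constructor
    · intro hv; exact ⟨v, ⟨hv, v.2⟩, rfl⟩
    · rintro ⟨w, hw, hwv⟩
      exact (hnorm v).1 (hwv ▸ (hnorm w).2 hw.1)
  have hY3 : Nat.card Yc = 3 := by
    rw [hYc, Nat.card_congr (Subgroup.subgroupOfEquivOfLe (Subgroup.zpowers_le.2 heC)).toEquiv,
      Nat.card_zpowers, orderOf_eq_prime he3 he1]
  have hcardmap : ∀ K : Subgroup C, Yc ≤ K → Nat.card K = 3 * Nat.card (K.map π) := by
    intro K hK
    have h := (π.comp K.subtype).ker.card_mul_index
    have hr : (π.comp K.subtype).range = K.map π := by rw [MonoidHom.range_comp, Subgroup.range_subtype]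
    have hk : (π.comp K.subtype).ker = Yc.subgroupOf K := by
      rw [← MonoidHom.comap_ker, hπ, QuotientGroup.ker_mk']; rfl
    rw [Subgroup.index_ker, hr, hk, Nat.card_congr (Subgroup.subgroupOfEquivOfLe hK).toEquiv, hY3] at h
    exact h.symm
  have hcT : Nat.card T = 81 := by
    have h := hcardmap _ hYA
    rw [Nat.card_congr (Subgroup.subgroupOfEquivOfLe hAC).toEquiv, hA] at h
    rw [hT]; omega
  have hcN : Nat.card ↥(Subgroup.normalizer (T : Set (C ⧸ Yc))) = 29160 := by
    have h := hcardmap Mc fun v hv => ⟨Subgroup.le_normalizer (hYA hv), v.2⟩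
    rw [hMcdef, Nat.card_congr (Subgroup.subgroupOfEquivOfLe (inf_le_right : N ⊓ C ≤ C)).toEquiv, hMc] at h
    rw [hNT, hMcdef]; omega
  refine ⟨?_, hcT, ?_, ?_, ?_, hcN, ?_, ?_⟩
  · have h := Yc.card_mul_index
    rw [Subgroup.index_eq_card, hY3, hCc] at h
    omega
  · rintro _ ⟨v, hv, rfl⟩ _ ⟨w, hw, rfl⟩
    rw [← map_mul, ← map_mul]
    exact congrArg π (Subtype.ext (hab _ hv _ hw))
  · rintro _ ⟨v, hv, rfl⟩
    rw [← map_pow]
    rw [show v ^ 3 = 1 from Subtype.ext (by simpa using hexp _ hv), map_one]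
  · refine le_antisymm (fun t ht => ?_) ?_
    · obtain ⟨c, rfl⟩ := QuotientGroup.mk'_surjective Yc t
      have hcN' : (c : G) ∈ N := (hnorm c).1
        ((Subgroup.centralizer_le_normalizer (T : Set (C ⧸ Yc))) ht)
      -- elements acting trivially modulo the line
      let K : Subgroup G :=
        { carrier := {m | m ∈ N ⊓ C ∧ ∀ v ∈ A, m * v * m⁻¹ * v⁻¹ ∈ Subgroup.zpowers e}
          one_mem' := ⟨one_mem _, fun v _ => by simp⟩
          mul_mem' := fun {m m'} hm hm' => ⟨mul_mem hm.1 hm'.1, fun v hv => by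
            have h1 := hm'.2 v hv
            have h2 := hm.2 _ ((Subgroup.mem_normalizer_iff.1 hm'.1.1 v).1 hv)
            rw [show m * m' * v * (m * m')⁻¹ * v⁻¹ =
              (m * (m' * v * m'⁻¹) * m⁻¹ * (m' * v * m'⁻¹)⁻¹) * (m' * v * m'⁻¹ * v⁻¹) by group]
            exact mul_mem h2 h1⟩
          inv_mem' := fun {m} hm => ⟨inv_mem hm.1, fun v hv => by
            have hw : m⁻¹ * v * m ∈ A := by
              have := (Subgroup.mem_normalizer_iff.1 (inv_mem hm.1.1) v).1 hv
              rwa [inv_inv] at this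
            have h1 := inv_mem (hm.2 _ hw)
            rwa [show (m * (m⁻¹ * v * m) * m⁻¹ * (m⁻¹ * v * m)⁻¹)⁻¹ =
              m⁻¹ * v * m⁻¹⁻¹ * v⁻¹ by group] at h1⟩ }
      have hAK : A ≤ K := fun m hm => ⟨⟨Subgroup.le_normalizer hm, hAC hm⟩, fun v hv => by
        rw [hab m hm v hv]; simp⟩
      have hcK : (c : G) ∈ K := by
        refine ⟨⟨hcN', c.2⟩, fun v hv => ?_⟩
        have h := Subgroup.mem_centralizer_iff.1 ht (π ⟨v, hAC hv⟩) ((hmemT _).2 hv)
        replace h : π ⟨v, hAC hv⟩ * π c = π c * π ⟨v, hAC hv⟩ := h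
        have h' : c * ⟨v, hAC hv⟩ * c⁻¹ * (⟨v, hAC hv⟩ : C)⁻¹ ∈ Yc := by
          rw [← QuotientGroup.ker_mk' Yc, MonoidHom.mem_ker, map_mul, map_mul, map_mul, map_inv, map_inv,
            ← hπ, ← h]
          group
        rw [hYc] at h'
        exact h'
      rcases hsimple K hAK (fun m hm => hm.1) (fun m hm k hk =>
          ⟨mul_mem (mul_mem hm hk.1) (inv_mem hm), fun v hv => by
            have hw : m⁻¹ * v * m ∈ A := by
              have := (Subgroup.mem_normalizer_iff.1 (inv_mem hm.1) v).1 hv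
              rwa [inv_inv] at this
            have hme : m * e = e * m := Subgroup.mem_centralizer_singleton_iff.1 (hC ▸ hm.2)
            obtain ⟨j, hj⟩ := Subgroup.mem_zpowers_iff.1 (hk.2 _ hw)
            refine ⟨j, ?_⟩
            show e ^ j = m * k * m⁻¹ * v * (m * k * m⁻¹)⁻¹ * v⁻¹
            rw [show m * k * m⁻¹ * v * (m * k * m⁻¹)⁻¹ * v⁻¹ =
              m * (k * (m⁻¹ * v * m) * k⁻¹ * (m⁻¹ * v * m)⁻¹) * m⁻¹ by group, ← hj,
              ((show Commute m e from hme).zpow_right j).mul_inv_cancel]⟩) with hK | hK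
      · exact (hmemT c).2 (hK ▸ hcK)
      · exfalso
        obtain ⟨f, hf⟩ := exists_prime_orderOf_dvd_card' (G := (N ⊓ C : Subgroup G)) 5
          (by rw [hMc]; norm_num)
        have hfK : (f : G) ∈ K := by rw [hK]; exact f.2
        have hf5 : (f : G) ^ 5 = 1 := by
          rw [← hf, ← Subgroup.orderOf_coe, pow_orderOf_eq_one]
        have hfC : (f : G) ∈ Subgroup.centralizer (A : Set G) := Subgroup.mem_centralizer_iff.2 fun v hv => by
          obtain ⟨j, hj⟩ := Subgroup.mem_zpowers_iff.1 (hfK.2 v hv)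
          have hfe : (f : G) * e = e * f := Subgroup.mem_centralizer_singleton_iff.1 (hC ▸ f.2.2)
          have hstep : (f : G) * v * (f : G)⁻¹ = e ^ j * v := by rw [hj]; group
          have hit : ∀ i : ℕ, (f : G) ^ i * v * ((f : G) ^ i)⁻¹ = e ^ (j * i) * v := by
            intro i
            induction i with
            | zero => simp
            | succ i ih =>
              rw [pow_succ', show (f : G) * (f : G) ^ i * v * ((f : G) * (f : G) ^ i)⁻¹ =
                f * ((f : G) ^ i * v * ((f : G) ^ i)⁻¹) * (f : G)⁻¹ by group, ih,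
                show (f : G) * (e ^ (j * i) * v) * (f : G)⁻¹ =
                  (f * e ^ (j * i) * (f : G)⁻¹) * (f * v * (f : G)⁻¹) by group,
                ((show Commute (f : G) e from hfe).zpow_right _).mul_inv_cancel, hstep, ← mul_assoc,
                ← zpow_add]
              push_cast
              ring_nf
          have h5 := hit 5
          rw [hf5, one_mul, inv_one, mul_one] at h5
          have hd : (3 : ℤ) ∣ j * 5 := by
            have : e ^ (j * 5) = 1 := by
              have := right_eq_mul.1 h5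
              simpa using this
            rw [← orderOf_dvd_iff_zpow_eq_one, orderOf_eq_prime he3 he1] at this
            simpa using this
          have hd' : (3 : ℤ) ∣ j := by omega
          have : e ^ j = 1 := by
            rw [← orderOf_dvd_iff_zpow_eq_one, orderOf_eq_prime he3 he1]; simpa using hd'
          rw [this, one_mul] at hstep
          exact (mul_inv_eq_iff_eq_mul.1 hstep).symm
        rw [hcen] at hfC
        have h3 := hexp _ hfC
        have : orderOf (f : G) ∣ 3 := orderOf_dvd_of_pow_eq_one h3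
        rw [Subgroup.orderOf_coe, hf] at this
        norm_num at this
    · intro t ht
      refine Subgroup.mem_centralizer_iff.2 fun s hs => ?_
      obtain ⟨v, hv, rfl⟩ := ht
      obtain ⟨w, hw, rfl⟩ := hs
      rw [← map_mul, ← map_mul]
      exact congrArg π (Subtype.ext (hab _ hw _ hv))
  · haveI hn : (T.subgroupOf (Subgroup.normalizer (T : Set (C ⧸ Yc)))).Normal :=
      Subgroup.normal_in_normalizer
    refine ⟨hn, ?_⟩
    set NT := Subgroup.normalizer (T : Set (C ⧸ Yc)) with hNTdef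
    haveI : Nontrivial (↥NT ⧸ T.subgroupOf NT) := by
      rw [← Finite.one_lt_card_iff_nontrivial]
      have h := Subgroup.card_eq_card_quotient_mul_card_subgroup (T.subgroupOf NT)
      rw [hcN, Nat.card_congr (Subgroup.subgroupOfEquivOfLe
        (Subgroup.le_normalizer : T ≤ NT)).toEquiv, hcT] at h
      omega
    refine ⟨fun L hL => ?_⟩
    -- pull back to the group
    let L' := (L.comap (QuotientGroup.mk' (T.subgroupOf NT))).map NT.subtype
    let K : Subgroup G := (L'.comap π).map C.subtype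
    have hL'N : L' ≤ NT := Subgroup.map_subtype_le _
    have hmemL' : ∀ t : NT, (t : C ⧸ Yc) ∈ L' ↔ QuotientGroup.mk' (T.subgroupOf NT) t ∈ L := fun t =>
      ⟨fun ⟨s, hs, hst⟩ => by rw [← Subtype.ext hst]; exact hs, fun h => ⟨t, h, rfl⟩⟩
    have hTL' : T ≤ L' := fun t ht => (hmemL' ⟨t, Subgroup.le_normalizer ht⟩).2 (by
      rw [QuotientGroup.mk'_apply, (QuotientGroup.eq_one_iff _).2 (Subgroup.mem_subgroupOf.2 ht)]
      exact one_mem L)
    have hmemK : ∀ v : C, (v : G) ∈ K ↔ π v ∈ L' := fun v =>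
      ⟨fun ⟨w, hw, hwv⟩ => by rw [← Subtype.ext hwv]; exact hw, fun h => ⟨v, h, rfl⟩⟩
    have hKM : K ≤ N ⊓ C := by
      rintro _ ⟨v, hv, rfl⟩
      exact ⟨(hnorm v).1 (hL'N hv), v.2⟩
    have hAK : A ≤ K := fun v hv => (hmemK ⟨v, hAC hv⟩).2 (hTL' ((hmemT _).2 hv))
    rcases hsimple K hAK hKM (fun m hm k hk => by
      obtain ⟨v, hv, rfl⟩ := hk
      let m' : C := ⟨m, hm.2⟩
      refine (hmemK (m' * v * m'⁻¹)).2 ?_
      have hm' : π m' ∈ NT := (hnorm m').2 hm.1
      have hv' : π v ∈ NT := hL'N hv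
      rw [map_mul, map_mul, map_inv]
      refine (hmemL' (⟨π m', hm'⟩ * ⟨π v, hv'⟩ * ⟨π m', hm'⟩⁻¹)).2 ?_
      rw [map_mul, map_mul, map_inv]
      exact hL.conj_mem _ ((hmemL' ⟨π v, hv'⟩).1 hv) _) with hK | hK
    · left
      refine (Subgroup.eq_bot_iff_forall _).2 fun l hl => ?_
      obtain ⟨t, rfl⟩ := QuotientGroup.mk'_surjective (T.subgroupOf NT) l
      obtain ⟨v, hv⟩ := QuotientGroup.mk'_surjective Yc (t : C ⧸ Yc)
      rw [QuotientGroup.mk'_apply, QuotientGroup.eq_one_iff, Subgroup.mem_subgroupOf, ← hv]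
      refine (hmemT v).2 (hK ▸ (hmemK v).2 ?_)
      rw [hπ, hv]
      exact (hmemL' t).2 hl
    · right
      refine eq_top_iff.2 fun l _ => ?_
      obtain ⟨t, rfl⟩ := QuotientGroup.mk'_surjective (T.subgroupOf NT) l
      obtain ⟨v, hv⟩ := QuotientGroup.mk'_surjective Yc (t : C ⧸ Yc)
      refine (hmemL' t).1 ?_
      rw [← hv]
      refine (hmemK v).1 (hK.symm ▸ ⟨(hnorm v).1 ?_, v.2⟩)
      rw [hπ, hv]
      exact t.2
  · intro g hg
    obtain ⟨c, rfl⟩ := QuotientGroup.mk'_surjective Yc g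
    refine (hnorm c).2 (hclosed _ fun v hv => ?_)
    have h := hg (π ⟨v, hAC hv⟩) ((hmemT _).2 hv)
    rw [← map_inv, ← map_mul, ← map_mul] at h
    exact (hnorm (c * ⟨v, hAC hv⟩ * c⁻¹)).1 h

end CfsgLib.SuzukiType
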